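import Cfsg.Agent.Chars2.SmallDegreeLocal

/-!
When `p` divides the group order only once and the conjugates of `x` generate: a character in which
`x` is not scalar has degree at least `(p - 1) / 2`.

With `φ` of smaller degree, the eigenvalues of `x` in `φ` form one orbit avoiding `1`, so the
products of `φ` and of a Galois conjugate of `φ` with the conjugate of `φ` agree on the regular
elements while the second has no eigenvalue `1` at `x`; this makes every non-principal constituent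
of the first carry too many eigenvalues different from `1`.
-/

set_option autoImplicit false
set_option linter.unusedSectionVars false
set_option linter.style.haveILetI false

namespace Cfsg.Agent.Chars2.Cyc

open Cfsg Cfsg.Agent Cfsg.Agent.Blocks Cfsg.Agent.BlockChar Function
open scoped ComplexConjugate

universe u

variable {G : Type u} [Group G] [Fintype G] {H : Subgroup G} [Fintype H] {p m K : ℕ}
  [hp : Fact p.Prime] {M : Ideal AlgInt} [M.IsMaximal] {x : G} {σ : ℂ ≃+* ℂ}

namespace Once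

theorem K_ne_zero (S : Once M p m K x σ H) : ((K : ℕ) : ZMod p) ≠ 0 := fun h => by
  have h1 := S.hKpow
  rw [h, zero_pow (by have := hp.out.two_le; omega)] at h1
  exact zero_ne_one h1

/-- A character of small degree which is the same at `x` and `x ^ K` has `x` scalar. -/
theorem false_of_fixed (S : Once M p m K x σ H) {φ : IrrCharacter G}
    (hn : 2 * charDegree (φ : G → ℂ) + 1 < p)
    (hns : ‖(φ : G → ℂ) x‖ ≠ charDegree (φ : G → ℂ))
    (h : ∀ j : ℕ, (φ : G → ℂ) (x ^ (j * K)) = (φ : G → ℂ) (x ^ j)) : False := by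
  classical
  set μ : ZMod p → ℕ := S.eigMult φ with hμ
  have h1 : ∀ a : ℕ, (∑ i : ZMod p, ∑ i' : ZMod p,
      if (a : ZMod p) * i = i' then μ i * μ i' else 0) = ∑ i : ZMod p, μ i * μ ((a : ZMod p) * i) :=
    fun a => Finset.sum_congr rfl fun i _ => by rw [Finset.sum_ite_eq, if_pos (Finset.mem_univ _)]
  have hK := S.sum_values_mul φ K
  have hone := S.sum_values_mul φ 1
  simp only [h] at hK
  simp only [mul_one] at hone
  rw [hK] at hone
  have h2 : ∑ i : ZMod p, μ i * μ ((K : ZMod p) * i) = ∑ i : ZMod p, μ i * μ i := by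
    have h3 := Nat.cast_injective (R := ℂ)
      (mul_left_cancel₀ (Nat.cast_ne_zero.2 hp.out.ne_zero) hone)
    rw [← hμ, h1, h1] at h3
    simpa using h3
  have h4 : ∑ i : ZMod p, μ ((K : ZMod p) * i) * μ ((K : ZMod p) * i) = ∑ i : ZMod p, μ i * μ i :=
    Fintype.sum_equiv (Equiv.mulLeft₀ _ S.K_ne_zero) _ _ fun i => rfl
  have h5 : ∑ i : ZMod p, ((μ ((K : ZMod p) * i) : ℤ) - μ i) ^ 2 = 0 := by
    have e1 : ∀ i : ZMod p, ((μ ((K : ZMod p) * i) : ℤ) - μ i) ^ 2 =
        ((μ ((K : ZMod p) * i) * μ ((K : ZMod p) * i) : ℕ) : ℤ) + ((μ i * μ i : ℕ) : ℤ) -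
          2 * ((μ i * μ ((K : ZMod p) * i) : ℕ) : ℤ) := fun i => by push_cast; ring
    simp only [e1, Finset.sum_sub_distrib, Finset.sum_add_distrib, ← Finset.mul_sum,
      ← Nat.cast_sum, h2, h4]
    ring
  have hinv : ∀ i, μ ((K : ZMod p) * i) = μ i := fun i => by
    have := (Finset.sum_eq_zero_iff_of_nonneg fun i _ => sq_nonneg _).1 h5 i (Finset.mem_univ i)
    rw [sq_eq_zero_iff, sub_eq_zero] at this
    exact_mod_cast this
  have hzero : ∀ i : ZMod p, i ≠ 0 → μ i = 0 := by
    intro i hi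
    by_contra hne
    have hall : ∀ r : ℕ, μ ((K : ZMod p) ^ r * i) = μ i := fun r => by
      induction r with
      | zero => rw [pow_zero, one_mul]
      | succ r ih => rw [pow_succ', mul_assoc, hinv, ih]
    have hsub : ∀ j ∈ Finset.univ.erase (0 : ZMod p), 1 ≤ μ j := fun j hj => by
      obtain ⟨r, -, hr⟩ := S.exists_pow_K (a := j * i⁻¹)
        (mul_ne_zero (Finset.mem_erase.1 hj).1 (inv_ne_zero hi))
      have := hall r
      rw [hr, mul_assoc, inv_mul_cancel₀ hi, mul_one] at this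
      omega
    have h6 := (Finset.sum_le_sum hsub).trans
      (Finset.sum_le_sum_of_subset (Finset.erase_subset _ _))
    rw [← S.degree_eig, Finset.sum_const, Finset.card_erase_of_mem (Finset.mem_univ _),
      Finset.card_univ, ZMod.card, smul_eq_mul, mul_one] at h6
    omega
  have hval := S.value_eig φ 1
  rw [pow_one, Finset.sum_eq_single (0 : ZMod p) (fun i _ hi => by
    rw [← hμ, hzero i hi]; simp) (fun h => absurd (Finset.mem_univ _) h)] at hval
  have hdeg := S.degree_eig φ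
  rw [Finset.sum_eq_single (0 : ZMod p) (fun i _ hi => hzero i hi)
    (fun h => absurd (Finset.mem_univ _) h)] at hdeg
  exact hns (by rw [hval, mul_zero, AddChar.map_zero_eq_one, mul_one, Complex.norm_natCast, hdeg])

/-- The eigenvalues at `x` of a character of small degree: no eigenvalue one, one orbit. -/
theorem small_char_shape (S : Once M p m K x σ H) (hK : ¬ IsConj (x ^ K) x) {φ : IrrCharacter G}
    (hn : 2 * charDegree (φ : G → ℂ) + 1 < p)
    (hns : ‖(φ : G → ℂ) x‖ ≠ charDegree (φ : G → ℂ)) :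
    S.eigMult φ 0 = 0 ∧
      ∀ i : ZMod p, S.eigMult φ i ≠ 0 → S.eigMult φ ((K : ZMod p) * i) = 0 := by
  classical
  set n := charDegree (φ : G → ℂ) with hn'
  set B := blockOf M (φ : G → ℂ) with hB'
  have hB : IsPBlock M B := isPBlock_blockOf φ
  have hφB : φ ∈ B := mem_blockOf_self φ
  have hd : 0 < blockDefect p B := by
    have hle : sInf ((fun χ : IrrCharacter G => (charDegree (χ : G → ℂ)).factorization p) '' B) ≤
        n.factorization p := Nat.sInf_le ⟨φ, hφB, rfl⟩
    have hz : n.factorization p = 0 := Nat.factorization_eq_zero_of_not_dvd fun h => by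
      have := Nat.le_of_dvd (Blocks.charDegree_eq φ.2).2 h
      omega
    rw [blockDefect, S.vG]
    omega
  obtain ⟨b₀, hind⟩ := S.exists_induced hB hd
  obtain ⟨θ₀, hθ₀⟩ := block_nonempty hind.1
  obtain ⟨O⟩ := S.exists_shape hd hind hθ₀
  have hφY : φ ∈ O.Y := by
    by_contra hφY
    refine S.false_of_fixed hn hns fun j => ?_
    have h := S.gal_value φ 1 (x ^ j)
    rw [iterate_one, O.fixed φ hφB hφY, pow_one, ← pow_mul] at h
    exact h.symm
  have ht := S.two_le_t hind O hK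
  set h := (p - 1) / O.t with hh
  have hht : h * O.t = p - 1 := Nat.div_mul_cancel O.t_dvd
  have h2h : 2 * h ≤ p - 1 := by rw [← hht]; exact le_trans (le_of_eq (mul_comm _ _)) (Nat.mul_le_mul_left h ht)
  have hle : ∀ b, IsPBlock M b → blockMult φ b ≤ n := fun b hb => by
    rw [hn', S.degree_blocks]
    refine le_trans ?_ (Finset.single_le_sum (f := fun b => blockDeg b * blockMult φ b)
      (fun _ _ => Nat.zero_le _) (mem_blockFinset.2 hb))
    exact Nat.le_mul_of_pos_left _ (S.blockDeg_pos hb)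
  have hni : ∀ b, IsPBlock M b → ¬ IsInducedBlock M H b B → blockMult φ b = 0 := fun b hb hbni => by
    have h1 := S.fix_noninducing hB hφB hb hbni
    have h2 := hle b hb
    rcases Nat.eq_zero_or_pos (S.blockFix φ b) with e | e
    · rw [← h1, e, mul_zero]
    · have := Nat.le_mul_of_pos_right p e
      omega
  have hin : ∀ b, IsInducedBlock M H b B → S.blockFix φ b = 0 ∧ blockMult φ b = h := fun b hb => by
    have h1 := S.fix_inducing_Y hind O hb hφY
    have h2 := hle b hb.1
    rw [← hh] at h1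
    have h3 : S.blockFix φ b = 0 := by
      by_contra hne
      have h4 : p * 1 ≤ p * S.blockFix φ b := Nat.mul_le_mul_left p (Nat.pos_of_ne_zero hne)
      rcases O.sign φ hφB with e | e <;> rw [e] at h1 <;> omega
    refine ⟨h3, ?_⟩
    rw [h3, mul_zero, Nat.cast_zero] at h1
    rcases O.sign φ hφB with e | e <;> rw [e] at h1
    · have : 0 < h := Nat.div_pos (Nat.le_of_dvd (by omega) O.t_dvd) O.t_pos
      omega
    · omega
  have hnz : ∀ φ' : IrrCharacter H, mult φ φ' ≠ 0 → S.expo φ' ≠ 0 := by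
    intro φ' hne he
    set b := blockOf M (φ' : H → ℂ)
    have hb : IsPBlock M b := isPBlock_blockOf φ'
    by_cases hbi : IsInducedBlock M H b B
    · have h1 : mult φ φ' ≤ S.blockFix φ b :=
        Finset.single_le_sum (f := fun φ' => mult φ φ') (fun _ _ => Nat.zero_le _)
          (Finset.mem_filter.2 ⟨mem_bf.2 (mem_blockOf_self φ'), he⟩)
      have := (hin b hbi).1
      omega
    · have h1 : mult φ φ' ≤ blockMult φ b :=
        Finset.single_le_sum (f := fun φ' => mult φ φ') (fun _ _ => Nat.zero_le _)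
          (mem_bf.2 (mem_blockOf_self φ'))
      have := hni b hb hbi
      omega
  -- one orbit in `b₀`
  obtain ⟨φ₁, hφ₁, hne₁⟩ : ∃ φ₁ ∈ b₀, mult φ φ₁ ≠ 0 := by
    by_contra hno
    push Not at hno
    have h1 := (hin b₀ hind).2
    rw [blockMult, Finset.sum_eq_zero fun φ' hφ' => hno φ' (mem_bf.1 hφ')] at h1
    have : 0 < h := Nat.div_pos (Nat.le_of_dvd (by omega) O.t_dvd) O.t_pos
    omega
  have he1 := hnz φ₁ hne₁
  have hgalb : ∀ r : ℕ, (gal σ)^[r] φ₁ ∈ b₀ := fun r => by
    induction r with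
    | zero => exact hφ₁
    | succ r ih =>
      rw [iterate_succ_apply']
      exact (gal_mem_block S.hm S.hpM S.hcardH S.hσ hind.1).2 ih
  have hexp : ∀ r : ℕ, S.expo ((gal σ)^[r] φ₁) = (K : ZMod p) ^ r * S.expo φ₁ := fun r => by
    induction r with
    | zero => rw [pow_zero, one_mul]; rfl
    | succ r ih => rw [iterate_succ_apply', S.expo_gal, ih, pow_succ', mul_assoc]
  have hmult : ∀ r : ℕ, mult ((gal σ)^[r] φ) ((gal σ)^[r] φ₁) = mult φ φ₁ := fun r => by
    induction r with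
    | zero => rfl
    | succ r ih => rw [iterate_succ_apply', iterate_succ_apply', S.mult_gal, ih]
  set Φ : Finset (IrrCharacter H) := (Finset.range h).image fun j => (gal σ)^[O.t * j] φ₁ with hΦ
  have hΦb : Φ ⊆ bf b₀ := fun φ' hφ' => by
    obtain ⟨j, -, rfl⟩ := Finset.mem_image.1 hφ'
    exact mem_bf.2 (hgalb _)
  have hΦcard : Φ.card = h := by
    rw [hΦ, Finset.card_image_of_injOn, Finset.card_range]
    intro i hi j hj he
    have h1 := congrArg S.expo he
    simp only [hexp] at h1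
    have hlt : ∀ i ∈ Finset.range h, O.t * i < p - 1 := fun i hi => by
      rw [← hht, mul_comm h]
      exact Nat.mul_lt_mul_of_pos_left (Finset.mem_range.1 hi) O.t_pos
    exact Nat.eq_of_mul_eq_mul_left O.t_pos (pow_injOn_Iio_orderOf (x := (K : ZMod p))
      (show O.t * i ∈ Set.Iio _ by rw [S.ord]; exact hlt i hi)
      (show O.t * j ∈ Set.Iio _ by rw [S.ord]; exact hlt j hj) (mul_right_cancel₀ he1 h1))
  have hΦpos : ∀ φ' ∈ Φ, 1 ≤ mult φ φ' := fun φ' hφ' => by
    obtain ⟨j, -, rfl⟩ := Finset.mem_image.1 hφ'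
    have := hmult (O.t * j)
    rw [show (gal σ)^[O.t * j] φ = φ from IsPeriodicPt.mul_const (O.fixed_t φ hφB) j] at this
    omega
  have hb0 : ∀ φ' ∈ b₀, mult φ φ' ≠ 0 →
      ∃ j, S.expo φ' = (K : ZMod p) ^ (O.t * j) * S.expo φ₁ := by
    intro φ' hφ' hne
    by_cases hmem : φ' ∈ Φ
    · obtain ⟨j, -, rfl⟩ := Finset.mem_image.1 hmem
      exact ⟨j, hexp _⟩
    exfalso
    have h1 := Finset.sum_le_sum hΦpos
    rw [Finset.sum_const, smul_eq_mul, mul_one, hΦcard] at h1
    have h2 : mult φ φ' + ∑ φ'' ∈ Φ, mult φ φ'' ≤ blockMult φ b₀ := by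
      rw [← Finset.sum_insert hmem]
      exact Finset.sum_le_sum_of_subset (Finset.insert_subset (mem_bf.2 hφ') hΦb)
    rw [(hin b₀ hind).2] at h2
    omega
  have hall : ∀ φ' : IrrCharacter H, mult φ φ' ≠ 0 →
      ∃ a : ℕ, IsConj (x ^ K ^ a) x ∧ S.expo φ' = (K : ZMod p) ^ a * S.expo φ₁ := by
    intro φ' hne
    set b := blockOf M (φ' : H → ℂ)
    have hb : IsPBlock M b := isPBlock_blockOf φ'
    have hbi : IsInducedBlock M H b B := by
      by_contra hbi
      have h1 : mult φ φ' ≤ blockMult φ b :=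
        Finset.single_le_sum (f := fun φ' => mult φ φ') (fun _ _ => Nat.zero_le _)
          (mem_bf.2 (mem_blockOf_self φ'))
      have := hni b hb hbi
      omega
    obtain ⟨g, hg, hgP, hgb⟩ :=
      (first_main_at S.hpM hB (S.isDefectGroup_zpowers hB hd).2 S.sup_eq_H).2 b b₀ hbi hind
    obtain ⟨r, -, hxr⟩ := S.exists_conj_pow hgP
    have hmem : irrEquiv (normEquiv hg) φ' ∈ b₀ := by
      have : φ' ∈ mapSet (normEquiv hg) b₀ := hgb.symm ▸ mem_blockOf_self φ'
      exact this
    obtain ⟨j, hj⟩ := hb0 _ hmem (by rwa [S.mult_conj hg φ φ'])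
    refine ⟨r + O.t * j, ?_, by rw [S.expo_conj hg hxr φ', hj, pow_add, mul_assoc]⟩
    rcases S.dichotomy hind (O.t * j) with ⟨-, n', hn', hxr', -⟩ | ⟨h0, -⟩
    · refine isConj_iff.2 ⟨g * n', ?_⟩
      have e1 : n' * x ^ K ^ (O.t * j) * n'⁻¹ = x := by rw [← hxr']; group
      have e2 : g * x ^ K ^ r * g⁻¹ = x := by rw [← hxr]; group
      have e3 : n' * x ^ K ^ (r + O.t * j) * n'⁻¹ = x ^ K ^ r := by
        rw [add_comm, pow_add, pow_mul, ← conj_pow, e1]
      rw [mul_inv_rev, show g * n' * x ^ K ^ (r + O.t * j) * (n'⁻¹ * g⁻¹) =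
        g * (n' * x ^ K ^ (r + O.t * j) * n'⁻¹) * g⁻¹ by group, e3, e2]
    · rw [Finset.sum_congr rfl fun χ _ => by rw [(O.period _).2 (dvd_mul_right O.t j) χ],
        sum_dB S hind hind.1, if_pos rfl] at h0
      exact absurd h0 (Nat.cast_ne_zero.2 hp.out.ne_zero)
  refine ⟨?_, fun i hi => ?_⟩
  · rw [S.eig_zero_blocks]
    refine Finset.sum_eq_zero fun b hb => ?_
    have hb' := mem_blockFinset.1 hb
    by_cases hbi : IsInducedBlock M H b B
    · rw [(hin b hbi).1, mul_zero]
    · have h1 := S.blockFix_le φ b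
      rw [hni b hb' hbi] at h1
      rw [Nat.le_zero.1 h1, mul_zero]
  · by_contra hne
    have hex : ∀ i, S.eigMult φ i ≠ 0 → ∃ φ', S.expo φ' = i ∧ mult φ φ' ≠ 0 := fun i hi => by
      obtain ⟨φ', hφ', hne⟩ := Finset.exists_ne_zero_of_sum_ne_zero hi
      exact ⟨φ', (Finset.mem_filter.1 hφ').2, left_ne_zero_of_mul hne⟩
    obtain ⟨φ', rfl, hne'⟩ := hex i hi
    obtain ⟨φ'', he'', hne''⟩ := hex _ hne
    obtain ⟨a, ha, hae⟩ := hall φ' hne'
    obtain ⟨a', ha', hae'⟩ := hall φ'' hne''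
    rw [hae, hae', ← mul_assoc, ← pow_succ'] at he''
    have h1 := mul_right_cancel₀ he1 he''
    have h2 : x ^ K ^ a' = x ^ K ^ (a + 1) := by
      rw [S.pow_eq_pow_iff']
      push_cast
      exact h1
    obtain ⟨c, hc⟩ := isConj_iff.1 ha
    refine hK (IsConj.trans (IsConj.symm (isConj_iff.2 ⟨c, ?_⟩)) (h2 ▸ ha'))
    rw [pow_succ, pow_mul, ← conj_pow, hc]

/-- The constituents of the product have many eigenvalues different from one. -/
theorem constituent_bound (S : Once M p m K x σ H) (hK : ¬ IsConj (x ^ K) x)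
    (hgen : ∀ ψ : IrrCharacter G, (ψ : G → ℂ) x = (ψ : G → ℂ) 1 → ψ = oneChar G)
    (m₀ m₁ : IrrCharacter G → ℕ)
    (hreg : ∀ g : G, ¬ p ∣ orderOf g →
      ∑ χ, (((m₀ χ : ℤ) - m₁ χ : ℤ) : ℂ) * (χ : G → ℂ) g = 0)
    (hfree : ∀ χ, m₁ χ ≠ 0 → S.eigMult χ 0 = 0) {ψ : IrrCharacter G} (hψ : ψ ≠ oneChar G)
    (hm₀ : m₀ ψ ≠ 0) : (p + 1) * S.eigMult ψ 0 ≤ 2 * charDegree (ψ : G → ℂ) := by
  classical
  set B := blockOf M (ψ : G → ℂ)
  have hB : IsPBlock M B := isPBlock_blockOf ψ
  have hψB : ψ ∈ B := mem_blockOf_self ψ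
  suffices hblock : ∀ b ∈ blockFinset M H, (p + 1) * S.blockFix ψ b ≤ 2 * blockMult ψ b by
    rw [S.eig_zero_blocks, S.degree_blocks, Finset.mul_sum, Finset.mul_sum]
    refine Finset.sum_le_sum fun b hb => ?_
    calc (p + 1) * (blockDeg b * S.blockFix ψ b) = blockDeg b * ((p + 1) * S.blockFix ψ b) := by ring
      _ ≤ blockDeg b * (2 * blockMult ψ b) := Nat.mul_le_mul_left _ (hblock b hb)
      _ = _ := by ring
  have hnibound : ∀ b, IsPBlock M b → ¬ IsInducedBlock M H b B →
      (p + 1) * S.blockFix ψ b ≤ 2 * blockMult ψ b := fun b hb hbi => by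
    rw [← S.fix_noninducing hB hψB hb hbi, ← mul_assoc]
    exact Nat.mul_le_mul_right _ (by have := hp.out.two_le; omega)
  intro b hbF
  have hb := mem_blockFinset.1 hbF
  by_cases hbi : IsInducedBlock M H b B
  swap
  · exact hnibound b hb hbi
  have hd := S.defect_pos_of_induced hbi
  obtain ⟨θ₀, hθ₀⟩ := block_nonempty hb
  obtain ⟨O⟩ := S.exists_shape hd hbi hθ₀
  have ht := S.two_le_t hbi O hK
  set h := (p - 1) / O.t with hh
  have hht : h * O.t = p - 1 := Nat.div_mul_cancel O.t_dvd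
  have h2h : 2 * h ≤ p - 1 := by
    rw [← hht]; exact le_trans (le_of_eq (mul_comm _ _)) (Nat.mul_le_mul_left h ht)
  by_cases hψY : ψ ∈ O.Y
  · have h1 := S.fix_inducing_Y hbi O hbi hψY
    rw [← hh] at h1
    rcases O.sign ψ hψB with e | e <;> rw [e] at h1
    · rcases Nat.eq_zero_or_pos (S.blockFix ψ b) with e0 | e0
      · rw [e0]; simp
      · have h4 : (p - 1) * S.blockFix ψ b + S.blockFix ψ b = p * S.blockFix ψ b := by
          rw [← add_one_mul, Nat.sub_add_cancel hp.out.one_le]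
        have h5 : p - 1 ≤ (p - 1) * S.blockFix ψ b := Nat.le_mul_of_pos_right _ e0
        rw [add_mul, one_mul]
        omega
    · rw [add_mul, one_mul]
      have := Nat.le_mul_of_pos_left (S.blockFix ψ b) hp.out.pos
      omega
  have h1 := S.fix_inducing_X hbi O hbi hψB hψY
  have hone : 1 ≤ p := hp.out.one_le
  rcases O.sign ψ hψB with e | e <;> rw [e] at h1
  swap
  · rw [add_mul, one_mul]
    have := Nat.le_mul_of_pos_left (S.blockFix ψ b) hp.out.pos
    omega
  -- the sign is `+1`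
  rcases Nat.lt_or_ge 1 (S.blockFix ψ b) with h2 | h2
  · have h5 : (p - 1) * 2 ≤ (p - 1) * S.blockFix ψ b := Nat.mul_le_mul_left _ h2
    have h6 : (p - 1) * S.blockFix ψ b + S.blockFix ψ b = p * S.blockFix ψ b := by
      rw [← add_one_mul, Nat.sub_add_cancel hp.out.one_le]
    rw [add_mul, one_mul]
    omega
  exfalso
  have hfix1 : S.blockFix ψ b = 1 := by
    rcases Nat.eq_zero_or_pos (S.blockFix ψ b) with e0 | e0
    · rw [e0, mul_zero] at h1
      have := hp.out.two_le
      omega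
    · omega
  have hmult1 : blockMult ψ b = 1 := by rw [hfix1, mul_one] at h1; omega
  -- the relation of the coefficients
  have hμ : S.eigMult ψ 0 ≠ 0 := fun h0 => by
    rw [S.eig_zero_blocks, Finset.sum_eq_zero_iff] at h0
    have := h0 b hbF
    rw [hfix1, mul_one] at this
    exact (S.blockDeg_pos hb).ne' this
  have hm₁ : m₁ ψ = 0 := by_contra fun h => hμ (hfree ψ h)
  obtain ⟨y, hy⟩ : O.Y.Nonempty := Set.nonempty_of_ncard_ne_zero (by
    rw [← Nat.card_coe_set_eq, O.card_Y]; exact O.t_pos.ne')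
  have hcoef := rel_coeff S O (fun χ => (m₀ χ : ℤ) - m₁ χ) (fun g hg =>
    block_rel S.hpM hB (fun χ => (((m₀ χ : ℤ) - m₁ χ : ℤ) : ℂ)) hreg hg) hy
  set Z : ℤ := ∑ θ ∈ (bf B).filter (fun θ => θ ∈ O.Y), ((m₀ θ : ℤ) - m₁ θ) with hZ
  have hz : 0 < Z * O.W y := by
    have := hcoef ψ hψB hψY
    rw [e, mul_one, hm₁, Nat.cast_zero, sub_zero] at this
    rw [← this]
    exact_mod_cast Nat.pos_of_ne_zero hm₀
  have hzero : ∀ χ : IrrCharacter G, S.eigMult χ 0 = 0 → ∀ b' : Set (IrrCharacter H),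
      IsPBlock M b' → S.blockFix χ b' = 0 := fun χ h0 b' hb' => by
    rw [S.eig_zero_blocks, Finset.sum_eq_zero_iff] at h0
    exact (mul_eq_zero.1 (h0 b' (mem_blockFinset.2 hb'))).resolve_left (S.blockDeg_pos hb').ne'
  have hnon : ∀ b', IsPBlock M b' → ¬ IsInducedBlock M H b' B → blockMult ψ b' = 0 := by
    intro b' hb' hb'i
    have hrel := S.blockMult_relation O hb' hy
    rw [finsum_mem_eq_finite_toFinset_sum _ (Set.toFinite _)] at hrel
    have hnn : ∀ χ ∈ (Set.toFinite (B \ O.Y)).toFinset, 0 ≤ O.W χ * (blockMult χ b' : ℤ) := by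
      intro χ hχ
      obtain ⟨hχB, hχY⟩ := (Set.Finite.mem_toFinset _).1 hχ
      rcases O.sign χ hχB with eW | eW
      · rw [eW, one_mul]; exact Int.natCast_nonneg _
      · have hneg := hcoef χ hχB hχY
        rw [eW, mul_neg, mul_one] at hneg
        have h0 : m₁ χ ≠ 0 := fun h0 => by rw [h0, Nat.cast_zero, sub_zero] at hneg; omega
        rw [← S.fix_noninducing hB hχB hb' hb'i, hzero χ (hfree χ h0) b' hb', mul_zero,
          Nat.cast_zero, mul_zero]
    have hy0 : 0 ≤ O.W y * (blockMult y b' : ℤ) := by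
      rcases O.sign y (O.Y_sub hy) with eW | eW
      · rw [eW, one_mul]; exact Int.natCast_nonneg _
      · rw [eW] at hz
        obtain ⟨θ, hθ, hθ1⟩ : ∃ θ ∈ (bf B).filter (fun θ => θ ∈ O.Y), m₁ θ ≠ 0 := by
          by_contra hno
          push Not at hno
          have : 0 ≤ Z := Finset.sum_nonneg fun θ hθ => by
            rw [hno θ hθ, Nat.cast_zero, sub_zero]; exact Int.natCast_nonneg _
          omega
        obtain ⟨hθB, hθY⟩ := Finset.mem_filter.1 hθ
        obtain ⟨r, hr⟩ := (O.orbit θ hθY y).2 hy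
        have hyθ : blockMult y b' = blockMult θ b' := S.blockMult_congr hb' fun g hg => by
          rw [← hr]; exact S.gal_reg θ r hg
        rw [hyθ, ← S.fix_noninducing hB (mem_bf.1 hθB) hb' hb'i,
          hzero θ (hfree θ hθ1) b' hb', mul_zero, Nat.cast_zero, mul_zero]
    have hsum := Finset.sum_nonneg hnn
    have h3 := (Finset.sum_eq_zero_iff_of_nonneg hnn).1 (by omega) ψ
      ((Set.Finite.mem_toFinset _).2 ⟨hψB, hψY⟩)
    rw [e, one_mul] at h3
    exact_mod_cast h3
  have heq : ∀ b', IsPBlock M b' → blockMult ψ b' = S.blockFix ψ b' := by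
    intro b' hb'
    by_cases hb'i : IsInducedBlock M H b' B
    · obtain ⟨g, hg, -, hgb⟩ :=
        (first_main_at S.hpM hB (S.isDefectGroup_zpowers hB hd).2 S.sup_eq_H).2 b' b hb'i hbi
      have h3 : blockMult ψ b' = 1 := by rw [← hgb, S.blockMult_conj hg hb, hmult1]
      have h4 := S.fix_inducing_X hbi O hb'i hψB hψY
      rw [e, h3] at h4
      push_cast at h4
      have h5 : (p : ℤ) * (S.blockFix ψ b' : ℤ) = (p : ℤ) * 1 := by linarith
      have h6 := mul_left_cancel₀ (Int.natCast_ne_zero.2 hp.out.ne_zero) h5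
      rw [h3]
      exact_mod_cast h6.symm
    · have h4 := S.blockFix_le ψ b'
      have := hnon b' hb' hb'i
      omega
  have hdeg : charDegree (ψ : G → ℂ) = S.eigMult ψ 0 := by
    rw [S.degree_blocks, S.eig_zero_blocks]
    exact Finset.sum_congr rfl fun b' hb' => by rw [heq b' (mem_blockFinset.1 hb')]
  refine hψ (hgen ψ ?_)
  have h3 := S.degree_eig ψ
  rw [hdeg, ← Finset.add_sum_erase _ _ (Finset.mem_univ (0 : ZMod p))] at h3
  have h4 : ∀ i ∈ Finset.univ.erase (0 : ZMod p), S.eigMult ψ i = 0 :=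
    Finset.sum_eq_zero_iff.1 (by omega)
  have hval := S.value_eig ψ 1
  rw [pow_one, ← Finset.add_sum_erase _ _ (Finset.mem_univ (0 : ZMod p)),
    Finset.sum_eq_zero (fun i hi => by rw [h4 i hi, Nat.cast_zero, zero_mul]), mul_zero,
    AddChar.map_zero_eq_one, mul_one, add_zero] at hval
  rw [hval, (Blocks.charDegree_eq ψ.2).1, hdeg]

theorem le_of_nonscalar (S : Once M p m K x σ H)
    (hgen : ∀ ψ : IrrCharacter G, (ψ : G → ℂ) x = (ψ : G → ℂ) 1 → ψ = oneChar G)
    {φ : IrrCharacter G} (hns : ‖(φ : G → ℂ) x‖ ≠ charDegree (φ : G → ℂ)) :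
    p ≤ 2 * charDegree (φ : G → ℂ) + 1 := by
  classical
  by_contra hn
  push Not at hn
  have hK : ¬ IsConj (x ^ K) x := fun hc => by
    refine S.false_of_fixed hn hns fun j => ?_
    obtain ⟨c, hc⟩ := isConj_iff.1 hc
    rw [mul_comm, pow_mul, ← Chars.isClassFunction_irr φ ((x ^ K) ^ j) c, ← conj_pow, hc]
  obtain ⟨hμ0, hdisj⟩ := S.small_char_shape hK hn hns
  set n := charDegree (φ : G → ℂ) with hn'
  set μ : ZMod p → ℕ := S.eigMult φ with hμ
  set A : ℕ := ∑ i : ZMod p, μ i * μ i with hA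
  -- the two products
  have hchar : ∀ ψ : IrrCharacter G,
      IsCharacter G fun g => (ψ : G → ℂ) g * conj ((φ : G → ℂ) g) := fun ψ =>
    Chars.isCharacter_mul (Chars.irr_isCharacter ψ) (Chars.isCharacter_star (Chars.irr_isCharacter φ))
  choose mm hmm using fun (ψ χ : IrrCharacter G) =>
    Chars.exists_classInner_eq_nat (hchar ψ) (Chars.irr_isCharacter χ)
  have hdec : ∀ (ψ : IrrCharacter G) (g : G), (ψ : G → ℂ) g * conj ((φ : G → ℂ) g) =
      ∑ χ, (mm ψ χ : ℂ) * (χ : G → ℂ) g := fun ψ g => by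
    refine (congrFun (Chars.eq_sum_classInner (Chars.isClassFunction_of_isCharacter (hchar ψ))) g).trans ?_
    rw [Finset.sum_apply]
    exact Finset.sum_congr rfl fun χ _ => by rw [Pi.smul_apply, smul_eq_mul, hmm ψ χ]
  set m₀ := mm φ with hm₀
  set m₁ := mm (gal σ φ) with hm₁
  -- the eigenvalue one in a product
  have hfixsum : ∀ (ψ : IrrCharacter G) (a : ℕ),
      (∀ j, (ψ : G → ℂ) (x ^ j) = (φ : G → ℂ) (x ^ (j * a))) →
      ∑ χ, mm ψ χ * S.eigMult χ 0 = ∑ i : ZMod p, μ i * μ ((a : ZMod p) * i) := by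
    intro ψ a ha
    apply Nat.cast_injective (R := ℂ)
    refine mul_left_cancel₀ (Nat.cast_ne_zero.2 hp.out.ne_zero : (p : ℂ) ≠ 0) ?_
    have h1 := S.sum_values_mul φ a
    rw [show (∑ i : ZMod p, ∑ i' : ZMod p,
        if (a : ZMod p) * i = i' then S.eigMult φ i * S.eigMult φ i' else 0) =
        ∑ i : ZMod p, μ i * μ ((a : ZMod p) * i) from Finset.sum_congr rfl fun i _ => by
          rw [Finset.sum_ite_eq, if_pos (Finset.mem_univ _)]] at h1
    simp only [← ha, hdec] at h1
    rw [← h1, Finset.sum_comm, Nat.cast_sum, Finset.mul_sum]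
    refine Finset.sum_congr rfl fun χ _ => ?_
    rw [← Finset.mul_sum, S.sum_values_pow, Nat.cast_mul]
    ring
  have hA0 : ∑ χ, m₀ χ * S.eigMult χ 0 = A := by
    rw [hfixsum φ 1 fun j => by rw [mul_one], hA]
    simp
  have hA1 : ∀ χ, m₁ χ ≠ 0 → S.eigMult χ 0 = 0 := by
    have h : ∑ χ, m₁ χ * S.eigMult χ 0 = 0 := by
      rw [hfixsum (gal σ φ) K fun j => by
        have h := S.gal_value φ 1 (x ^ j)
        rwa [iterate_one, pow_one, ← pow_mul] at h]
      refine Finset.sum_eq_zero fun i _ => ?_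
      by_cases hi : μ i = 0
      · rw [hi, zero_mul]
      · rw [show μ ((K : ZMod p) * i) = 0 from hdisj i hi, mul_zero]
    intro χ hχ
    exact (mul_eq_zero.1 ((Finset.sum_eq_zero_iff.1 h) χ (Finset.mem_univ χ))).resolve_left hχ
  have hreg : ∀ g : G, ¬ p ∣ orderOf g →
      ∑ χ, (((m₀ χ : ℤ) - m₁ χ : ℤ) : ℂ) * (χ : G → ℂ) g = 0 := fun g hg => by
    have h1 := hdec (gal σ φ) g
    rw [gal_apply, S.map_reg S.hexp (Chars.irr_isCharacter φ) hg, hdec φ g] at h1
    push_cast
    simp only [sub_mul, Finset.sum_sub_distrib]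
    rw [sub_eq_zero]
    exact h1
  have hdeg : ∑ χ, m₀ χ * charDegree (χ : G → ℂ) = n * n := by
    have h1 := hdec φ 1
    rw [(Blocks.charDegree_eq φ.2).1, map_natCast,
      Finset.sum_congr rfl fun χ _ => by rw [(Blocks.charDegree_eq χ.2).1]] at h1
    exact_mod_cast h1.symm
  have hprinc : m₀ (oneChar G) = 1 := by
    have h1 := hmm φ (oneChar G)
    have h2 : classInner (fun g => (φ : G → ℂ) g * conj ((φ : G → ℂ) g))
        ((oneChar G : IrrCharacter G) : G → ℂ) = classInner (φ : G → ℂ) (φ : G → ℂ) := by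
      simp [Chars.classInner_def, coe_oneChar]
    rw [h2, Chars.classInner_self_irr φ.2] at h1
    exact_mod_cast h1.symm
  have hone : S.eigMult (oneChar G) 0 = 1 := by
    have h1 := S.sum_values_pow (oneChar G)
    simp only [coe_oneChar, Finset.sum_const, Finset.card_univ, ZMod.card, nsmul_eq_mul,
      mul_one] at h1
    have h2 : (p : ℂ) * 1 = (p : ℂ) * S.eigMult (oneChar G) 0 := by rw [mul_one]; exact h1
    exact_mod_cast (mul_left_cancel₀ (Nat.cast_ne_zero.2 hp.out.ne_zero) h2).symm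
  have hdeg1 : charDegree ((oneChar G : IrrCharacter G) : G → ℂ) = 1 := by
    simp [coe_oneChar, charDegree]
  have hmain : (p + 1) * A ≤ 2 * (n * n) + (p - 1) := by
    rw [← hA0, ← hdeg, Finset.mul_sum, Finset.mul_sum,
      ← Finset.add_sum_erase _ _ (Finset.mem_univ (oneChar G)),
      ← Finset.add_sum_erase (f := fun χ => 2 * (m₀ χ * charDegree (χ : G → ℂ))) _
        (Finset.mem_univ (oneChar G))]
    have h1 : ∑ χ ∈ Finset.univ.erase (oneChar G), (p + 1) * (m₀ χ * S.eigMult χ 0) ≤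
        ∑ χ ∈ Finset.univ.erase (oneChar G), 2 * (m₀ χ * charDegree (χ : G → ℂ)) := by
      refine Finset.sum_le_sum fun χ hχ => ?_
      rcases Nat.eq_zero_or_pos (m₀ χ) with e | e
      · rw [e]; simp
      · have := S.constituent_bound hK hgen m₀ m₁ hreg hA1 (Finset.mem_erase.1 hχ).1 e.ne'
        calc (p + 1) * (m₀ χ * S.eigMult χ 0) = m₀ χ * ((p + 1) * S.eigMult χ 0) := by ring
          _ ≤ m₀ χ * (2 * charDegree (χ : G → ℂ)) := Nat.mul_le_mul_left _ this
          _ = _ := by ring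
    rw [hprinc, hone, hdeg1]
    have := hp.out.two_le
    omega
  -- the support
  set s := (Finset.univ.filter fun i : ZMod p => μ i ≠ 0) with hs
  have hns2 : ∑ i ∈ s, μ i = n := by
    rw [hs, Finset.sum_filter_ne_zero, ← S.degree_eig]
  have hCS : n * n ≤ s.card * A := by
    have h1 := sq_sum_le_card_mul_sum_sq (s := s) (f := fun i => (μ i : ℤ))
    rw [← Nat.cast_sum, hns2] at h1
    have h2 : ∑ i ∈ s, (μ i : ℤ) ^ 2 = (A : ℤ) := by
      rw [hA, Nat.cast_sum, hs]
      refine (Finset.sum_subset (Finset.filter_subset _ _) fun i _ hi => ?_).trans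
        (Finset.sum_congr rfl fun i _ => by push_cast; ring)
      rw [Finset.mem_filter, not_and, not_not] at hi
      rw [hi (Finset.mem_univ i)]
      norm_num
    rw [h2] at h1
    have h3 : ((n * n : ℕ) : ℤ) ≤ ((s.card * A : ℕ) : ℤ) := by push_cast; linarith
    exact_mod_cast h3
  have hsA : s.card ≤ A := by
    rw [hA, Finset.card_eq_sum_ones]
    refine le_trans (Finset.sum_le_sum fun i hi => ?_)
      (Finset.sum_le_sum_of_subset (Finset.subset_univ s))
    have := Nat.pos_of_ne_zero (Finset.mem_filter.1 hi).2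
    exact Nat.mul_pos this this
  have hsn : s.card ≤ n := by
    rw [← hns2, Finset.card_eq_sum_ones]
    exact Finset.sum_le_sum fun i hi => Nat.pos_of_ne_zero (Finset.mem_filter.1 hi).2
  have hs2 : 2 ≤ s.card := by
    by_contra hlt
    obtain ⟨i₀, hi₀⟩ : ∃ i₀, s ⊆ {i₀} := Finset.card_le_one_iff_subset_singleton.1 (by omega)
    refine hns ?_
    have h1 := S.value_eig φ 1
    have h2 := S.degree_eig φ
    rw [Finset.sum_eq_single i₀ (fun i _ hi => by
      exact by_contra fun h => hi (Finset.mem_singleton.1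
        (hi₀ (Finset.mem_filter.2 ⟨Finset.mem_univ i, h⟩)))) (fun h => absurd (Finset.mem_univ _) h)] at h2
    rw [pow_one, Finset.sum_eq_single i₀ (fun i _ hi => by
      have h0 : S.eigMult φ i = 0 := by_contra fun h => hi (Finset.mem_singleton.1
        (hi₀ (Finset.mem_filter.2 ⟨Finset.mem_univ i, h⟩)))
      rw [h0, Nat.cast_zero, zero_mul]) (fun h => absurd (Finset.mem_univ _) h)] at h1
    rw [h1, norm_mul, Complex.norm_natCast, show n = S.eigMult φ i₀ from h2]
    have : ‖zc p ((1 : ℕ) * i₀)‖ = 1 :=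
      Complex.norm_eq_one_of_pow_eq_one (n := p) (by
        rw [← AddChar.map_nsmul_eq_pow, nsmul_eq_mul, ZMod.natCast_self, zero_mul,
          AddChar.map_zero_eq_one]) hp.out.ne_zero
    rw [this, mul_one]
  zify [hp.out.one_le] at hmain
  zify at hn hCS hsA hsn hs2
  nlinarith [mul_le_mul_of_nonneg_left hsA (show (0 : ℤ) ≤ (p : ℤ) + 1 - 2 * (s.card : ℤ) by linarith),
    mul_pos (show (0 : ℤ) < (s.card : ℤ) - 1 by linarith)
      (show (0 : ℤ) < (p : ℤ) - 1 - 2 * (s.card : ℤ) by linarith)]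

end Once

end Cfsg.Agent.Chars2.Cyc
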