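import Cfsg.Agent.DegreeGraph.NormalP
import Cfsg.Agent.Chars.CoprimeExt
import Cfsg.Agent.Chars2.Clifford
import Cfsg.Agent.Blocks.Defect

/-!
Vanishing of central characters modulo `p` above an invariant character of a normal
`p'`-subgroup: classes missing the centralizer of `Q`, where `N ⊔ Q` is normal.
-/

set_option autoImplicit false
set_option linter.style.haveILetI false
set_option linter.unusedSectionVars false

namespace Cfsg.Agent.Chars2

open Cfsg Cfsg.Agent
open scoped ComplexConjugate Matrix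

universe u

variable {k : Type*} [Field k] {d n : ℕ}

/-- An idempotent matrix of full trace is the identity. -/
theorem matrix_eq_one_of_idem (T : Matrix (Fin n) (Fin n) ℂ) (h : T * T = T)
    (ht : T.trace = n) : T = 1 := by
  set S := (1 : Matrix (Fin n) (Fin n) ℂ) - T with hS
  have hidem : IsIdempotentElem (Matrix.toLinAlgEquiv' S) := by
    rw [IsIdempotentElem, ← map_mul]
    congr 1
    rw [hS, sub_mul, mul_sub, mul_sub, one_mul, one_mul, mul_one, h, sub_self, sub_zero]
  have hproj := (LinearMap.IsIdempotentElem.isProj_range _ hidem).trace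
  have htr : LinearMap.trace ℂ _ (Matrix.toLinAlgEquiv' S) = 0 := by
    show LinearMap.trace ℂ _ (Matrix.toLin' S) = 0
    rw [Matrix.trace_toLin'_eq, hS, Matrix.trace_sub, Matrix.trace_one, ht, Fintype.card_fin,
      sub_self]
  rw [htr] at hproj
  have h0 : LinearMap.range (Matrix.toLinAlgEquiv' S) = ⊥ :=
    Submodule.finrank_eq_zero.1 (by exact_mod_cast hproj.symm)
  have hS0 : S = 0 := Matrix.toLinAlgEquiv'.injective (by
    rw [map_zero]; exact LinearMap.range_eq_bot.1 h0)
  rw [hS, sub_eq_zero] at hS0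
  exact hS0.symm

/-- Moving a matrix across the partial trace. -/
theorem partialTrace_swap (Φ : Matrix (Fin d) (Fin d) k →ₐ[k] Matrix (Fin n) (Fin n) k)
    (T : Matrix (Fin n) (Fin n) k) (X Y : Matrix (Fin d) (Fin d) k) :
    ∑ i, ∑ j, Φ (Matrix.single i j 1 * X) * T * Φ (Y * Matrix.single j i 1) =
      ∑ i, ∑ j, Φ (Matrix.single i j 1) * T * Φ (Y * X * Matrix.single j i 1) := by
  classical
  have hl : ∀ i j : Fin d, Matrix.single i j (1 : k) * X =
      ∑ b, X j b • Matrix.single i b (1 : k) := fun i j => by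
    ext a c
    simp [Matrix.sum_apply, Matrix.mul_apply, Matrix.single_apply, ite_and]
  have hr : ∀ b i : Fin d, X * Matrix.single b i (1 : k) =
      ∑ j, X j b • Matrix.single j i (1 : k) := fun b i => by
    ext a c
    simp [Matrix.sum_apply, Matrix.mul_apply, Matrix.single_apply, ite_and]
  simp_rw [mul_assoc Y X, hl, hr, Finset.mul_sum, map_sum, Finset.sum_mul, Finset.mul_sum,
    mul_smul_comm, map_smul, smul_mul_assoc, mul_smul_comm]
  exact Finset.sum_congr rfl fun i _ => Finset.sum_comm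

variable {G : Type u} [Group G] [Fintype G]

/-- Schur relations for the matrix entries. -/
theorem schur_entries {H : Type*} [Group H] [Fintype H] (ρθ : H →* Matrix (Fin d) (Fin d) ℂ)
    (hscal : ∀ T : Matrix (Fin d) (Fin d) ℂ, (∀ g, T * ρθ g = ρθ g * T) → ∃ s : ℂ, T = s • 1)
    (i j l m' : Fin d) :
    (d : ℂ) / Nat.card H * ∑ m : H, ρθ m⁻¹ m' l * ρθ m i j = if i = l ∧ j = m' then 1 else 0 := by
  classical
  set X : Matrix (Fin d) (Fin d) ℂ := Matrix.single j m' 1 with hX
  set T : Matrix (Fin d) (Fin d) ℂ := ∑ m : H, ρθ m * X * ρθ m⁻¹ with hT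
  obtain ⟨s, hs'⟩ := hscal T fun g => by
    rw [hT, Finset.sum_mul, Finset.mul_sum]
    refine Fintype.sum_equiv (Equiv.mulLeft g⁻¹) _ _ fun m => ?_
    simp only [Equiv.coe_mulLeft, mul_inv_rev, inv_inv]
    rw [← mul_assoc (ρθ g), ← mul_assoc (ρθ g), ← map_mul, mul_inv_cancel_left, map_mul,
      ← mul_assoc]
  have hst : T.trace = (d : ℂ) * s := by
    rw [hs', Matrix.trace_smul, Matrix.trace_one, Fintype.card_fin, smul_eq_mul, mul_comm]
  have htX : T.trace = (Nat.card H : ℂ) * (if j = m' then 1 else 0) := by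
    rw [hT, Matrix.trace_sum]
    have : ∀ m : H, (ρθ m * X * ρθ m⁻¹).trace = X.trace := fun m => by
      rw [Matrix.trace_mul_comm, ← mul_assoc, ← map_mul, inv_mul_cancel, map_one, one_mul]
    rw [Finset.sum_congr rfl fun m _ => this m, Finset.sum_const, Finset.card_univ, nsmul_eq_mul,
      Nat.card_eq_fintype_card, hX]
    congr 1
    by_cases h : j = m'
    · subst h; simp [Matrix.trace, Matrix.single_apply, ite_and]
    · simp [Matrix.trace, Matrix.single_apply, ite_and, h]
  have hTe : T i l = ∑ m : H, ρθ m⁻¹ m' l * ρθ m i j := by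
    rw [hT, Matrix.sum_apply]
    refine Finset.sum_congr rfl fun m _ => ?_
    simp [hX, Matrix.mul_apply, Matrix.single_apply, ite_and, Finset.sum_ite_eq', mul_comm]
  rw [← hTe, hs', Matrix.smul_apply, Matrix.one_apply, smul_eq_mul]
  have hs2 : (d : ℂ) / Nat.card H * s = if j = m' then 1 else 0 := by
    have h := hst.symm.trans htX
    rw [div_mul_eq_mul_div, h, mul_comm,
      mul_div_assoc, div_self (by exact_mod_cast Nat.card_pos.ne'), mul_one]
  by_cases h : i = l
  · simp only [h, if_true, mul_one, true_and]; exact hs2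
  · simp [h]

/-- The idempotent of an invariant constituent acts as the identity. -/
theorem act_constituent_eq_one (N : Subgroup G) [N.Normal] [Fintype N] (θ : IrrCharacter N)
    (hinv : inertiaSub (θ : N → ℂ) = ⊤) (χ : IrrCharacter G)
    (hcon : classInner (fun m : N => (χ : G → ℂ) m) (θ : N → ℂ) ≠ 0)
    (ρ : G →* Matrix (Fin n) (Fin n) ℂ) (htr : ∀ g, (ρ g).trace = (χ : G → ℂ) g)
    (hn1 : (χ : G → ℂ) 1 = n) (hθd : (θ : N → ℂ) 1 = d) :
    ∑ m : N, ((d : ℂ) / Nat.card N * (θ : N → ℂ) m⁻¹) • ρ (m : G) = 1 := by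
  classical
  set ρN : N →* Matrix (Fin n) (Fin n) ℂ := ρ.comp N.subtype with hρN
  have heq : ∑ m : N, ((d : ℂ) / Nat.card N * (θ : N → ℂ) m⁻¹) • ρ (m : G) =
      Blocks.act ρN (Blocks.eFun (θ : N → ℂ)) := by
    refine Finset.sum_congr rfl fun m _ => ?_
    show _ = Blocks.eFun (θ : N → ℂ) m • ρ (m : G)
    congr 1
    rw [Blocks.eFun, hθd, Chars.char_inv_eq_conj (Chars.irr_isCharacter θ)]
    ring
  rw [heq]
  refine matrix_eq_one_of_idem _ ?_ ?_
  · have h := Blocks.blockCoeff_idem (G := N) ({θ} : Set (IrrCharacter N))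
    have e1 : blockCoeff ({θ} : Set (IrrCharacter N)) = Blocks.eFun (θ : N → ℂ) := by
      funext m; simp [blockCoeff, Blocks.eFun]
    rw [e1] at h
    rw [← Blocks.act_conv, h]
  · rw [Blocks.act_trace ρN (χ := fun m : N => (χ : G → ℂ) m) (fun m => htr _)]
    have h1 := fun m : N => clifford_invariant χ.2 θ.2 hinv hcon m
    have h2 := h1 1
    simp only [Subgroup.coe_one] at h2
    rw [hn1, hθd] at h2
    have h3 := Chars.classInner_self_irr θ.2
    rw [Chars.classInner_def] at h3
    rw [Finset.sum_congr rfl fun m _ => by rw [Blocks.eFun, h1 m, hθd]]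
    have h4 : ∀ (E : ℂ), (∑ m : N, (Nat.card N : ℂ)⁻¹ * ((d : ℂ) * conj ((θ : N → ℂ) m)) *
        (E * (θ : N → ℂ) m)) = E * d * ((Nat.card N : ℂ)⁻¹ *
          ∑ m : N, (θ : N → ℂ) m * conj ((θ : N → ℂ) m)) := fun E => by
      rw [Finset.mul_sum, Finset.mul_sum]; exact Finset.sum_congr rfl fun m _ => by ring
    rw [h4, h3, mul_one, h2]

variable {p : ℕ} [Fact p.Prime]

/-- The statement over the residue field. -/
theorem scalar_eq_zero_of_no_fixed [CharP k p] (N Q K : Subgroup G) [N.Normal] [Fintype N]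
    (hNK : N ≤ K) (hQK : Q ≤ K) (hQ : IsPGroup p Q) (htop : Subgroup.normalizer (Q : Set G) ⊔ N = ⊤)
    (hn : 0 < n) (hd : 0 < d) (hd0 : (d : k) ≠ 0)
    (rh : K →* Matrix (Fin d) (Fin d) k) (σ : G →* Matrix (Fin n) (Fin n) k) (cb : k)
    (hschur' : ∀ i j l m' : Fin d,
      cb * ∑ m : N, rh (Subgroup.inclusion hNK m⁻¹) m' l * rh (Subgroup.inclusion hNK m) i j =
        if i = l ∧ j = m' then 1 else 0)
    (heθ' : ∑ m : N, (cb * (rh (Subgroup.inclusion hNK m⁻¹)).trace) • σ (m : G) = 1)
    (w : G → k) (hw : ∀ (q : Q) (y : G), w ((q : G) * y * (q : G)⁻¹) = w y)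
    (hw0 : ∀ y ∈ Subgroup.centralizer (Q : Set G), w y = 0)
    (ω : k) (hsum : ∑ y : G, w y • σ y = ω • (1 : Matrix (Fin n) (Fin n) k)) : ω = 0 := by
  classical
  have hpp : p.Prime := Fact.out
  haveI : Fintype Q := Fintype.ofFinite _
  obtain ⟨a, ha⟩ := hQ.exists_card_eq
  let inK : N →* K := Subgroup.inclusion hNK
  let r : N →* Matrix (Fin d) (Fin d) k := rh.comp inK
  replace hschur' : ∀ i j l m' : Fin d,
      cb * ∑ m : N, r m⁻¹ m' l * r m i j = if i = l ∧ j = m' then 1 else 0 := hschur'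
  replace heθ' : ∑ m : N, (cb * (r m⁻¹).trace) • σ (m : G) = 1 := heθ'
  let Φl : Matrix (Fin d) (Fin d) k →ₗ[k]
      Matrix (Fin n) (Fin n) k :=
    { toFun := fun A => ∑ m : N, (cb * (A * r m⁻¹).trace) • σ (m : G)
      map_add' := fun A B => by
        simp only [add_mul, Matrix.trace_add, mul_add, add_smul, Finset.sum_add_distrib]
      map_smul' := fun t A => by
        simp only [smul_mul_assoc, Matrix.trace_smul, smul_eq_mul, Finset.smul_sum, smul_smul,
          RingHom.id_apply, mul_left_comm] }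
  have hΦr : ∀ m : N, Φl (r m) = σ (m : G) := by
    intro m
    calc Φl (r m) = ∑ m' : N, (cb * (r m * r m'⁻¹).trace) • σ (m' : G) := rfl
      _ = ∑ m' : N, (cb * (r m'⁻¹).trace) • (σ (m' : G) * σ (m : G)) := by
          refine Fintype.sum_equiv (Equiv.mulRight m⁻¹) _ _ fun m' => ?_
          rw [← map_mul, ← map_mul]
          simp [mul_inv_rev]
      _ = (∑ m' : N, (cb * (r m'⁻¹).trace) • σ (m' : G)) * σ (m : G) := by
          simp only [Finset.sum_mul, smul_mul_assoc]
      _ = σ (m : G) := by rw [heθ', one_mul]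
  have hspan : ∀ A : Matrix (Fin d) (Fin d) k,
      A = ∑ m : N, (cb * (A * r m⁻¹).trace) • r m := by
    intro A
    ext i j
    simp only [Matrix.sum_apply, Matrix.smul_apply, smul_eq_mul, Matrix.trace, Matrix.diag_apply,
      Matrix.mul_apply]
    have h : ∀ m : N, cb * (∑ l, ∑ m', A l m' * r m⁻¹ m' l) * r m i j =
        ∑ l, ∑ m', A l m' * (cb * (r m⁻¹ m' l * r m i j)) := fun m => by
      simp only [Finset.mul_sum, Finset.sum_mul]
      exact Finset.sum_congr rfl fun l _ => Finset.sum_congr rfl fun m' _ => by ring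
    simp only [h]
    rw [Finset.sum_comm, Finset.sum_congr rfl fun l _ => Finset.sum_comm]
    simp only [← Finset.mul_sum, hschur']
    simp [ite_and, Finset.sum_ite_eq]
  have hmul : ∀ m m' : N, σ ((m * m' : N) : G) = σ (m : G) * σ (m' : G) := fun m m' => by
    rw [Subgroup.coe_mul, map_mul]
  let Φ : Matrix (Fin d) (Fin d) k →ₐ[k]
      Matrix (Fin n) (Fin n) k := AlgHom.ofLinearMap Φl
    (by rw [← map_one r, hΦr, Subgroup.coe_one, map_one]) (fun A B => by
      conv_lhs => rw [hspan A, hspan B]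
      conv_rhs => rw [hspan A, hspan B]
      simp only [Finset.sum_mul, Finset.mul_sum, smul_mul_assoc, mul_smul_comm, map_sum, map_smul,
        ← map_mul r, hΦr, hmul])
  replace hΦr : ∀ m : N, Φ (r m) = σ (m : G) := hΦr
  have hΦinj : Function.Injective Φ := by
    haveI : Nonempty (Fin n) := ⟨⟨0, hn⟩⟩
    haveI : Nonempty (Fin d) := ⟨⟨0, hd⟩⟩
    exact Φ.toRingHom.injective
  -- every element of G permutes the image of Φ
  have hΦconj : ∀ (g : G) (A : Matrix (Fin d) (Fin d) k),
      ∃ B, σ g * Φ A * σ g⁻¹ = Φ B := by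
    intro g A
    refine ⟨∑ m : N, (cb * (A * r m⁻¹).trace) •
      r ⟨g * (m : G) * g⁻¹, ‹N.Normal›.conj_mem (m : G) m.2 g⟩, ?_⟩
    conv_lhs => rw [hspan A]
    simp only [map_sum, map_smul, hΦr, Finset.mul_sum, Finset.sum_mul, mul_smul_comm,
      smul_mul_assoc, map_mul]
  let inQ : Q →* K := Subgroup.inclusion hQK
  have hrQ : ∀ (q : Q) (m : N),
      rh (inQ q) * r m = r ⟨(q : G) * m * (q : G)⁻¹, ‹N.Normal›.conj_mem (m : G) m.2 q⟩ * rh (inQ q) := by
    intro q m
    show rh _ * rh _ = rh _ * rh _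
    rw [← map_mul, ← map_mul]
    refine congrArg rh (Subtype.ext ?_)
    simp [inQ, inK]
  -- σ q Φ(A) = Φ(q A q⁻¹) σ q
  have hσΦ : ∀ (q : Q) (A : Matrix (Fin d) (Fin d) k),
      σ (q : G) * Φ A = Φ (rh (inQ q) * A * rh (inQ q⁻¹)) * σ (q : G) := by
    intro q A
    rw [hspan A]
    simp only [map_sum, map_smul, hΦr, Finset.mul_sum, Finset.sum_mul, mul_smul_comm,
      smul_mul_assoc]
    refine Finset.sum_congr rfl fun m _ => congrArg _ ?_
    rw [hrQ, mul_assoc, ← map_mul rh, ← map_mul inQ, mul_inv_cancel, map_one, map_one, mul_one,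
      hΦr, ← map_mul, ← map_mul]
    group
  let D : Q →* Matrix (Fin n) (Fin n) k :=
    { toFun := fun q => Φ (rh (inQ q⁻¹)) * σ (q : G)
      map_one' := by simp
      map_mul' := fun a b => by
        rw [mul_assoc (Φ _), ← mul_assoc (σ (a : G)), hσΦ, mul_assoc (Φ _) (σ (a : G)),
          ← mul_assoc, ← map_mul Φ, ← map_mul σ]
        congr 1
        rw [← map_mul rh, ← map_mul rh, ← map_mul rh, ← map_mul inQ, ← map_mul inQ, ← map_mul inQ]
        congr 3
        group }
  have hDσ : ∀ q : Q, σ (q : G) = Φ (rh (inQ q)) * D q := fun q => by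
    show _ = Φ _ * (Φ _ * _)
    rw [← mul_assoc, ← map_mul, ← map_mul, ← map_mul, mul_inv_cancel, map_one, map_one, map_one,
      one_mul]
  have hDΦ : ∀ (q : Q) (A : Matrix (Fin d) (Fin d) k), D q * Φ A = Φ A * D q := by
    intro q A
    show Φ _ * σ (q : G) * Φ A = Φ A * (Φ _ * σ (q : G))
    rw [mul_assoc, hσΦ, ← mul_assoc, ← map_mul, ← mul_assoc (Φ A), ← map_mul Φ, ← mul_assoc,
      ← mul_assoc, ← map_mul rh, ← map_mul inQ, inv_mul_cancel, map_one, map_one, one_mul]
  -- conjugation permutes D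
  have hperm : ∀ g : G, (∀ h : G, h ∈ Q ↔ g * h * g⁻¹ ∈ Q) → ∀ q : Q, ∃ q' : Q,
      D q' * σ g = σ g * D q := by
    intro g hg q
    set q' : Q := ⟨g * q * g⁻¹, (hg _).1 q.2⟩ with hq'
    refine ⟨q', ?_⟩
    set Y := σ g * D q * σ g⁻¹ with hY
    obtain ⟨B, hB⟩ := hΦconj g (rh (inQ q⁻¹))
    have hY2 : Y = Φ (B * rh (inQ q')) * D q' := by
      rw [map_mul, mul_assoc, ← hDσ, ← hB]
      show σ g * (Φ (rh (inQ q⁻¹)) * σ (q : G)) * σ g⁻¹ = _
      simp only [mul_assoc]
      congr 2
      rw [← map_mul, ← map_mul]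
      congr 1
      simp [hq', mul_assoc]
    have hYc : ∀ A, Y * Φ A = Φ A * Y := by
      intro A
      obtain ⟨A', hA'⟩ := hΦconj g⁻¹ A
      rw [inv_inv] at hA'
      have hg1 : σ g * σ g⁻¹ = 1 := by rw [← map_mul, mul_inv_cancel, map_one]
      have e1 : σ g⁻¹ * Φ A = Φ A' * σ g⁻¹ := by
        rw [← hA', mul_assoc, mul_assoc, hg1, mul_one]
      have e2 : Φ A * σ g = σ g * Φ A' := by
        rw [← hA', ← mul_assoc, ← mul_assoc, hg1, one_mul]
      rw [hY, mul_assoc, e1, ← mul_assoc, mul_assoc (σ g), hDΦ, ← mul_assoc, ← e2]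
      simp only [mul_assoc]
    set Z := B * rh (inQ q') with hZ
    have hDinv : D q' * D q'⁻¹ = 1 := by rw [← map_mul, mul_inv_cancel, map_one]
    have hZc : ∀ A, Z * A = A * Z := by
      intro A
      apply hΦinj
      rw [map_mul Φ Z A, map_mul Φ A Z]
      have h := hYc A
      rw [hY2, mul_assoc, hDΦ, ← mul_assoc, ← mul_assoc] at h
      have h2 := congrArg (· * D q'⁻¹) h
      simpa only [mul_assoc, hDinv, mul_one] using h2
    obtain ⟨lam, hlam⟩ := Matrix.mem_range_scalar_of_commute_single (M := Z) fun i j _ => (hZc _).symm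
    have hYl : Y = lam • D q' := by
      rw [hY2, ← hlam]
      have : Matrix.scalar (Fin d) lam = lam • (1 : Matrix (Fin d) (Fin d) k) := by
        ext i j; simp [Matrix.one_apply, Matrix.diagonal_apply]
      rw [this, map_smul, map_one, smul_mul_assoc, one_mul]
    have hpow : ∀ q : Q, D q ^ p ^ a = 1 := fun q => by
      rw [← map_pow, ← ha, pow_card_eq_one', map_one]
    have hYp : Y ^ p ^ a = 1 := by
      have hconj : ∀ j : ℕ, Y ^ j = σ g * D q ^ j * σ g⁻¹ := by
        intro j
        induction j with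
        | zero => simp [← map_mul]
        | succ j ih =>
          rw [pow_succ, ih, hY, pow_succ]
          simp only [mul_assoc]
          rw [← mul_assoc (σ g⁻¹) (σ g), ← map_mul σ, inv_mul_cancel, map_one, one_mul]
      rw [hconj, hpow, mul_one, ← map_mul, mul_inv_cancel, map_one]
    have hl1 : lam = 1 := by
      rw [hYl, smul_pow, hpow] at hYp
      have h := congrFun (congrFun hYp ⟨0, hn⟩) ⟨0, hn⟩
      simp at h
      have h2 : (lam - 1) ^ p ^ a = 0 := by rw [sub_pow_char_pow, h, one_pow, sub_self]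
      exact sub_eq_zero.1 (pow_eq_zero_iff (pow_ne_zero a hpp.ne_zero) |>.1 h2)
    rw [hl1, one_smul] at hYl
    rw [← hYl, hY, mul_assoc, ← map_mul, inv_mul_cancel, map_one, mul_one]
  -- the fixed points of D
  let act : MulAction Q (Fin n → k) :=
    { smul := fun q v => D q *ᵥ v
      one_smul := fun v => by show D 1 *ᵥ v = v; rw [map_one, Matrix.one_mulVec]
      mul_smul := fun a b v => by
        show D (a * b) *ᵥ v = D a *ᵥ (D b *ᵥ v)
        rw [Matrix.mulVec_mulVec, map_mul] }
  haveI : Nonempty (Fin n) := ⟨⟨0, hn⟩⟩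
  obtain ⟨u, -, hu0, hufix⟩ := PermGroups.exists_fixed_vector (K := k) hQ
    (fun (q : Q) x y => Matrix.mulVec_add (D q) x y) ⊤ (fun _ _ _ => Submodule.mem_top) top_ne_bot
  let U : Set (Fin n → k) := {v | ∀ q : Q, D q *ᵥ v = v}
  have huU : u ∈ U := hufix
  have hUΦ : ∀ A, ∀ v ∈ U, Φ A *ᵥ v ∈ U := fun A v hv q => by
    rw [Matrix.mulVec_mulVec, hDΦ, ← Matrix.mulVec_mulVec, hv q]
  have hUq : ∀ q : Q, ∀ v ∈ U, σ (q : G) *ᵥ v = Φ (rh (inQ q)) *ᵥ v := fun q v hv => by
    rw [hDσ, ← Matrix.mulVec_mulVec, hv q]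
  have hUnorm : ∀ g : G, (∀ h : G, h ∈ Q ↔ g * h * g⁻¹ ∈ Q) → ∀ v ∈ U, σ g *ᵥ v ∈ U := by
    intro g hg v hv q'
    have hq : g⁻¹ * q' * g ∈ Q := (hg _).2 (by
      rw [show g * (g⁻¹ * q' * g) * g⁻¹ = (q' : G) by group]; exact q'.2)
    obtain ⟨q'', hq''⟩ := hperm g hg ⟨_, hq⟩
    obtain ⟨q₀, hq₀⟩ := hperm g⁻¹ (fun h => by
      constructor
      · intro h'; rw [inv_inv]; exact (hg _).2 (by
          rw [show g * (g⁻¹ * h * g) * g⁻¹ = h by group]; exact h')
      · intro h'; rw [inv_inv] at h'; have := (hg _).1 h'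
        rwa [show g * (g⁻¹ * h * g) * g⁻¹ = h by group] at this) q'
    have e : D q' * σ g = σ g * D q₀ := by
      have h := congrArg (fun T => σ g * T * σ g) hq₀
      simp only [← mul_assoc] at h
      rw [mul_assoc (σ g * D q₀), ← map_mul σ g⁻¹, inv_mul_cancel, map_one, mul_one,
        ← map_mul σ g, mul_inv_cancel, map_one, one_mul] at h
      exact h.symm
    rw [Matrix.mulVec_mulVec, e, ← Matrix.mulVec_mulVec, hv q₀]
  have hUG : ∀ g : G, ∀ v ∈ U, σ g *ᵥ v ∈ U := by
    intro g
    obtain ⟨l, hl, m, hm, rfl⟩ :=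
      Subgroup.mem_sup_of_normal_right.1 (htop.symm ▸ Subgroup.mem_top g)
    intro v hv
    rw [map_mul, ← Matrix.mulVec_mulVec]
    refine hUnorm l (fun h => Subgroup.mem_normalizer_iff.1 hl h) _ ?_
    rw [show σ m = Φ (r ⟨m, hm⟩) from (hΦr ⟨m, hm⟩).symm]
    exact hUΦ _ v hv
  -- partial trace
  let Pt : Matrix (Fin n) (Fin n) k → Matrix (Fin n) (Fin n) k :=
    fun T => ∑ i : Fin d, ∑ j : Fin d, Φ (Matrix.single i j 1) * T * Φ (Matrix.single j i 1)
  have hPt1 : Pt 1 = (d : k) • 1 := by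
    show ∑ i : Fin d, ∑ j : Fin d, _ = _
    simp only [mul_one, ← map_mul, Matrix.single_mul_single_same, ← map_sum]
    rw [← map_one Φ, ← map_smul]
    congr 1
    ext x y
    simp only [Matrix.sum_apply, Matrix.smul_apply, Matrix.one_apply, smul_eq_mul]
    by_cases hxy : x = y
    · subst hxy; simp [Matrix.single, Finset.sum_ite_eq']
    · have : ∀ i : Fin d, ¬ (i = x ∧ i = y) := fun i h => hxy (h.1.symm.trans h.2)
      simp [Matrix.single, this, hxy]
  have hinvPt : ∀ (q : Q) (y : G),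
      Pt (σ ((q : G) * y * (q : G)⁻¹)) *ᵥ u = Pt (σ y) *ᵥ u := by
    intro q y
    have key : Pt (σ y) = ∑ i : Fin d, ∑ j : Fin d, Φ (Matrix.single i j 1 * rh (inQ q)) * σ y *
        Φ (rh (inQ q⁻¹) * Matrix.single j i 1) := by
      rw [partialTrace_swap, ← map_mul rh, ← map_mul inQ, inv_mul_cancel, map_one, map_one]
      simp only [one_mul, Pt]
    rw [key]
    simp only [Pt, Matrix.sum_mulVec]
    refine Finset.sum_congr rfl fun i _ => Finset.sum_congr rfl fun j _ => ?_
    rw [map_mul σ, map_mul σ]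
    simp only [← Matrix.mulVec_mulVec, map_mul Φ]
    have h1 := hUΦ (Matrix.single j i 1) u huU
    have h2 : σ ((q : G))⁻¹ *ᵥ (Φ (Matrix.single j i 1) *ᵥ u) =
        Φ (rh (inQ q⁻¹)) *ᵥ (Φ (Matrix.single j i 1) *ᵥ u) := by
      rw [← hUq q⁻¹ _ h1, Subgroup.coe_inv]
    rw [h2, hUq q _ (hUG y _ (hUΦ _ _ h1))]
  have hPtsum : ∑ y : G, w y • (Pt (σ y) *ᵥ u) = (ω * d) • u := by
    calc _ = (∑ y : G, w y • Pt (σ y)) *ᵥ u := by
          rw [Matrix.sum_mulVec]; simp only [Matrix.smul_mulVec]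
      _ = Pt (∑ y : G, w y • σ y) *ᵥ u := by
          congr 1
          simp only [Pt, Finset.smul_sum, Finset.mul_sum, Finset.sum_mul, mul_smul_comm,
            smul_mul_assoc]
          rw [Finset.sum_comm]
          exact Finset.sum_congr rfl fun i _ => Finset.sum_comm
      _ = (ω • Pt 1) *ᵥ u := by
          rw [hsum]; simp only [Pt, Finset.smul_sum, mul_smul_comm, smul_mul_assoc]
      _ = _ := by rw [hPt1, smul_smul, Matrix.smul_mulVec, Matrix.one_mulVec]
  let actc : MulAction Q G := MulAction.compHom G (MulAut.conj.comp Q.subtype)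
  have hsm : ∀ (q : Q) (y : G), q • y = (q : G) * y * (q : G)⁻¹ := fun _ _ => rfl
  have hzero : ∀ i, ω * (d : k) * u i = 0 := by
    intro i
    have h := congrFun hPtsum i
    simp only [Finset.sum_apply, Pi.smul_apply, smul_eq_mul] at h
    rw [← h, BlockChar.sum_eq_sum_fixed (k := k) hQ
      (fun y => w y * (Pt (σ y) *ᵥ u) i) (fun q y => ?_)]
    · refine Finset.sum_eq_zero fun y hy => ?_
      have hfix := (Finset.mem_filter.1 hy).2
      rw [hw0 y (Subgroup.mem_centralizer_iff.2 fun q hq =>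
        mul_inv_eq_iff_eq_mul.1 (by rw [← hsm ⟨q, hq⟩ y]; exact hfix ⟨q, hq⟩)), zero_mul]
    · rw [hsm, hw, hinvPt]
  obtain ⟨i, hi⟩ : ∃ i, u i ≠ 0 := by
    by_contra h; push Not at h; exact hu0 (funext h)
  exact (mul_eq_zero.1 ((mul_eq_zero.1 (hzero i)).resolve_right hi)).resolve_right hd0

variable {M : Ideal AlgInt} [M.IsMaximal]

/-- Central characters above an invariant character of a normal `p'`-subgroup `N` vanish modulo
`M` on classes missing the centralizer of `Q`, when `N ⊔ Q` is normal. -/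
theorem centralChar_memI_of_no_conj (hpM : (p : AlgInt) ∈ M) (N : Subgroup G) [N.Normal]
    [Fintype N] (hN : ¬ p ∣ Nat.card N) (Q : Subgroup G) (hQ : IsPGroup p Q)
    (hKn : (N ⊔ Q).Normal) (θ : IrrCharacter N) (hinv : inertiaSub (θ : N → ℂ) = ⊤)
    (χ : IrrCharacter G) (hcon : classInner (fun m : N => (χ : G → ℂ) m) (θ : N → ℂ) ≠ 0)
    (x : G) (hx : ∀ y : G, IsConj x y → y ∉ Subgroup.centralizer (Q : Set G)) :
    MemLocalIdeal M (centralChar (χ : G → ℂ) x) := by
  classical
  have hpp : p.Prime := Fact.out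
  haveI : CharP (Blocks.Res M) p :=
    (CharP.charP_iff_prime_eq_zero hpp).mpr (by
      rw [← map_natCast (Ideal.Quotient.mk M), Ideal.Quotient.eq_zero_iff_mem]; exact hpM)
  haveI : Fintype Q := Fintype.ofFinite _
  set K := N ⊔ Q with hKdef
  haveI := hKn
  haveI : Fintype K := Fintype.ofFinite _
  have hNK : N ≤ K := le_sup_left
  have hQK : Q ≤ K := le_sup_right
  set N' := N.subgroupOf K with hN'
  haveI : N'.Normal := Subgroup.normal_subgroupOf
  have hN'c : Nat.card N' = Nat.card N := Nat.card_congr (Subgroup.subgroupOfEquivOfLe hNK).toEquiv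
  obtain ⟨a, ha⟩ := hQ.exists_card_eq
  have hidx : N'.index ∣ p ^ a := by
    rw [← ha, hN', ← Subgroup.relIndex, hKdef, sup_comm, Subgroup.relIndex_sup_right]
    exact N.relIndex_dvd_card Q
  have hcop : (Nat.card N').Coprime N'.index := by
    rw [hN'c]
    exact ((((Nat.Prime.coprime_iff_not_dvd hpp).2 hN).pow_left a).symm).coprime_dvd_right hidx
  let eN : N' ≃* N := Subgroup.subgroupOfEquivOfLe hNK
  have hθ' : IsIrrCharacter N' (fun m => (θ : N → ℂ) (eN m)) :=
    Chars.isIrrCharacter_comp_equiv θ.2 eN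
  have hinv' : inertiaSub (fun m => (θ : N → ℂ) (eN m)) = ⊤ := by
    refine top_unique fun g _ => ?_
    rw [mem_inertiaSub]
    funext m
    have hg : (g : G) ∈ inertiaSub (θ : N → ℂ) := by rw [hinv]; exact Subgroup.mem_top _
    have h := congrFun (mem_inertiaSub.1 hg) (eN m)
    rw [conjFun_apply] at h ⊢
    rw [← h]
    exact congrArg _ (Subtype.ext rfl)
  obtain ⟨χh, hχh, hχhN⟩ := Chars.extends_of_coprime N' hcop hθ' hinv'
  obtain ⟨d, R0, hd, hd1, htr0, hR0, -⟩ := Blocks.exists_locRep hpM hχh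
  obtain ⟨n, ρ, hn, hn1, htr, hρ, hs⟩ := Blocks.exists_locRep hpM χ.2
  let inK : N →* K := Subgroup.inclusion hNK
  let ρθ : N →* Matrix (Fin d) (Fin d) ℂ := R0.comp inK
  have htrθ : ∀ m : N, (ρθ m).trace = (θ : N → ℂ) m := fun m => by
    show (R0 (inK m)).trace = _
    rw [htr0]
    exact hχhN ⟨inK m, Subgroup.mem_subgroupOf.2 m.2⟩
  have hθd : (θ : N → ℂ) 1 = d := by
    rw [← htrθ, map_one, Matrix.trace_one, Fintype.card_fin]
  have hpd : ¬ p ∣ d := by
    obtain ⟨d', -, hd', hdvd⟩ := Chars.irr_degree_dvd_card θ.2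
    have : d = d' := by exact_mod_cast hθd.symm.trans hd'
    exact this ▸ fun h => hN (h.trans hdvd)
  have hscal := Blocks.matrix_scalar_of_commute ρθ (by rw [funext htrθ]; exact θ.2)
  set c : ℂ := (d : ℂ) / Nat.card N with hcdef
  have hcopQ : ¬ p ∣ (Q.subgroupOf K).index := by
    intro h
    have h1 : Nat.card (Q.subgroupOf K) = p ^ a := by
      rw [Nat.card_congr (Subgroup.subgroupOfEquivOfLe hQK).toEquiv, ha]
    have h2 : N'.index = p ^ a := by
      refine Nat.dvd_antisymm hidx ?_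
      have h3 : p ^ a ∣ Nat.card N * N'.index := by
        rw [← hN'c, N'.card_mul_index, ← h1]; exact Subgroup.card_subgroup_dvd_card _
      exact (((Nat.Prime.coprime_iff_not_dvd hpp).2 hN).pow_left a).dvd_of_dvd_mul_left h3
    have h4 := (Q.subgroupOf K).card_mul_index
    rw [h1, ← N'.card_mul_index, h2, hN'c, mul_comm (Nat.card N)] at h4
    rw [Nat.eq_of_mul_eq_mul_left (pow_pos hpp.pos a) h4] at h
    exact hN h
  let P : Sylow p K := (hQ.comap_subtype (K := K)).toSylow hcopQ
  have hP : (P : Subgroup K).map K.subtype = Q := by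
    show (Q.subgroupOf K).map K.subtype = Q
    exact Subgroup.map_subgroupOf_eq_of_le hQK
  have htop : Subgroup.normalizer (Q : Set G) ⊔ N = ⊤ := by
    have h := P.normalizer_sup_eq_top
    rw [hP] at h
    refine top_unique (h ▸ sup_le le_sup_left (sup_le le_sup_right ?_))
    exact Subgroup.le_normalizer.trans le_sup_left
  set c : ℂ := (d : ℂ) / Nat.card N with hcdef
  have hschur := schur_entries ρθ hscal
  have heθ := act_constituent_eq_one N θ hinv χ hcon ρ htr hn1 hθd
  have hcR : MemLocalRing M c := by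
    rw [hcdef]
    exact Blocks.memR_mul (Blocks.memR_natCast d) (Blocks.memR_inv_natCast hpM hN)
  let cl : Blocks.loc M := ⟨c, hcR⟩
  let R0l : K →* Matrix (Fin d) (Fin d) (Blocks.loc M) :=
    { toFun := fun g => Matrix.of fun i j => ⟨R0 g i j, hR0 g i j⟩
      map_one' := by
        ext i j
        simp only [map_one, Matrix.of_apply, Matrix.one_apply]
        split_ifs <;> rfl
      map_mul' := fun a b => by
        ext i j
        simp [Matrix.mul_apply, AddSubmonoidClass.coe_finsetSum] }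
  let ρl : G →* Matrix (Fin n) (Fin n) (Blocks.loc M) :=
    { toFun := fun g => Matrix.of fun i j => ⟨ρ g i j, hρ g i j⟩
      map_one' := by
        ext i j
        simp only [map_one, Matrix.of_apply, Matrix.one_apply]
        split_ifs <;> rfl
      map_mul' := fun a b => by
        ext i j
        simp [Matrix.mul_apply, AddSubmonoidClass.coe_finsetSum] }
  have hd0 : (d : Blocks.Res M) ≠ 0 := fun h => hpd ((CharP.cast_eq_zero_iff _ p d).1 h)
  let φm := (Blocks.residue M).mapMatrix (m := Fin n)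
  have e : ∀ (t : Blocks.loc M) (A : Matrix (Fin n) (Fin n) (Blocks.loc M)),
      φm (t • A) = Blocks.residue M t • φm A := fun t A => Matrix.map_smul' _ _ _ (map_mul _)
  set f : G → ℂ := Blocks.clsFun x with hf
  have hfR : Blocks.RFun M f := Blocks.rFun_clsFun x
  have hfc : IsClassFunction G f := Blocks.isClassFunction_clsFun x
  let fl : G → Blocks.loc M := fun y => ⟨f y, hfR y⟩
  let ω : Blocks.loc M := ⟨Blocks.omega (χ : G → ℂ) f, Blocks.omega_memR hpM χ.2 hfc hfR⟩
  have key : Blocks.residue M ω = 0 := by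
    refine scalar_eq_zero_of_no_fixed (p := p) N Q K hNK hQK hQ htop hn hd hd0
      (((Blocks.residue M).mapMatrix.toMonoidHom).comp R0l) (φm.toMonoidHom.comp ρl)
      (Blocks.residue M cl) ?_ ?_ (fun y => Blocks.residue M (fl y)) ?_ ?_ _ ?_
    · intro i j l m'
      have h : cl * ∑ m : N, R0l (inK m⁻¹) m' l * R0l (inK m) i j =
          if i = l ∧ j = m' then 1 else 0 := by
        refine Subtype.ext ?_
        push_cast
        have := hschur i j l m'
        split_ifs at this ⊢ <;> simpa [R0l, ρθ, cl, inK, c] using this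
      have := congrArg (Blocks.residue M) h
      rw [map_mul, map_sum, apply_ite (Blocks.residue M), map_one, map_zero] at this
      rw [← this]
      exact congrArg _ (Finset.sum_congr rfl fun m _ => by rw [map_mul]; rfl)
    · have h : ∑ m : N, (cl * (R0l (inK m⁻¹)).trace) • ρl (m : G) = 1 := by
        ext i j
        have h' := congrFun (congrFun heθ i) j
        simp only [Matrix.sum_apply, Matrix.smul_apply, smul_eq_mul, ← htrθ, Matrix.trace,
          Matrix.diag_apply] at h' ⊢
        simp only [Matrix.one_apply] at h' ⊢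
        push_cast
        split_ifs at h' ⊢ <;> simpa [R0l, ρl, ρθ, cl, inK, c] using h'
      have := congrArg φm h
      rw [map_sum, map_one] at this
      rw [← this]
      refine Finset.sum_congr rfl fun m _ => ?_
      rw [e]
      simp only [map_mul, Matrix.trace, map_sum, Matrix.diag_apply]
      rfl
    · exact fun q y => congrArg _ (Subtype.ext (hfc y q))
    · intro y hy
      have hy0 : fl y = 0 := Subtype.ext (Blocks.clsFun_of_not fun hxy => hx y hxy hy)
      rw [hy0, map_zero]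
    · have h : ∑ y : G, fl y • ρl y = ω • (1 : Matrix (Fin n) (Fin n) (Blocks.loc M)) := by
        have h := Blocks.act_eq_omega ρ htr hs hn hn1 hfc
        ext i j
        have h' := congrFun (congrFun h i) j
        simp only [Blocks.act, Matrix.sum_apply, Matrix.smul_apply, smul_eq_mul] at h'
        simp only [Matrix.sum_apply, Matrix.smul_apply, smul_eq_mul,
          AddSubmonoidClass.coe_finsetSum]
        simp only [Matrix.one_apply] at h' ⊢
        split_ifs at h' ⊢ <;> simpa [ρl, fl, ω] using h'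
      have := congrArg φm h
      rw [map_sum, e, map_one] at this
      rw [← this]
      exact Finset.sum_congr rfl fun y _ => (e _ _).symm
  rw [Blocks.residue_eq_zero_iff] at key
  rwa [← Blocks.omega_clsFun (Chars.isClassFunction_irr χ)]

end Cfsg.Agent.Chars2
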