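import Cfsg.Agent.Chars2.DegreeRatio
import Cfsg.Agent.Chars.Induced
import Cfsg.Agent.Chars.PrimePowerDivisor
import Mathlib.GroupTheory.Solvable

/-!
Berger's lemma: a character induced from a maximal subgroup, whose inducing character is
irreducible on a normal subgroup with solvable quotient, is not quasi-primitive above it.
-/

set_option autoImplicit false
set_option linter.unusedSectionVars false
set_option linter.style.haveILetI false

namespace Cfsg.Agent.Chars2

open Cfsg Cfsg.Agent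
open scoped ComplexConjugate

universe u

variable {G : Type u} [Group G] [Fintype G]

/-- A non-trivial finite solvable group has a non-trivial abelian normal subgroup of exponent a
prime dividing its order. -/
theorem exists_elementary_normal {Q : Type*} [Group Q] [Finite Q] [Group.IsSolvable Q]
    [Nontrivial Q] :
    ∃ (p : ℕ) (T : Subgroup Q), p.Prime ∧ T.Normal ∧ T ≠ ⊥ ∧
      (∀ x ∈ T, ∀ y ∈ T, x * y = y * x) ∧ ∀ x ∈ T, x ^ p = 1 := by
  obtain ⟨n, hn⟩ := Group.IsSolvable.solvable (G := Q)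
  have hex : ∃ m, derivedSeries Q m = ⊥ := ⟨n, hn⟩
  classical
  set m := Nat.find hex
  have hm : derivedSeries Q m = ⊥ := Nat.find_spec hex
  have hm0 : m ≠ 0 := fun h => by
    rw [h, derivedSeries_zero] at hm
    exact bot_ne_top hm.symm
  obtain ⟨k, hk⟩ := Nat.exists_eq_succ_of_ne_zero hm0
  set A := derivedSeries Q k
  have hA : A ≠ ⊥ := Nat.find_min hex (by omega)
  haveI : A.Normal := derivedSeries_normal Q k
  have hab : ∀ x ∈ A, ∀ y ∈ A, x * y = y * x := by
    intro x hx y hy
    rw [hk, derivedSeries_succ] at hm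
    have := Subgroup.commutator_eq_bot_iff_le_centralizer.1 hm hy
    exact (Subgroup.mem_centralizer_iff.1 this x hx)
  haveI : Nontrivial A := (Subgroup.nontrivial_iff_ne_bot A).2 hA
  obtain ⟨p, hp, hdvd⟩ := Nat.exists_prime_and_dvd (Finite.one_lt_card (α := A)).ne'
  haveI := Fact.mk hp
  obtain ⟨a, ha⟩ := exists_prime_orderOf_dvd_card' p hdvd
  let T : Subgroup Q :=
    { carrier := {x | x ∈ A ∧ x ^ p = 1}
      one_mem' := ⟨A.one_mem, one_pow p⟩
      mul_mem' := fun {x y} hx hy => ⟨A.mul_mem hx.1 hy.1, by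
        rw [(show Commute x y from hab x hx.1 y hy.1).mul_pow, hx.2, hy.2, one_mul]⟩
      inv_mem' := fun {x} hx => ⟨A.inv_mem hx.1, by rw [inv_pow, hx.2, inv_one]⟩ }
  refine ⟨p, T, hp, ⟨fun x hx g => ⟨‹A.Normal›.conj_mem x hx.1 g, by
    rw [conj_pow, hx.2, mul_one, mul_inv_cancel]⟩⟩, fun h => ?_,
    fun x hx y hy => hab x hx.1 y hy.1, fun x hx => hx.2⟩
  have hmem : (a : Q) ∈ T := ⟨a.2, by
    rw [← SubgroupClass.coe_pow, ← ha, pow_orderOf_eq_one, OneMemClass.coe_one]⟩
  rw [h, Subgroup.mem_bot] at hmem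
  have : a = 1 := Subtype.ext hmem
  rw [this, orderOf_one] at ha
  exact hp.one_lt.ne ha

/-- The core-free maximal subgroup of a solvable group: an elementary abelian normal complement
and, unless the subgroup is trivial, a normal subgroup of it of coprime order. -/
theorem exists_complement_layers {Q : Type*} [Group Q] [Finite Q] [Group.IsSolvable Q]
    (H : Subgroup Q) (hmax : IsCoatom H) (hcore : ∀ N : Subgroup Q, N.Normal → N ≤ H → N = ⊥) :
    ∃ (p : ℕ) (T : Subgroup Q) (A : Subgroup H), p.Prime ∧ T.Normal ∧ H ⊔ T = ⊤ ∧ H ⊓ T = ⊥ ∧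
      (∃ n : ℕ, 0 < n ∧ Nat.card T = p ^ n) ∧ A.Normal ∧ ¬ p ∣ Nat.card A ∧
      (H ≠ ⊥ → A ≠ ⊥ ∧ ∃ q : ℕ, q.Prime ∧ q ∣ Nat.card A ∧
        (∀ x ∈ A, ∀ y ∈ A, x * y = y * x) ∧ ∀ x ∈ A, x ^ q = 1) := by
  classical
  haveI : Nontrivial Q := by
    by_contra h
    rw [not_nontrivial_iff_subsingleton] at h
    exact hmax.1 (Subsingleton.elim _ _)
  obtain ⟨p, T, hp, hT, hT0, hab, hexp⟩ := exists_elementary_normal (Q := Q)
  haveI := hT
  haveI := Fact.mk hp
  have hTp : IsPGroup p T := fun x => ⟨1, Subtype.ext (by rw [pow_one]; exact hexp x x.2)⟩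
  have key : ∀ F : Subgroup Q, F ≤ T → (∀ h ∈ H, ∀ x ∈ F, h * x * h⁻¹ ∈ F) → F ≠ ⊥ →
      H ⊔ F = ⊤ ∧ H ⊓ F = ⊥ := by
    intro F hFT hFH hF0
    have hsup : H ⊔ F = ⊤ := by
      rcases eq_or_lt_of_le (le_sup_left : H ≤ H ⊔ F) with h | h
      · exfalso
        have hFH' : F ≤ H := h.ge.trans' le_sup_right
        -- the largest normal subgroup inside
        have hn : (H ⊓ T).Normal := by
          refine ⟨fun x hx g => ?_⟩
          by_cases hTH : T ≤ H
          · exact ⟨hTH (hT.conj_mem x hx.2 g), hT.conj_mem x hx.2 g⟩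
          · have htop : H ⊔ T = ⊤ :=
              hmax.2 _ (lt_of_le_of_ne le_sup_left fun e => hTH (e ▸ le_sup_right))
            have hg : g ∈ ((H ⊔ T : Subgroup Q) : Set Q) := by rw [htop]; trivial
            rw [Subgroup.mul_normal] at hg
            obtain ⟨a, ha, b, hb, rfl⟩ := hg
            have hbx : b * x * b⁻¹ = x := by
              rw [hab b hb x hx.2, mul_inv_cancel_right]
            rw [show a * b * x * (a * b)⁻¹ = a * (b * x * b⁻¹) * a⁻¹ by group, hbx]
            exact ⟨H.mul_mem (H.mul_mem ha hx.1) (H.inv_mem ha), hT.conj_mem x hx.2 a⟩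
        have := hcore _ hn inf_le_left
        exact hF0 (le_bot_iff.1 ((le_inf hFH' hFT).trans this.le))
      · exact hmax.2 _ h
    refine ⟨hsup, ?_⟩
    have hTH : H ⊔ T = ⊤ := eq_top_iff.2 (hsup.ge.trans (sup_le_sup_left hFT H))
    have hn : (H ⊓ T).Normal := by
      refine ⟨fun x hx g => ?_⟩
      have hg : g ∈ ((H ⊔ T : Subgroup Q) : Set Q) := by rw [hTH]; trivial
      rw [Subgroup.mul_normal] at hg
      obtain ⟨a, ha, b, hb, rfl⟩ := hg
      have hbx : b * x * b⁻¹ = x := by rw [hab b hb x hx.2, mul_inv_cancel_right]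
      rw [show a * b * x * (a * b)⁻¹ = a * (b * x * b⁻¹) * a⁻¹ by group, hbx]
      exact ⟨H.mul_mem (H.mul_mem ha hx.1) (H.inv_mem ha), hT.conj_mem x hx.2 a⟩
    exact le_bot_iff.1 ((inf_le_inf_left H hFT).trans (hcore _ hn inf_le_left).le)
  obtain ⟨hsup, hinf⟩ := key T le_rfl (fun h _ x hx => hT.conj_mem x hx h) hT0
  obtain ⟨n, hn⟩ := hTp.exists_card_eq
  have hn0 : 0 < n := by
    rcases Nat.eq_zero_or_pos n with rfl | h
    · rw [pow_zero, Subgroup.card_eq_one] at hn; exact absurd hn hT0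
    · exact h
  by_cases hH : H = ⊥
  · exact ⟨p, T, ⊥, hp, hT, hsup, hinf, ⟨n, hn0, hn⟩, inferInstance,
      by rw [Subgroup.card_bot]; exact hp.not_dvd_one, fun h => absurd hH h⟩
  haveI : Nontrivial H := (Subgroup.nontrivial_iff_ne_bot H).2 hH
  obtain ⟨q, A, hq, hA, hA0, habA, hexA⟩ := exists_elementary_normal (Q := H)
  haveI := hA
  refine ⟨p, T, A, hp, hT, hsup, hinf, ⟨n, hn0, hn⟩, hA, ?_,
    fun _ => ⟨hA0, q, hq, ?_, habA, hexA⟩⟩
  rotate_left
  · obtain ⟨w, hw1⟩ := A.ne_bot_iff_exists_ne_one.1 hA0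
    haveI := Fact.mk hq
    rw [← orderOf_eq_prime (hexA w w.2) fun e => hw1 (Subtype.ext e)]
    exact Subgroup.orderOf_dvd_natCard A w.2
  intro hdvd
  obtain ⟨a, ha⟩ := exists_prime_orderOf_dvd_card' p hdvd
  have hqp : q = p := by
    have h1 : orderOf a ∣ q := orderOf_dvd_of_pow_eq_one (Subtype.ext (hexA a a.2))
    rw [ha] at h1
    exact ((Nat.prime_dvd_prime_iff_eq hp hq).1 h1).symm
  subst hqp
  have hAp : IsPGroup q A := fun x => ⟨1, Subtype.ext (by rw [pow_one]; exact hexA x x.2)⟩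
  letI : MulAction A T := MulAction.compHom T
    (((MulAut.conjNormal (H := T)).comp H.subtype).comp A.subtype)
  obtain ⟨x, hx, hx1⟩ := hAp.exists_fixed_point_of_prime_dvd_card_of_fixed_point T
    (hn ▸ dvd_pow_self q hn0.ne') (a := 1) (fun g => map_one (MulAut.conjNormal ((g : H) : Q)))
  let F : Subgroup Q := T ⊓ Subgroup.centralizer ((A.map H.subtype : Subgroup Q) : Set Q)
  have hxF : (x : Q) ∈ F := ⟨x.2, Subgroup.mem_centralizer_iff.2 fun y hy => by
    obtain ⟨w, hw, rfl⟩ := hy
    have h1 : MulAut.conjNormal ((w : H) : Q) x = x := hx ⟨w, hw⟩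
    have := congrArg Subtype.val h1
    rw [MulAut.conjNormal_apply] at this
    exact mul_inv_eq_iff_eq_mul.1 this⟩
  have hFH : ∀ h ∈ H, ∀ z ∈ F, h * z * h⁻¹ ∈ F := fun h hh z hz =>
    ⟨hT.conj_mem z hz.1 h, Subgroup.mem_centralizer_iff.2 fun y hy => by
      obtain ⟨w, hw, rfl⟩ := hy
      have hmem : (⟨h, hh⟩ : H)⁻¹ * w * ⟨h, hh⟩ ∈ A := by
        simpa using hA.conj_mem w hw (⟨h, hh⟩ : H)⁻¹
      have h1 := Subgroup.mem_centralizer_iff.1 hz.2 _ ⟨_, hmem, rfl⟩
      simp only [Subgroup.coe_subtype, Subgroup.coe_mul, InvMemClass.coe_inv] at h1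
      calc (w : Q) * (h * z * h⁻¹) = h * ((h⁻¹ * w * h) * z) * h⁻¹ := by group
        _ = h * (z * (h⁻¹ * w * h)) * h⁻¹ := by rw [h1]
        _ = h * z * h⁻¹ * w := by group⟩
  have hF0 : F ≠ ⊥ := fun h => hx1 (Subtype.ext (by
    have := hxF; rw [h, Subgroup.mem_bot] at this; rw [this]; rfl))
  obtain ⟨hFs, -⟩ := key F inf_le_left hFH hF0
  have hAn : (A.map H.subtype).Normal := by
    refine Subgroup.normalizer_eq_top_iff.1 (eq_top_iff.2 (hFs.ge.trans (sup_le ?_ ?_)))
    · intro h hh
      rw [Subgroup.mem_normalizer_iff]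
      intro y
      constructor
      · rintro ⟨w, hw, rfl⟩
        exact ⟨_, hA.conj_mem w hw ⟨h, hh⟩, rfl⟩
      · rintro ⟨w, hw, hwy⟩
        refine ⟨_, hA.conj_mem w hw (⟨h, hh⟩ : H)⁻¹, ?_⟩
        simp only [Subgroup.coe_subtype, Subgroup.coe_mul, InvMemClass.coe_inv] at hwy ⊢
        rw [hwy]
        group
    · intro z hz
      rw [Subgroup.mem_normalizer_iff]
      intro y
      have hc := Subgroup.mem_centralizer_iff.1 hz.2
      constructor
      · intro hy
        rw [← hc y hy, mul_inv_cancel_right]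
        exact hy
      · intro hy
        have := hc _ hy
        have hy' : z * y * z⁻¹ = y := by
          have h3 : (z * y * z⁻¹) * z = z * (z * y * z⁻¹) := this
          calc z * y * z⁻¹ = z⁻¹ * (z * (z * y * z⁻¹)) := by group
            _ = z⁻¹ * ((z * y * z⁻¹) * z) := by rw [h3]
            _ = y := by group
        rwa [hy'] at hy
  have := hcore _ hAn (Subgroup.map_subtype_le A)
  rw [Subgroup.map_eq_bot_iff, Subgroup.ker_subtype, le_bot_iff] at this
  exact hA0 this

/-- Cauchy-Schwarz for a restriction of an induced function, with the case of equality. -/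
theorem conj_mem_of_norm_eq (H : Subgroup G) (ϑ : H → ℂ) (N : Subgroup G) [N.Normal]
    (S : Finset G) (hS : ∀ g, g ∈ S ↔ g ∈ N)
    (h : (Nat.card H : ℝ) ^ 2 * ∑ y ∈ S, Complex.normSq (indFun H ϑ y) =
      (Nat.card G : ℝ) ^ 2 * ∑ y ∈ S, Complex.normSq (extendByZero H ϑ y))
    {z : G} (hz : z ∈ N) (hϑz : extendByZero H ϑ z ≠ 0) (d : G) : d⁻¹ * z * d ∈ H := by
  classical
  set f := extendByZero H ϑ with hf
  have hf0 : ∀ y : G, y ∉ H → f y = 0 := fun y hy => Chars.extendByZero_of_not_mem H ϑ hy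
  have hsub : ∀ (x : G) (F : G → ℂ), ∑ y ∈ S, F (x⁻¹ * y * x) = ∑ y ∈ S, F y := by
    intro x F
    refine Finset.sum_nbij' (fun y => x⁻¹ * y * x) (fun y => x * y * x⁻¹) (fun y hy => ?_)
      (fun y hy => ?_) (fun y _ => by group) (fun y _ => by group) fun y _ => rfl
    · rw [hS] at hy ⊢
      simpa using ‹N.Normal›.conj_mem y hy x⁻¹
    · rw [hS] at hy ⊢
      exact ‹N.Normal›.conj_mem y hy x
  have hexp : ((((Nat.card H : ℝ) ^ 2 * ∑ y ∈ S, Complex.normSq (indFun H ϑ y)) : ℝ) : ℂ) =
      (Nat.card G : ℂ) * ∑ d : G, ∑ y ∈ S, f y * conj (f (d⁻¹ * y * d)) := by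
    push_cast
    have hind : ∀ y, (Nat.card H : ℂ) * indFun H ϑ y = ∑ x : G, f (x⁻¹ * y * x) := fun y => by
      rw [Chars.indFun_apply, ← mul_assoc, mul_inv_cancel₀ (Nat.cast_ne_zero.2 Nat.card_pos.ne'),
        one_mul]
    calc _ = ∑ y ∈ S, ((Nat.card H : ℂ) * indFun H ϑ y) *
          conj ((Nat.card H : ℂ) * indFun H ϑ y) := by
          rw [Finset.mul_sum]
          refine Finset.sum_congr rfl fun y _ => ?_
          rw [← Complex.mul_conj, map_mul, map_natCast]; ring
      _ = ∑ x : G, ∑ x' : G, ∑ y ∈ S, f (x⁻¹ * y * x) * conj (f (x'⁻¹ * y * x')) := by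
          simp only [hind, map_sum, Finset.sum_mul_sum]
          rw [Finset.sum_comm]
          exact Finset.sum_congr rfl fun x _ => Finset.sum_comm
      _ = ∑ _x : G, ∑ d : G, ∑ y ∈ S, f y * conj (f (d⁻¹ * y * d)) := by
          refine Finset.sum_congr rfl fun x _ => ?_
          refine Fintype.sum_equiv (Equiv.mulLeft x⁻¹) _ _ fun x' => ?_
          rw [← hsub x (fun y => f y * conj (f ((Equiv.mulLeft x⁻¹ x')⁻¹ * y * (Equiv.mulLeft x⁻¹ x'))))]
          refine Finset.sum_congr rfl fun y _ => ?_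
          simp only [Equiv.coe_mulLeft]
          congr 3
          group
      _ = _ := by rw [Finset.sum_const, Finset.card_univ, nsmul_eq_mul, ← Nat.card_eq_fintype_card]
  set bad := Finset.univ.filter fun d : G => d⁻¹ * z * d ∉ H with hbad
  by_contra hd
  have hbound : ∀ (d : G) (y : G), (f y * conj (f (d⁻¹ * y * d))).re ≤
      (if d⁻¹ * y * d ∈ H then Complex.normSq (f y) else 0) / 2 +
        (if y ∈ H then Complex.normSq (f (d⁻¹ * y * d)) else 0) / 2 := by
    intro d y
    by_cases h1 : d⁻¹ * y * d ∈ H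
    · by_cases h2 : y ∈ H
      · rw [if_pos h1, if_pos h2]
        have := Complex.normSq_nonneg (f y - f (d⁻¹ * y * d))
        rw [Complex.normSq_sub] at this
        linarith
      · rw [hf0 y h2, if_neg h2]
        simp
    · rw [hf0 _ h1]
      simp [if_neg h1]
  have hre := congrArg Complex.re hexp
  rw [Complex.ofReal_re, ← Complex.ofReal_natCast, Complex.re_ofReal_mul, Complex.re_sum,
    Finset.sum_congr rfl fun d _ => Complex.re_sum _ _, h] at hre
  -- the symmetric halves agree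
  have hsym : ∑ d : G, ∑ y ∈ S, (if y ∈ H then Complex.normSq (f (d⁻¹ * y * d)) else 0) =
      ∑ d : G, ∑ y ∈ S, (if d⁻¹ * y * d ∈ H then Complex.normSq (f y) else 0) := by
    refine Fintype.sum_equiv (Equiv.inv G) _ _ fun d => ?_
    refine Finset.sum_nbij' (fun y => d⁻¹ * y * d) (fun y => d * y * d⁻¹) (fun y hy => ?_)
      (fun y hy => ?_) (fun y _ => by group) (fun y _ => by group) fun y _ => ?_
    · rw [hS] at hy ⊢
      simpa using ‹N.Normal›.conj_mem y hy d⁻¹
    · rw [hS] at hy ⊢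
      exact ‹N.Normal›.conj_mem y hy d
    · simp only [Equiv.inv_apply, inv_inv]
      rw [show d * (d⁻¹ * y * d) * d⁻¹ = y by group]
  have hlt : ∑ d : G, ∑ y ∈ S, (if d⁻¹ * y * d ∈ H then Complex.normSq (f y) else 0) <
      ∑ _d : G, ∑ y ∈ S, Complex.normSq (f y) := by
    refine Finset.sum_lt_sum (fun d _ => Finset.sum_le_sum fun y _ => ?_)
      ⟨d, Finset.mem_univ _, Finset.sum_lt_sum (fun y _ => ?_)
        ⟨z, (hS z).2 hz, by rw [if_neg hd]; exact Complex.normSq_pos.2 hϑz⟩⟩ <;>
    · split_ifs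
      · exact le_rfl
      · exact Complex.normSq_nonneg _
  rw [Finset.sum_const, Finset.card_univ, nsmul_eq_mul, ← Nat.card_eq_fintype_card] at hlt
  have hle := Finset.sum_le_sum fun (d : G) (_ : d ∈ Finset.univ) =>
    Finset.sum_le_sum fun (y : G) (_ : y ∈ S) => hbound d y
  simp only [Finset.sum_add_distrib, ← Finset.sum_div] at hle
  rw [hsym] at hle
  have hG : (0 : ℝ) < Nat.card G := Nat.cast_pos.2 Nat.card_pos
  nlinarith

theorem card_comap_of_surj {Q : Type*} [Group Q] (π : G →* Q) (hπ : Function.Surjective π)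
    (T : Subgroup Q) : Nat.card (T.comap π) = Nat.card π.ker * Nat.card T := by
  haveI : Finite Q := Finite.of_surjective π hπ
  have h1 := (T.comap π).card_mul_index
  rw [Subgroup.index_comap_of_surjective T hπ, ← π.ker.card_mul_index,
    Subgroup.index_ker π, MonoidHom.range_eq_top.2 hπ, Subgroup.card_top, ← T.card_mul_index,
    ← mul_assoc] at h1
  exact Nat.eq_of_mul_eq_mul_right (Nat.pos_of_ne_zero Subgroup.index_ne_zero_of_finite) h1

theorem card_sup_of_inf {Q : Type*} [Group Q] (A T : Subgroup Q) [T.Normal]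
    (h : A ⊓ T = ⊥) : Nat.card (A ⊔ T : Subgroup Q) = Nat.card A * Nat.card T := by
  rw [← Nat.card_prod]
  refine (Nat.card_eq_of_bijective (fun x : A × T => (⟨(x.1 : Q) * x.2,
    Subgroup.mul_mem _ (Subgroup.mem_sup_left x.1.2) (Subgroup.mem_sup_right x.2.2)⟩ :
      (A ⊔ T : Subgroup Q))) ⟨?_, ?_⟩).symm
  · rintro ⟨a, t⟩ ⟨a', t'⟩ hxy
    have e : (a : Q) * t = a' * t' := congrArg Subtype.val hxy
    have hm : (a' : Q)⁻¹ * a ∈ A ⊓ T := ⟨A.mul_mem (A.inv_mem a'.2) a.2, by
      rw [show (a' : Q)⁻¹ * a = t' * (t : Q)⁻¹ by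
        rw [eq_mul_inv_iff_mul_eq, mul_assoc, e]; group]
      exact T.mul_mem t'.2 (T.inv_mem t.2)⟩
    rw [h, Subgroup.mem_bot, inv_mul_eq_one] at hm
    rw [hm] at e
    exact Prod.ext (Subtype.ext hm.symm) (Subtype.ext (mul_left_cancel e))
  · rintro ⟨x, hx⟩
    rw [← SetLike.mem_coe, Subgroup.mul_normal] at hx
    obtain ⟨a, ha, t, ht, rfl⟩ := hx
    exact ⟨(⟨a, ha⟩, ⟨t, ht⟩), rfl⟩

/-- Berger's lemma. -/
theorem exists_not_homogeneous (L H : Subgroup G) [L.Normal] (hLH : L ≤ H) (hmax : IsCoatom H)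
    (hsolv : Group.IsSolvable (G ⧸ L)) (ϑ : H → ℂ) (hϑ : IsIrrCharacter H ϑ)
    (hϑL : IsIrrCharacter L (fun x : L => ϑ ⟨(x : G), hLH x.2⟩))
    (hind : IsIrrCharacter G (indFun H ϑ)) :
    ∃ M : Subgroup G, M.Normal ∧ L ≤ M ∧ ¬ ∃ (φ : M → ℂ) (e : ℕ), IsIrrCharacter M φ ∧
      (fun m : M => indFun H ϑ m) = (e : ℂ) • φ := by
  classical
  by_contra hall
  push Not at hall
  set C := H.normalCore with hC
  have hCn : C.Normal := Subgroup.normalCore_normal H
  have hCH : C ≤ H := H.normalCore_le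
  have hLC : L ≤ C := Subgroup.normal_le_normalCore.2 hLH
  haveI : Group.IsSolvable (G ⧸ C) :=
    solvable_of_surjective (f := QuotientGroup.map L C (MonoidHom.id G) hLC)
      (fun x => by
        obtain ⟨g, rfl⟩ := QuotientGroup.mk_surjective x
        exact ⟨g, rfl⟩)
  set π := QuotientGroup.mk' C with hπ
  have hπs : Function.Surjective π := QuotientGroup.mk'_surjective C
  have hπH : (H.map π).comap π = H := by
    rw [Subgroup.comap_map_eq, QuotientGroup.ker_mk', sup_eq_left.2 hCH]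
  have hmax' : IsCoatom (H.map π) := by
    refine ⟨fun h => hmax.1 (by rw [← hπH, h, Subgroup.comap_top]), fun K hK => ?_⟩
    have h1 : H < K.comap π := by
      rw [← hπH]; exact (Subgroup.comap_lt_comap_of_surjective hπs).2 hK
    exact Subgroup.comap_injective hπs ((hmax.2 _ h1).trans (Subgroup.comap_top π).symm)
  have hcore : ∀ N : Subgroup (G ⧸ C), N.Normal → N ≤ H.map π → N = ⊥ := by
    intro N hN hle
    have h1 : N.comap π ≤ C := by
      haveI := hN.comap π
      exact Subgroup.normal_le_normalCore.2 (hπH ▸ Subgroup.comap_mono hle)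
    rw [eq_bot_iff, ← Subgroup.map_comap_eq_self_of_surjective hπs N]
    refine (Subgroup.map_mono h1).trans (le_of_eq ?_)
    rw [Subgroup.map_eq_bot_iff, QuotientGroup.ker_mk']
  obtain ⟨p, T, A', hp, hT, hsup, hinf, ⟨n, hn0, hTn⟩, hA', hA'p, hA'0⟩ :=
    exists_complement_layers (H.map π) hmax' hcore
  set M := T.comap π with hM
  haveI hMn : M.Normal := hT.comap π
  set A := (A'.map (H.map π).subtype).comap π with hA
  have hCA : C ≤ A := fun c hc => by
    show π c ∈ A'.map (H.map π).subtype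
    rw [show π c = 1 from (QuotientGroup.eq_one_iff c).2 hc]
    exact one_mem _
  have hCM : C ≤ M := fun c hc => by
    show π c ∈ T
    rw [show π c = 1 from (QuotientGroup.eq_one_iff c).2 hc]
    exact one_mem _
  have hAH : A ≤ H := fun a ha => by
    rw [← hπH]
    exact Subgroup.map_subtype_le A' ha
  -- the product is normal
  set N := (A'.map (H.map π).subtype ⊔ T).comap π with hN
  have hNn' : (A'.map (H.map π).subtype ⊔ T).Normal := by
    refine Subgroup.normalizer_eq_top_iff.1 (eq_top_iff.2 (hsup.ge.trans (sup_le ?_ ?_)))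
    · intro h hh
      have hconj : ∀ k ∈ H.map π, ∀ y ∈ A'.map (H.map π).subtype ⊔ T,
          k * y * k⁻¹ ∈ A'.map (H.map π).subtype ⊔ T := by
        intro k hk y hy
        haveI := hT
        rw [← SetLike.mem_coe, Subgroup.mul_normal] at hy ⊢
        obtain ⟨a, ⟨w, hw, rfl⟩, t, ht, rfl⟩ := hy
        refine ⟨_, ⟨_, hA'.conj_mem w hw ⟨k, hk⟩, rfl⟩, k * t * k⁻¹, hT.conj_mem t ht k, ?_⟩
        simp only [Subgroup.coe_subtype, Subgroup.coe_mul, InvMemClass.coe_inv]
        group
      rw [Subgroup.mem_normalizer_iff]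
      refine fun y => ⟨hconj h hh y, fun hy => ?_⟩
      have h2 := hconj h⁻¹ ((H.map π).inv_mem hh) _ hy
      simpa [mul_assoc] using h2
    · exact le_sup_right.trans Subgroup.le_normalizer
  haveI hNn : N.Normal := hNn'.comap π
  have hMN : M ≤ N := Subgroup.comap_mono le_sup_right
  have hNA : ∀ y, y ∈ N → (y ∈ H ↔ y ∈ A) := fun y hy => by
    refine ⟨fun hyH => ?_, fun h => hAH h⟩
    have hy' : π y ∈ A'.map (H.map π).subtype ⊔ T := hy
    haveI := hT
    rw [← SetLike.mem_coe, Subgroup.mul_normal] at hy'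
    obtain ⟨a, ha, t, ht, hat⟩ := hy'
    have hat' : a * t = π y := hat
    have htH : t ∈ H.map π := by
      rw [show t = a⁻¹ * π y by rw [← hat']; group]
      exact mul_mem (inv_mem (Subgroup.map_subtype_le A' ha)) ⟨y, hyH, rfl⟩
    have ht1 : t = 1 := Subgroup.mem_bot.1 (hinf ▸ ⟨htH, ht⟩)
    rw [ht1, mul_one] at hat'
    show π y ∈ A'.map (H.map π).subtype
    rw [← hat']
    exact ha
  have hMH : ∀ y, y ∈ M → y ∈ H → y ∈ C := fun y hyM hyH => by
    have : π y ∈ H.map π ⊓ T := ⟨⟨y, hyH, rfl⟩, hyM⟩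
    rw [hinf, Subgroup.mem_bot] at this
    exact (QuotientGroup.eq_one_iff y).1 this
  -- the index of `H`
  have hcardM : Nat.card M = p ^ n * Nat.card C := by
    rw [← hTn, hM, card_comap_of_surj π hπs, QuotientGroup.ker_mk', mul_comm]
  have hcardN : Nat.card N = p ^ n * Nat.card A := by
    haveI := hT
    have h1 : Nat.card (A'.map (H.map π).subtype ⊔ T : Subgroup (G ⧸ C)) =
        Nat.card (A'.map (H.map π).subtype) * Nat.card T := by
      exact card_sup_of_inf _ T (le_bot_iff.1
          ((inf_le_inf_right T (Subgroup.map_subtype_le A')).trans hinf.le))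
    rw [← hTn, hN, card_comap_of_surj π hπs, h1, hA,
      card_comap_of_surj π hπs]
    ring
  have hcardG : Nat.card G = Nat.card H * p ^ n := by
    have hc : (H.map π).IsComplement' T :=
      haveI := hT
      Subgroup.isComplement'_of_disjoint_and_mul_eq_univ (disjoint_iff.2 hinf)
        (by rw [← Subgroup.mul_normal, hsup, Subgroup.coe_top])
    rw [← H.card_mul_index, ← hTn, ← hc.symm.index_eq_card]
    congr 1
    rw [← hπH, Subgroup.index_comap_of_surjective _ hπs, hπH]
  -- the restrictions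
  haveI := Fintype.ofFinite C
  haveI := Fintype.ofFinite M
  haveI := Fintype.ofFinite N
  haveI := Fintype.ofFinite H
  haveI := Fintype.ofFinite A
  set χ := indFun H ϑ with hχ
  set φ : C → ℂ := fun c => ϑ ⟨(c : G), hCH c.2⟩ with hφ
  have hφi : IsIrrCharacter C φ := by
    have hc : IsCharacter C φ := Chars.isCharacter_comp (Chars.isCharacter_of_isIrr hϑ)
      (Subgroup.inclusion hCH)
    refine Chars.PrimePower.isIrr_of_restrict hc (L.subgroupOf C) ?_
    exact Chars.isIrrCharacter_comp_equiv hϑL (Subgroup.subgroupOfEquivOfLe hLC)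
  obtain ⟨φ', k, hφ', hk⟩ := hall C hCn hLC
  obtain ⟨ψ, f, hψ, hf⟩ := hall M hMn (hLC.trans hCM)
  obtain ⟨η, g, hη, hg⟩ := hall N hNn (hLC.trans (hCM.trans hMN))
  -- the restriction to the core
  have hover : classInner (fun c : C => χ c) φ ≠ 0 := by
    obtain ⟨m, hm, hsum⟩ := Chars.exists_eq_sum_nsmul
      (Chars.isCharacter_restrict (Chars.isCharacter_of_isIrr hind) H)
    let θ : IrrCharacter H := ⟨ϑ, hϑ⟩
    have hmθ : m θ = 1 := by
      have h1 := hm θ
      rw [← Chars.classInner_conj_symm] at h1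
      have h2 : classInner ϑ (fun x : H => χ x) = 1 := by
        rw [← Chars.classInner_indFun _ _ (Chars.isClassFunction_of_isCharacter
          (Chars.isCharacter_of_isIrr hind))]
        exact Chars.classInner_self_irr hind
      rw [show classInner (θ : H → ℂ) (fun x : H => χ x) = 1 from h2, map_one] at h1
      exact_mod_cast h1.symm
    have hnat : ∀ ζ : IrrCharacter H, ∃ j : ℕ,
        classInner (fun c : C => (ζ : H → ℂ) ⟨(c : G), hCH c.2⟩) φ = j := fun ζ =>
      Chars.exists_classInner_eq_nat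
        (Chars.isCharacter_comp (Chars.irr_isCharacter ζ) (Subgroup.inclusion hCH))
        (Chars.isCharacter_of_isIrr hφi)
    choose j hj using hnat
    have hsum' : (fun c : C => χ c) =
        ∑ ζ : IrrCharacter H, (m ζ : ℂ) • fun c : C => (ζ : H → ℂ) ⟨(c : G), hCH c.2⟩ := by
      funext c
      have := congrFun hsum (⟨(c : G), hCH c.2⟩ : H)
      simp only [Finset.sum_apply, Pi.smul_apply, nsmul_eq_mul, smul_eq_mul] at this ⊢
      exact this
    rw [hsum', Chars.classInner_sum_left]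
    simp only [Chars.classInner_smul_left, hj]
    norm_cast
    refine (Finset.sum_pos' (fun _ _ => Nat.zero_le _) ⟨θ, Finset.mem_univ _, ?_⟩).ne'
    have hθ1 : (j θ : ℂ) = 1 := by
      rw [← hj θ]; exact Chars.classInner_self_irr hφi
    rw [hmθ, one_mul]
    exact Nat.pos_of_ne_zero fun h0 => by rw [h0] at hθ1; norm_num at hθ1
  have hkφ : φ' = φ := by
    by_contra hne
    refine hover ?_
    rw [hk, Chars.classInner_smul_left, Chars.classInner_irr hφ' hφi, if_neg hne, mul_zero]
  subst hkφ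
  have hϑ1 : φ 1 ≠ 0 := Chars.irr_apply_one_ne_zero hφi
  have hk' : (k : ℂ) = (p ^ n : ℕ) := by
    have h1 := congrFun hk 1
    simp only [OneMemClass.coe_one, Pi.smul_apply, smul_eq_mul] at h1
    rw [hχ, Chars.indFun_apply_one] at h1
    have hi : H.index = p ^ n := by
      refine Nat.eq_of_mul_eq_mul_left (Nat.card_pos (α := H)) ?_
      rw [H.card_mul_index, hcardG]
    rw [hi] at h1
    exact (mul_right_cancel₀ hϑ1 h1).symm
  have hnorm : ∀ {K : Subgroup G} [Fintype K] (θ : K → ℂ) (c : ℕ), IsIrrCharacter K θ →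
      (fun y : K => χ y) = (c : ℂ) • θ →
      ((∑ y ∈ Finset.univ.filter (· ∈ K), Complex.normSq (χ y) : ℝ) : ℂ) =
        (c : ℂ) ^ 2 * (Nat.card K : ℂ) := by
    intro K _ θ c hθ hc
    rw [Finset.sum_subtype _ (fun y => (Finset.mem_filter.trans (and_iff_right (Finset.mem_univ y))))
      (fun y => Complex.normSq (χ y))]
    push_cast
    have h1 := Chars.classInner_self_irr hθ
    rw [Chars.classInner_def, inv_mul_eq_iff_eq_mul₀ Chars.card_ne_zero, mul_one] at h1
    rw [← h1, Finset.mul_sum]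
    refine Finset.sum_congr rfl fun y _ => ?_
    rw [← Complex.mul_conj, congrFun hc y]
    simp only [Pi.smul_apply, smul_eq_mul, map_mul, map_natCast]
    ring
  have hf2 : f ^ 2 = p ^ n := by
    have h1 := hnorm ψ f hψ hf
    have h2 := hnorm φ k hφi hk
    have hv : ∑ y ∈ Finset.univ.filter (· ∈ M), Complex.normSq (χ y) =
        ∑ y ∈ Finset.univ.filter (· ∈ C), Complex.normSq (χ y) := by
      refine (Finset.sum_subset (fun y hy => ?_) fun y hyM hyC => ?_).symm
      · simp only [Finset.mem_filter, Finset.mem_univ, true_and] at hy ⊢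
        exact hCM hy
      · simp only [Finset.mem_filter, Finset.mem_univ, true_and] at hyM hyC
        have : χ y = 0 := by
          rw [hχ, Chars.indFun_apply, Finset.sum_eq_zero, mul_zero]
          intro x _
          refine Chars.extendByZero_of_not_mem _ _ fun hx => hyC ?_
          have hxM : x⁻¹ * y * x ∈ M := by simpa using hMn.conj_mem y hyM x⁻¹
          have := hCn.conj_mem _ (hMH _ hxM hx) x
          simpa [mul_assoc] using this
        simp [this]
    rw [hv, h2, hk', hcardM] at h1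
    have h3 : (f : ℂ) ^ 2 = (p ^ n : ℕ) := by
      have hC0 : (Nat.card C : ℂ) ≠ 0 := Nat.cast_ne_zero.2 Nat.card_pos.ne'
      have hp0 : ((p : ℂ) ^ n) ≠ 0 := pow_ne_zero _ (Nat.cast_ne_zero.2 hp.ne_zero)
      push_cast at h1 ⊢
      field_simp at h1
      exact h1.symm
    exact_mod_cast h3
  -- the multiplicity on `N` is the same
  set M' := M.subgroupOf N with hM'
  let ψ' : M' → ℂ := fun y => ψ (Subgroup.subgroupOfEquivOfLe hMN y)
  have hψ' : IsIrrCharacter M' ψ' :=
    Chars.isIrrCharacter_comp_equiv hψ (Subgroup.subgroupOfEquivOfLe hMN)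
  haveI := Fintype.ofFinite M'
  have hψ1 : ψ 1 ≠ 0 := Chars.irr_apply_one_ne_zero hψ
  have hη1 : η 1 ≠ 0 := Chars.irr_apply_one_ne_zero hη
  obtain ⟨a, ρ, hρ, hρe⟩ := hη
  obtain ⟨b, τ, hτ, hτe⟩ := hψ'
  haveI := hρ
  haveI := hτ
  have hres : ∀ y : M', (g : ℂ) * ρ.character (y : N) = (f : ℂ) * τ.character y := by
    intro y
    have e1 := congrFun hg (y : N)
    have e2 := congrFun hf (Subgroup.subgroupOfEquivOfLe hMN y)
    rw [congrFun hρe, congrFun hτe]
    simp only [Pi.smul_apply, smul_eq_mul] at e1 e2 ⊢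
    rw [← e1]
    exact e2
  have hf0 : f ≠ 0 := fun h0 => by
    rw [h0, zero_pow two_ne_zero] at hf2
    exact (pow_pos hp.pos n).ne' hf2.symm
  have hcls : classInner (fun y : M' => ρ.character (y : N)) τ.character ≠ 0 := by
    intro h0
    have h1 := congrArg (fun z : ℂ => (g : ℂ) * z) h0
    rw [← Chars.classInner_smul_left, mul_zero,
      show ((g : ℂ) • fun y : M' => ρ.character (y : N)) = (f : ℂ) • τ.character from funext hres,
      Chars.classInner_smul_left, hτe, Chars.classInner_self_irr (hτe ▸ ⟨b, τ, hτ, rfl⟩), mul_one] at h1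
    exact hf0 (by exact_mod_cast h1)
  obtain ⟨hdvd1, hdvd2⟩ := finrank_dvd_of_constituent τ ρ (nontrivial_of_classInner ρ τ hcls)
  rw [Module.finrank_fin_fun, Module.finrank_fin_fun] at hdvd1 hdvd2
  have hb0 : b ≠ 0 := fun h0 => by
    subst h0
    exact Chars.irr_apply_one_ne_zero (⟨0, τ, hτ, rfl⟩ : IsIrrCharacter M' τ.character)
      (by rw [Representation.char_one, Module.finrank_fin_fun, Nat.cast_zero])
  have hgab : g * a = f * b := by
    have h1 := hres 1
    rw [OneMemClass.coe_one, Representation.char_one, Representation.char_one,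
      Module.finrank_fin_fun, Module.finrank_fin_fun] at h1
    exact_mod_cast h1
  obtain ⟨h, rfl⟩ := hdvd1
  rw [Nat.mul_div_cancel_left _ (Nat.pos_of_ne_zero hb0)] at hdvd2
  have hgh : g * h = f := Nat.eq_of_mul_eq_mul_right (Nat.pos_of_ne_zero hb0)
    (by rw [← hgab]; ring)
  have hh1 : h = 1 := by
    have hidx : Nat.card M * M'.index = Nat.card N := by
      rw [← Subgroup.card_mul_index M',
        Nat.card_congr (Subgroup.subgroupOfEquivOfLe hMN).toEquiv]
    have hAC : Nat.card A = Nat.card C * Nat.card A' := by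
      rw [hA, card_comap_of_surj π hπs, QuotientGroup.ker_mk',
        Subgroup.card_map_of_injective Subtype.val_injective]
    have hM'i : M'.index = Nat.card A' := by
      refine Nat.eq_of_mul_eq_mul_left (Nat.card_pos (α := M)) (hidx.trans ?_)
      rw [hcardN, hAC, hcardM]; ring
    refine Nat.eq_one_of_dvd_coprimes (a := p ^ n) (b := Nat.card A')
      (Nat.Coprime.pow_left _ (hp.coprime_iff_not_dvd.2 hA'p)) ?_ (hM'i ▸ hdvd2)
    rw [← hf2, ← hgh, mul_pow]
    exact Dvd.dvd.mul_left (dvd_pow_self h two_ne_zero) _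
  subst hh1
  rw [mul_one] at hgh
  subst hgh
  -- the comparison
  let S := Finset.univ.filter (· ∈ N)
  have hres2 : ∀ y ∈ S, extendByZero H ϑ y = extendByZero A (fun a => ϑ ⟨(a : G), hAH a.2⟩) y := by
    intro y hy
    by_cases hA : y ∈ A
    · rw [Chars.extendByZero_of_mem A _ hA, Chars.extendByZero_of_mem H _ (hAH hA)]
    · rw [Chars.extendByZero_of_not_mem A _ hA, Chars.extendByZero_of_not_mem H _
        fun h => hA ((hNA y (Finset.mem_filter.1 hy).2).1 h)]
  set μ : A → ℂ := fun a => ϑ ⟨(a : G), hAH a.2⟩ with hμ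
  have hμi : IsIrrCharacter A μ := by
    refine Chars.PrimePower.isIrr_of_restrict (Chars.isCharacter_comp (Chars.isCharacter_of_isIrr hϑ)
      (Subgroup.inclusion hAH)) (C.subgroupOf A) ?_
    exact Chars.isIrrCharacter_comp_equiv hφi (Subgroup.subgroupOfEquivOfLe hCA)
  have hsumA : ((∑ y ∈ S, Complex.normSq (extendByZero H ϑ y) : ℝ) : ℂ) = Nat.card A := by
    rw [Finset.sum_congr rfl fun y hy => by rw [hres2 y hy],
      ← Finset.sum_subset (s₁ := Finset.univ.filter (· ∈ A)) (fun y hy => by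
        simp only [S, Finset.mem_filter, Finset.mem_univ, true_and] at hy ⊢
        exact Subgroup.comap_mono le_sup_left hy)
        (fun y _ hy => by
          rw [Chars.extendByZero_of_not_mem A _ (by simpa using hy), map_zero])]
    rw [Finset.sum_subtype _ (fun y => (Finset.mem_filter.trans (and_iff_right (Finset.mem_univ y))))
      (fun y => Complex.normSq (extendByZero A _ y))]
    push_cast
    have h1 := Chars.classInner_self_irr hμi
    rw [Chars.classInner_def, inv_mul_eq_iff_eq_mul₀ Chars.card_ne_zero, mul_one] at h1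
    rw [← h1]
    exact Finset.sum_congr rfl fun a _ => by rw [Chars.extendByZero_coe, ← Complex.mul_conj]
  have heq : (Nat.card H : ℝ) ^ 2 * ∑ y ∈ S, Complex.normSq (indFun H ϑ y) =
      (Nat.card G : ℝ) ^ 2 * ∑ y ∈ S, Complex.normSq (extendByZero H ϑ y) := by
    apply Complex.ofReal_injective
    have h1 := hnorm (K := N) η g ⟨_, ρ, hρ, hρe⟩ hg
    rw [Complex.ofReal_mul, Complex.ofReal_mul, hsumA, h1, hcardN, hcardG]
    push_cast
    rw [show ((g : ℂ)) ^ 2 = (p : ℂ) ^ n by exact_mod_cast hf2]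
    ring
  -- so the inducing character vanishes off the core
  have hvan : ∀ a : A, (a : G) ∉ C → μ a = 0 := by
    intro a ha
    by_contra h0
    apply ha
    refine fun b => ?_
    have hne : extendByZero H ϑ (a : G) ≠ 0 := by
      rw [Chars.extendByZero_of_mem H _ (hAH a.2)]
      exact h0
    have := conj_mem_of_norm_eq H ϑ N S (fun y => by simp [S]) heq
      (Subgroup.comap_mono le_sup_left a.2) hne b⁻¹
    rwa [inv_inv] at this
  have hAC : A ≤ C := by
    have h1 := Chars.classInner_self_irr hμi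
    have h2 := Chars.classInner_self_irr hφi
    rw [Chars.classInner_def, inv_mul_eq_iff_eq_mul₀ Chars.card_ne_zero, mul_one] at h1 h2
    have h3 : ∑ a : A, μ a * conj (μ a) = ∑ c : C, φ c * conj (φ c) := by
      let F : G → ℂ := fun y => if h : y ∈ A then μ ⟨y, h⟩ * conj (μ ⟨y, h⟩) else 0
      have ea : ∑ a : A, μ a * conj (μ a) = ∑ y ∈ Finset.univ.filter (· ∈ A), F y := by
        rw [Finset.sum_subtype _ (fun y => (Finset.mem_filter.trans
          (and_iff_right (Finset.mem_univ y)))) F]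
        exact Finset.sum_congr rfl fun a _ => by simp [F]
      have ec : ∑ c : C, φ c * conj (φ c) = ∑ y ∈ Finset.univ.filter (· ∈ C), F y := by
        rw [Finset.sum_subtype _ (fun y => (Finset.mem_filter.trans
          (and_iff_right (Finset.mem_univ y)))) F]
        exact Finset.sum_congr rfl fun c _ => by
          simp only [F, dif_pos (hCA c.2)]; rfl
      rw [ea, ec]
      refine (Finset.sum_subset (fun y hy => ?_) fun y hy hy' => ?_).symm
      · simp only [Finset.mem_filter, Finset.mem_univ, true_and] at hy ⊢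
        exact hCA hy
      · simp only [Finset.mem_filter, Finset.mem_univ, true_and] at hy hy'
        simp [F, dif_pos hy, hvan ⟨y, hy⟩ hy']
    rw [h1, h2] at h3
    have h4 : Nat.card A = Nat.card C := by exact_mod_cast h3
    exact (Subgroup.eq_of_le_of_card_ge hCA h4.le).ge
  have hA'bot : A' = ⊥ := by
    have h1 : A.map π = ⊥ := by
      rw [Subgroup.map_eq_bot_iff, QuotientGroup.ker_mk']; exact hAC
    rw [hA, Subgroup.map_comap_eq_self_of_surjective hπs, Subgroup.map_eq_bot_iff,
      Subgroup.ker_subtype, le_bot_iff] at h1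
    exact h1
  by_cases hHC : H.map π = ⊥
  · -- `H` is the core and `M` is everything
    have hTtop : T = ⊤ := by rw [← hsup, hHC, bot_sup_eq]
    have hMtop : ∀ y : G, y ∈ M := fun y => by
      show π y ∈ T; rw [hTtop]; exact Subgroup.mem_top _
    have h1 := hnorm ψ g hψ hf
    have h5 := Chars.classInner_self_irr hind
    rw [Chars.classInner_def, inv_mul_eq_iff_eq_mul₀ Chars.card_ne_zero, mul_one] at h5
    rw [show Finset.univ.filter (· ∈ M) = Finset.univ by ext y; simp [hMtop y]] at h1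
    push_cast at h1
    rw [Finset.sum_congr rfl fun y _ => (Complex.mul_conj _).symm, h5,
      show Nat.card M = Nat.card G by
        rw [show M = ⊤ from eq_top_iff.2 fun y _ => hMtop y, Subgroup.card_top]] at h1
    have h6 : (g : ℂ) ^ 2 = 1 :=
      (mul_right_cancel₀ Chars.card_ne_zero (h1.symm.trans (one_mul _).symm))
    rw [show ((g : ℂ)) ^ 2 = ((p ^ n : ℕ) : ℂ) by exact_mod_cast hf2] at h6
    have : p ^ n = 1 := by exact_mod_cast h6
    exact absurd this (Nat.one_lt_pow hn0.ne' hp.one_lt).ne'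
  · exact (hA'0 hHC).1 hA'bot

end Cfsg.Agent.Chars2
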