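import Cfsg.Agent.Chars2.SpanHom
import Cfsg.Agent.Chars2.InduceTower

/-!
A commuting family of operators permuted by a group in an irreducible representation gives a
system of imprimitivity.
-/

set_option autoImplicit false
set_option linter.unusedSectionVars false
set_option linter.style.haveILetI false

namespace Cfsg.Agent.Chars2

open Cfsg Cfsg.Agent Representation

variable {G : Type*} [Group G] [Fintype G] {V : Type*} [AddCommGroup V] [Module ℂ V]
  [FiniteDimensional ℂ V]

/-- A character whose inner product with an irreducible one is non-zero and whose degree is at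
most as large equals it. -/
theorem eq_of_constituent_le {χ f : G → ℂ} (hχ : IsIrrCharacter G χ) (hf : IsCharacter G f)
    (hne : classInner f χ ≠ 0) {a b : ℕ} (ha : f 1 = a) (hb : χ 1 = b) (hab : a ≤ b) : f = χ := by
  classical
  obtain ⟨c, hc⟩ := exists_multiplicities hf
  have hcf := Chars.isClassFunction_of_isCharacter hf
  choose n hn using fun ζ : IrrCharacter G => Chars.exists_irr_apply_one_eq ζ.2
  let χ' : IrrCharacter G := ⟨χ, hχ⟩
  have hc0 : c χ' ≠ 0 := fun h0 => hne (by
    have := hc χ'
    rw [h0, Nat.cast_zero] at this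
    exact this)
  have hb' : n χ' = b := by
    have h1 : (χ' : G → ℂ) 1 = (n χ' : ℕ) := (hn χ').2
    exact_mod_cast h1.symm.trans hb
  have hb0 : 0 < b := Nat.pos_of_ne_zero fun h0 => Chars.irr_apply_one_ne_zero hχ (by
    rw [hb, h0, Nat.cast_zero])
  have hpos : ∀ ζ, 0 < n ζ := fun ζ => (hn ζ).1
  have hsum : a = ∑ ζ, c ζ * n ζ := by
    have h1 := apply_eq_sum hcf 1
    rw [ha] at h1
    have h2 : (a : ℂ) = ((∑ ζ, c ζ * n ζ : ℕ) : ℂ) := by
      push_cast
      rw [h1]
      exact Finset.sum_congr rfl fun ζ _ => by rw [hc, (hn ζ).2]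
    exact_mod_cast h2
  rw [← Finset.add_sum_erase _ _ (Finset.mem_univ χ')] at hsum
  have h1 : c χ' * b ≤ b := by
    rw [← hb'] at hab ⊢
    omega
  have hc1 : c χ' = 1 := by
    have : c χ' ≤ 1 := by nlinarith
    omega
  have hrest : ∀ ζ ∈ Finset.univ.erase χ', c ζ = 0 := by
    intro ζ hζ
    rw [hc1, one_mul, hb'] at hsum
    have h0 : ∑ ζ ∈ Finset.univ.erase χ', c ζ * n ζ = 0 := by omega
    exact (Nat.mul_eq_zero.1 (Finset.sum_eq_zero_iff.1 h0 ζ hζ)).resolve_right (hpos ζ).ne'
  funext g
  rw [apply_eq_sum hcf g, Finset.sum_eq_single χ' (fun ζ _ hz => by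
    rw [hc, hrest ζ (Finset.mem_erase.2 ⟨hz, Finset.mem_univ _⟩), Nat.cast_zero, zero_mul])
    (fun h => absurd (Finset.mem_univ _) h), hc, hc1, Nat.cast_one, one_mul]

/-- A common eigenvector of a commuting family. -/
theorem exists_joint_eigenvector [Nontrivial V] (F : Set (Module.End ℂ V))
    (hF : ∀ f ∈ F, ∀ g ∈ F, Commute f g) :
    ∃ v : V, v ≠ 0 ∧ ∀ f ∈ F, ∃ c : ℂ, f v = c • v := by
  classical
  have hex : ∃ k, ∃ W : Submodule ℂ V, W ≠ ⊥ ∧ (∀ f ∈ F, ∀ v ∈ W, f v ∈ W) ∧
      Module.finrank ℂ W = k :=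
    ⟨_, ⊤, top_ne_bot, fun _ _ _ _ => Submodule.mem_top, rfl⟩
  obtain ⟨W, hW0, hWF, hWk⟩ := Nat.find_spec hex
  obtain ⟨v, hvW, hv0⟩ := Submodule.exists_mem_ne_zero_of_ne_bot hW0
  haveI : Nontrivial W := Submodule.nontrivial_iff_ne_bot.2 hW0
  refine ⟨v, hv0, fun f hf => ?_⟩
  obtain ⟨c, hc⟩ := Module.End.exists_eigenvalue (f.restrict (fun x hx => hWF f hf x hx) : Module.End ℂ W)
  refine ⟨c, ?_⟩
  obtain ⟨w, hw⟩ := hc.exists_hasEigenvector
  let W' : Submodule ℂ V := W ⊓ Module.End.eigenspace f c
  have hw' : (w : V) ∈ W' := by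
    refine ⟨w.2, Module.End.mem_eigenspace_iff.2 ?_⟩
    have := congrArg Subtype.val hw.apply_eq_smul
    exact this
  have hW'0 : W' ≠ ⊥ := fun h0 => hw.2 (Subtype.ext (by
    rw [h0, Submodule.mem_bot] at hw'; exact hw'))
  have hle : W ≤ W' := by
    have h1 := Nat.find_min' hex ⟨W', hW'0, fun g hg x hx => ⟨hWF g hg x hx.1,
      Module.End.mem_eigenspace_iff.2 (by
        rw [← Module.End.mul_apply, (hF f hf g hg).eq, Module.End.mul_apply,
          Module.End.mem_eigenspace_iff.1 hx.2, map_smul])⟩, rfl⟩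
    have h2 : W' = W := Submodule.eq_of_le_of_finrank_le inf_le_left (hWk ▸ h1)
    exact h2.ge
  exact Module.End.mem_eigenspace_iff.1 (hle hvW).2

/-- A commuting family of operators, stable under conjugation and not consisting of scalars,
shows that the character is induced from a proper subgroup containing every subgroup centralising
the family. -/
theorem exists_induced_of_family (ρ : Representation ℂ G V) [ρ.IsIrreducible]
    (F : Set (Module.End ℂ V)) (hF : ∀ f ∈ F, ∀ g ∈ F, Commute f g)
    (hst : ∀ g, ∀ f ∈ F, cj ρ g f ∈ F) (hns : ∃ f ∈ F, ∀ a : ℂ, f ≠ a • 1)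
    (M : Subgroup G) (hM : ∀ m ∈ M, ∀ f ∈ F, cj ρ m f = f) :
    ∃ S : Subgroup G, M ≤ S ∧ S ≠ ⊤ ∧ ∃ ψ : S → ℂ, IsCharacter S ψ ∧
      indFun S ψ = ρ.character := by
  classical
  haveI := nontrivial_of_irreducible ρ
  obtain ⟨v, hv0, hv⟩ := exists_joint_eigenvector F hF
  choose! μ hμ using hv
  -- the eigenvalue system moved by `g`
  let eig : G → Module.End ℂ V → ℂ := fun g f => μ (cj ρ g⁻¹ f)
  let W : G → Submodule ℂ V := fun g =>
    ⨅ f ∈ F, Module.End.eigenspace f (eig g f)
  have hmemW : ∀ g x, x ∈ W g ↔ ∀ f ∈ F, f x = eig g f • x := fun g x => by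
    simp only [W, Submodule.mem_iInf, Module.End.mem_eigenspace_iff]
  have hmove : ∀ g h x, x ∈ W h → ρ g x ∈ W (g * h) := by
    intro g h x hx
    rw [hmemW] at hx ⊢
    intro f hf
    have h1 := hx _ (hst g⁻¹ f hf)
    have h2 : f * ρ g = ρ g * cj ρ g⁻¹ f := by
      rw [cj_apply, inv_inv, ← mul_assoc, ← mul_assoc, ← map_mul, mul_inv_cancel, map_one, one_mul]
    rw [← Module.End.mul_apply, h2, Module.End.mul_apply, h1, map_smul]
    simp only [eig, cj_cj, mul_inv_rev]
  let S : Subgroup G :=
    { carrier := {g | ∀ f ∈ F, eig g f = eig 1 f}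
      one_mem' := fun f _ => rfl
      mul_mem' := fun {a b} ha hb f hf => by
        have h1 := hb _ (hst a⁻¹ f hf)
        have h2 := ha f hf
        simp only [eig, cj_cj, mul_inv_rev, inv_one, cj_one, one_mul, mul_one] at h1 h2 ⊢
        rw [h1, h2]
      inv_mem' := fun {a} ha f hf => by
        have h1 := ha _ (hst a f hf)
        simp only [eig, cj_cj, inv_one, cj_one, one_mul, mul_one, inv_mul_cancel, inv_inv] at h1 ⊢
        exact h1.symm }
  have hWS : ∀ s ∈ S, W s = W 1 := fun s hs => by
    apply le_antisymm <;> intro x hx <;> rw [hmemW] at hx ⊢ <;> intro f hf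
    · rw [hx f hf, hs f hf]
    · rw [hx f hf, hs f hf]
  have hvW : v ∈ W 1 := by
    rw [hmemW]
    intro f hf
    simp only [eig, inv_one, cj_one, one_mul, mul_one]
    exact hμ f hf
  have hMS : M ≤ S := fun m hm f hf => by
    simp only [eig, inv_one, cj_one, hM m⁻¹ (M.inv_mem hm) f hf]
  have hS : S ≠ ⊤ := by
    intro htop
    have hinv : ∀ g, ∀ x ∈ W 1, ρ g x ∈ W 1 := fun g x hx => by
      have := hmove g 1 x hx
      rwa [mul_one, hWS g (htop ▸ Subgroup.mem_top g)] at this
    rcases ((Chars.isIrreducible_iff ρ).1 inferInstance).2 (W 1) hinv with h0 | h1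
    · rw [h0, Submodule.mem_bot] at hvW
      exact hv0 hvW
    · obtain ⟨f, hf, hfs⟩ := hns
      refine hfs (eig 1 f) (LinearMap.ext fun x => ?_)
      exact (hmemW 1 x).1 (h1 ▸ Submodule.mem_top) f hf
  -- the character of the eigenspace
  let σ : Subrepresentation (ρ.comp S.subtype) :=
    ⟨W 1, fun s x hx => by
      have := hmove (s : G) 1 x hx
      rwa [mul_one, hWS s s.2] at this⟩
  let ψ := σ.toRepresentation.character
  have hψ : IsCharacter S ψ := Chars.isCharacter_of_rep _
  refine ⟨S, hMS, hS, ψ, hψ, ?_⟩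
  haveI := Fintype.ofFinite S
  refine eq_of_constituent_le (Chars.isIrrCharacter_of_rep ρ) (Chars.isCharacter_indFun S hψ) ?_
    (a := S.index * Module.finrank ℂ (W 1)) (b := Module.finrank ℂ V) ?_ (char_one ρ) ?_
  · rw [Chars.classInner_indFun S ψ (Chars.isClassFunction_of_isCharacter
      (Chars.isCharacter_of_rep ρ))]
    show classInner σ.toRepresentation.character (Representation.character (V := V) (ρ.comp S.subtype)) ≠ 0
    rw [← Chars.classInner_conj_symm, Chars.classInner_rep, ne_eq, map_natCast, Nat.cast_eq_zero]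
    intro h0
    haveI := Module.finrank_zero_iff.1 h0
    have h1 : (⟨σ.toSubmodule.subtype, fun s => rfl⟩ :
        IntertwiningMap σ.toRepresentation (ρ.comp S.subtype)) = 0 := Subsingleton.elim _ _
    exact hv0 (congrArg (fun f : IntertwiningMap σ.toRepresentation (ρ.comp S.subtype) =>
      f ⟨v, hvW⟩) h1)
  · rw [Chars.indFun_apply_one]
    show (S.index : ℂ) * σ.toRepresentation.character 1 = _
    rw [char_one]
    push_cast
    rfl
  · -- the translates are independent
    have hne : ∀ g h : G, (∀ f ∈ F, eig g f = eig h f) → g⁻¹ * h ∈ S := by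
      intro g h he f hf
      have h1 := he _ (hst g f hf)
      simp only [eig, cj_cj, inv_one, cj_one, one_mul, mul_one, inv_mul_cancel, mul_inv_rev, inv_inv] at h1 ⊢
      exact h1.symm
    have hind : ∀ s : Finset (G ⧸ S), ∀ x : G ⧸ S → V, (∀ i ∈ s, x i ∈ W i.out) →
        ∑ i ∈ s, x i = 0 → ∀ i ∈ s, x i = 0 := by
      intro s
      induction s using Finset.induction_on with
      | empty => intro x _ _ i hi; exact absurd hi (Finset.notMem_empty i)
      | insert a s ha ih =>
        intro x hx hsum i hi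
        have hs : ∀ j ∈ s, x j = 0 := by
          intro j hj
          obtain ⟨f, hf, hne'⟩ : ∃ f ∈ F, eig j.out f ≠ eig a.out f := by
            by_contra hc
            push Not at hc
            have h1 := hne _ _ hc
            rw [← QuotientGroup.eq, QuotientGroup.out_eq', QuotientGroup.out_eq'] at h1
            exact ha (h1 ▸ hj)
          have h1 := ih (fun k => (eig k.out f - eig a.out f) • x k)
            (fun k hk => Submodule.smul_mem _ _ (hx k (Finset.mem_insert_of_mem hk))) (by
              have h2 := congrArg (fun y => f y - eig a.out f • y) hsum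
              simp only [map_zero, smul_zero, sub_zero, map_sum, Finset.smul_sum,
                ← Finset.sum_sub_distrib] at h2
              rw [Finset.sum_insert ha, (hmemW _ _).1 (hx a (Finset.mem_insert_self a s)) f hf,
                sub_self, zero_add] at h2
              rw [← h2]
              exact Finset.sum_congr rfl fun k hk => by
                rw [(hmemW _ _).1 (hx k (Finset.mem_insert_of_mem hk)) f hf, sub_smul]) j hj
          exact (smul_eq_zero.1 h1).resolve_left (sub_ne_zero.2 hne')
        rcases Finset.mem_insert.1 hi with rfl | hi'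
        · rwa [Finset.sum_insert ha, Finset.sum_eq_zero hs, add_zero] at hsum
        · exact hs i hi'
    let L : (G ⧸ S → W 1) →ₗ[ℂ] V :=
      ∑ i : G ⧸ S, ((ρ i.out).comp (W 1).subtype).comp (LinearMap.proj i)
    have hL : Function.Injective L := by
      rw [← LinearMap.ker_eq_bot, LinearMap.ker_eq_bot']
      intro x hx
      funext i
      have h1 := hind Finset.univ (fun j => ρ j.out (x j : V)) (fun j _ => by
        have := hmove j.out 1 _ (x j).2
        rwa [mul_one] at this) (by simpa [L, LinearMap.sum_apply] using hx) i (Finset.mem_univ i)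
      refine Subtype.ext ?_
      have h2 := congrArg (ρ i.out⁻¹) h1
      rw [map_zero, ← Module.End.mul_apply, ← map_mul, inv_mul_cancel, map_one] at h2
      exact h2
    have := LinearMap.finrank_le_finrank_of_injective hL
    rwa [Module.finrank_pi_fintype, Finset.sum_const, Finset.card_univ, smul_eq_mul,
      ← Nat.card_eq_fintype_card, ← Subgroup.index_eq_card] at this

end Cfsg.Agent.Chars2
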