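import Cfsg.Agent.Chars2.SpanHom
import Cfsg.Agent.Chars2.ImprimitiveFamily
import Cfsg.Agent.Chars2.BergerLemma
import Mathlib.RingTheory.Norm.Basic

/-!
Berger's theorem: a quasi-primitive character of a solvable group is primitive.
-/

set_option autoImplicit false
set_option linter.unusedSectionVars false
set_option linter.style.haveILetI false

namespace Cfsg.Agent.Chars2

open Cfsg Cfsg.Agent Representation

variable {G : Type*} [Group G] [Fintype G] {V : Type*} [AddCommGroup V] [Module ℂ V]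
  [FiniteDimensional ℂ V] (ρ : Representation ℂ G V)

/-- The projection onto the component of an inducing character. -/
theorem exists_inducing_projection [ρ.IsIrreducible] (H : Subgroup G) {ϑ : H → ℂ}
    (hϑ : IsCharacter H ϑ) (hind : indFun H ϑ = ρ.character) :
    ∃ (P : Module.End ℂ V) (d : ℕ), 0 < d ∧ P * P = P ∧ (∀ h ∈ H, Commute P (ρ h)) ∧
      LinearMap.trace ℂ V P = d ∧ Module.finrank ℂ V = H.index * d := by
  haveI := Fintype.ofFinite H
  have hχ := Chars.isIrrCharacter_of_rep ρ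
  obtain ⟨d, σ, hσ, rfl⟩ := irr_of_indFun_irr H hϑ (hind ▸ hχ)
  haveI := hσ
  haveI := nontrivial_of_irreducible σ
  have hd : 0 < Module.finrank ℂ (Fin d → ℂ) := Module.finrank_pos
  rw [Module.finrank_fin_fun] at hd
  set k := (d : ℂ) * (Nat.card H : ℂ)⁻¹ with hk
  refine ⟨k • ∑ h : H, σ.character h⁻¹ • ρ (h : G), d, hd, ?_, ?_, ?_, ?_⟩
  · have hconv : ∀ a : H, k * ∑ b : H, σ.character b⁻¹ * σ.character (b * a⁻¹) =
        σ.character a⁻¹ := fun a => by
      have := sum_char_mul_translate σ a⁻¹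
      rwa [Module.finrank_fin_fun] at this
    rw [smul_mul_smul_comm, Finset.sum_mul_sum]
    calc (k * k) • ∑ a : H, ∑ b : H, (σ.character a⁻¹ • ρ (a : G)) * (σ.character b⁻¹ • ρ (b : G))
        = (k * k) • ∑ a : H, ∑ c : H,
            (σ.character a⁻¹ * σ.character (a * c⁻¹)) • ρ (c : G) := by
          congr 1
          refine Finset.sum_congr rfl fun a _ => Fintype.sum_equiv (Equiv.mulLeft a) _ _ fun b => ?_
          rw [Equiv.coe_mulLeft, smul_mul_smul_comm, ← map_mul, Subgroup.coe_mul]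
          congr 2
          rw [show a * (a * b)⁻¹ = a * b⁻¹ * a⁻¹ by group, char_conj]
      _ = k • ∑ c : H, (k * ∑ a : H, σ.character a⁻¹ * σ.character (a * c⁻¹)) • ρ (c : G) := by
          rw [Finset.sum_comm, mul_smul]
          congr 1
          rw [Finset.smul_sum]
          exact Finset.sum_congr rfl fun c _ => by rw [← Finset.sum_smul, smul_smul]
      _ = _ := by simp only [hconv]
  · intro g hg
    show _ * _ = _ * _
    rw [smul_mul_assoc, mul_smul_comm, Finset.sum_mul, Finset.mul_sum]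
    congr 1
    refine Fintype.sum_equiv (MulAut.conj (⟨g, hg⟩ : H)⁻¹).toEquiv _ _ fun n => ?_
    simp only [MulEquiv.toEquiv_eq_coe, EquivLike.coe_coe, MulAut.conj_apply, inv_inv,
      smul_mul_assoc, mul_smul_comm, ← map_mul, Subgroup.coe_mul, InvMemClass.coe_inv]
    congr 1
    · rw [show ((⟨g, hg⟩ : H)⁻¹ * n * ⟨g, hg⟩)⁻¹ =
        (⟨g, hg⟩ : H)⁻¹ * n⁻¹ * ((⟨g, hg⟩ : H)⁻¹)⁻¹ by group, char_conj]
    · congr 1
      group
  · have h1 : classInner σ.character (fun h : H => ρ.character h) = 1 := by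
      rw [← Chars.classInner_indFun H _ (Chars.isClassFunction_of_isCharacter
        (Chars.isCharacter_of_rep ρ)), hind]
      exact Chars.classInner_self_irr hχ
    have h2 : classInner (fun h : H => ρ.character h) σ.character = 1 := by
      rw [← Chars.classInner_conj_symm, h1, map_one]
    rw [map_smul, map_sum, smul_eq_mul]
    rw [Chars.classInner_def] at h2
    rw [← mul_one (d : ℂ)]
    rw [← h2, hk, mul_assoc]
    congr 2
    refine Finset.sum_congr rfl fun h _ => ?_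
    rw [map_smul, smul_eq_mul, Chars.char_inv_eq_conj (Chars.isCharacter_of_rep σ), mul_comm]
    rfl
  · have := congrFun hind 1
    rw [Chars.indFun_apply_one, char_one, char_one, Module.finrank_fin_fun] at this
    exact_mod_cast this.symm

/-- A conjugation sum absorbs a translation. -/
theorem cj_sum_self (M : Subgroup G) [Fintype M] (y : Module.End ℂ V) {m : G} (hm : m ∈ M) :
    cj ρ m (∑ i : M, cj ρ (i : G) y) = ∑ i : M, cj ρ (i : G) y := by
  rw [map_sum]
  refine Fintype.sum_equiv (Equiv.mulLeft ⟨m, hm⟩) _ _ fun i => ?_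
  rw [cj_cj]
  rfl

/-- A conjugation sum is equivariant. -/
theorem cj_sum_conj (M : Subgroup G) [M.Normal] [Fintype M] (y : Module.End ℂ V) (g : G) :
    cj ρ g (∑ i : M, cj ρ (i : G) y) = ∑ i : M, cj ρ (i : G) (cj ρ g y) := by
  rw [map_sum]
  refine Fintype.sum_equiv (MulAut.conjNormal g).toEquiv _ _ fun i => ?_
  simp only [MulEquiv.toEquiv_eq_coe, EquivLike.coe_coe, MulAut.conjNormal_apply, cj_cj,
    inv_mul_cancel_right]

/-- The conjugates of the projection form orthogonal blocks. -/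
theorem exists_blocks [ρ.IsIrreducible] (H C M : Subgroup G) [C.Normal] [M.Normal] [Fintype M]
    (hCH : C ≤ H) (hMH : ∀ m ∈ M, m ∈ H → m ∈ C) (hsup : H ⊔ M = ⊤) (hCM : C ≤ M)
    (P : Module.End ℂ V) (d : ℕ) (hd : 0 < d) (hP : P * P = P)
    (hPH : ∀ h ∈ H, Commute P (ρ h)) (htr : LinearMap.trace ℂ V P = d)
    (hdim : Module.finrank ℂ V = H.index * d) :
    (∀ m ∈ M, m ∉ C → P * ρ m * P = 0) ∧
      ∑ i : M, cj ρ (i : G) P = (Nat.card C : ℂ) • 1 := by
  classical
  haveI := nontrivial_of_irreducible ρ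
  set C' := C.subgroupOf M with hC'
  have hidx : C'.index = H.index := by
    rw [Subgroup.index_eq_card, Subgroup.index_eq_card]
    refine Nat.card_eq_of_bijective (fun t : M ⧸ C' => (QuotientGroup.mk ((t.out : M) : G) : G ⧸ H))
      ⟨fun s t hst => ?_, fun y => ?_⟩
    · rw [QuotientGroup.eq] at hst
      rw [← QuotientGroup.out_eq' s, ← QuotientGroup.out_eq' t, QuotientGroup.eq]
      exact Subgroup.mem_subgroupOf.2 (hMH _ (s.out⁻¹ * t.out).2 hst)
    · obtain ⟨g, rfl⟩ := QuotientGroup.mk_surjective y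
      obtain ⟨m, hm, h, hh, rfl⟩ := Subgroup.mem_sup_of_normal_left.1
        (by rw [sup_comm, hsup]; exact Subgroup.mem_top g : g ∈ M ⊔ H)
      refine ⟨QuotientGroup.mk ⟨m, hm⟩, ?_⟩
      rw [QuotientGroup.eq]
      have hc : (QuotientGroup.mk (⟨m, hm⟩ : M) : M ⧸ C').out⁻¹ * ⟨m, hm⟩ ∈ C' := by
        rw [← QuotientGroup.eq, QuotientGroup.out_eq']
      rw [← mul_assoc]
      exact H.mul_mem (hCH (Subgroup.mem_subgroupOf.1 hc)) hh
  let Q : M ⧸ C' → Module.End ℂ V := fun t => cj ρ ((t.out : M) : G) P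
  have hQ : ∀ i : M, cj ρ (i : G) P = Q (QuotientGroup.mk i) := by
    intro i
    have hc : (QuotientGroup.mk i : M ⧸ C').out⁻¹ * i ∈ C' := by
      rw [← QuotientGroup.eq, QuotientGroup.out_eq']
    conv_lhs => rw [show (i : G) = ((QuotientGroup.mk i : M ⧸ C').out : G) *
      (((QuotientGroup.mk i : M ⧸ C').out⁻¹ * i : M) : G) by simp]
    rw [← cj_cj, cj_eq_self (hPH _ (hCH (Subgroup.mem_subgroupOf.1 hc)))]
  have hfix : ∀ g, cj ρ g (∑ i : M, cj ρ (i : G) P) = ∑ i : M, cj ρ (i : G) P := by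
    let K : Subgroup G :=
      { carrier := {g | cj ρ g (∑ i : M, cj ρ (i : G) P) = ∑ i : M, cj ρ (i : G) P}
        one_mem' := cj_one _
        mul_mem' := fun {a b} ha hb => by
          show cj ρ (a * b) _ = _
          rw [← cj_cj, hb, ha]
        inv_mem' := fun {a} ha => by
          show cj ρ a⁻¹ _ = _
          conv_lhs => rw [← ha]
          rw [cj_cj, inv_mul_cancel, cj_one] }
    have hK : H ⊔ M ≤ K := sup_le (fun h hh => by
        show cj ρ h _ = _
        rw [cj_sum_conj, cj_eq_self (hPH h hh)])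
      (fun m hm => cj_sum_self ρ M P hm)
    exact fun g => hK (hsup ▸ Subgroup.mem_top g)
  obtain ⟨a, ha⟩ := Chars.scalar_of_commute ρ _ fun g => (commute_of_cj_eq (hfix g)).eq
  have htrQ : ∀ t, LinearMap.trace ℂ V (Q t) = d := fun t => by
    simp only [Q, cj_apply]
    rw [LinearMap.trace_mul_cycle, ← map_mul, inv_mul_cancel, map_one, one_mul, htr]
  have hcard : Nat.card C' = Nat.card C :=
    Nat.card_congr (Subgroup.subgroupOfEquivOfLe hCM).toEquiv
  have hsum : ∑ i : M, cj ρ (i : G) P = (Nat.card C : ℂ) • ∑ t, Q t := by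
    rw [Fintype.sum_equiv (Subgroup.groupEquivQuotientProdSubgroup (s := C'))
      (fun i => cj ρ (i : G) P) (fun p => Q p.1) fun i => hQ i, Fintype.sum_prod_type,
      Finset.smul_sum]
    refine Finset.sum_congr rfl fun t _ => ?_
    show ∑ _y : C', Q t = _
    rw [Finset.sum_const, Finset.card_univ, ← Nat.card_eq_fintype_card, hcard, Nat.cast_smul_eq_nsmul]
  have hC0 : (Nat.card C : ℂ) ≠ 0 := Nat.cast_ne_zero.2 Nat.card_pos.ne'
  have hV : (Module.finrank ℂ V : ℂ) ≠ 0 := by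
    exact_mod_cast (Module.finrank_pos (R := ℂ) (M := V)).ne'
  have hQsum : ∑ t, Q t = 1 := by
    have hb : ∑ t, Q t = ((Nat.card C : ℂ)⁻¹ * a) • 1 := by
      rw [mul_smul, ← ha, hsum, smul_smul, inv_mul_cancel₀ hC0, one_smul]
    have h1 := congrArg (LinearMap.trace ℂ V) hb
    rw [map_sum, Finset.sum_congr rfl fun t _ => htrQ t, Finset.sum_const, Finset.card_univ,
      nsmul_eq_mul, ← Nat.card_eq_fintype_card, ← Subgroup.index_eq_card, hidx, map_smul,
      LinearMap.trace_one, smul_eq_mul, hdim, Nat.cast_mul] at h1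
    rw [hb, mul_right_cancel₀ (by rw [← Nat.cast_mul, ← hdim]; exact hV)
      ((h1.symm).trans (one_mul _).symm), one_smul]
  refine ⟨fun m hm hmC => ?_, by rw [hsum, hQsum]⟩
  -- the images are independent
  have hidem : ∀ t, Q t * Q t = Q t := fun t => by rw [← map_mul, hP]
  have hrank : ∀ t, Module.finrank ℂ (LinearMap.range (Q t)) = d := fun t => by
    have hproj : LinearMap.IsProj (LinearMap.range (Q t)) (Q t) := ⟨fun x => ⟨x, rfl⟩, fun x hx => by
      obtain ⟨y, rfl⟩ := hx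
      rw [← Module.End.mul_apply, hidem]⟩
    have h1 := hproj.trace
    rw [htrQ] at h1
    exact_mod_cast h1.symm
  let L : (∀ t : M ⧸ C', LinearMap.range (Q t)) →ₗ[ℂ] V :=
    ∑ t : M ⧸ C', (LinearMap.range (Q t)).subtype.comp (LinearMap.proj t)
  have hL : ∀ x, L x = ∑ t, (x t : V) := fun x => by simp [L, LinearMap.sum_apply]
  have hsurj : Function.Surjective L := fun v => ⟨fun t => ⟨Q t v, v, rfl⟩, by
    rw [hL]
    conv_rhs => rw [← Module.End.one_apply (R := ℂ) v, ← hQsum, LinearMap.sum_apply]⟩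
  have hinj : Function.Injective L := by
    refine (LinearMap.injective_iff_surjective_of_finrank_eq_finrank ?_).2 hsurj
    rw [Module.finrank_pi_fintype, Finset.sum_congr rfl fun t _ => hrank t, Finset.sum_const,
      Finset.card_univ, smul_eq_mul, ← Nat.card_eq_fintype_card, ← Subgroup.index_eq_card, hidx,
      hdim]
  have horth : ∀ s t, s ≠ t → Q s * Q t = 0 := fun s t hst => LinearMap.ext fun v => by
    have h1 : L (fun i => ⟨Q i (Q t v), _, rfl⟩) = L (Pi.single t ⟨Q t v, v, rfl⟩) := by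
      rw [hL, hL, Finset.sum_eq_single t (fun i _ hi => by simp [hi])
        (fun h => absurd (Finset.mem_univ t) h) (f := fun i => ((Pi.single t
          (⟨Q t v, v, rfl⟩ : LinearMap.range (Q t)) : ∀ i, LinearMap.range (Q i)) i : V)),
        Pi.single_eq_same]
      show ∑ i, Q i (Q t v) = Q t v
      conv_rhs => rw [← Module.End.one_apply (R := ℂ) (Q t v), ← hQsum, LinearMap.sum_apply]
    have h2 := congrArg (fun x : ∀ i, LinearMap.range (Q i) => (x s : V)) (hinj h1)
    simpa [hst] using h2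
  have h1 : P * cj ρ m P = 0 := by
    have e0 : P = Q (QuotientGroup.mk (1 : M)) := by rw [← hQ, OneMemClass.coe_one, cj_one]
    rw [show cj ρ m P = Q (QuotientGroup.mk (⟨m, hm⟩ : M)) from hQ ⟨m, hm⟩]
    nth_rewrite 1 [e0]
    refine horth _ _ fun he => hmC ?_
    rw [QuotientGroup.eq, inv_one, one_mul] at he
    exact Subgroup.mem_subgroupOf.1 he
  calc P * ρ m * P = P * cj ρ m P * ρ m := by
        simp only [cj_apply, mul_assoc, ← map_mul, inv_mul_cancel, map_one, mul_one]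
    _ = 0 := by rw [h1, zero_mul]

/-- The centraliser of a normal subgroup inside the span of a bigger one. -/
noncomputable def cenAlg (M C : Subgroup G) : Subalgebra ℂ (Module.End ℂ V) :=
  spanAlg ρ M ⊓ Subalgebra.centralizer ℂ (ρ '' (C : Set G))

theorem mem_cenAlg {M C : Subgroup G} {y : Module.End ℂ V} :
    y ∈ cenAlg ρ M C ↔ y ∈ spanAlg ρ M ∧ ∀ c ∈ C, Commute y (ρ c) := by
  rw [cenAlg, Algebra.mem_inf, Subalgebra.mem_centralizer_iff]
  simp only [Set.forall_mem_image, SetLike.mem_coe]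
  exact and_congr_right fun _ => forall₂_congr fun c _ => eq_comm

theorem cj_mem_cenAlg {M C : Subgroup G} [M.Normal] [hC : C.Normal] (g : G) {y : Module.End ℂ V}
    (hy : y ∈ cenAlg ρ M C) : cj ρ g y ∈ cenAlg ρ M C := by
  rw [mem_cenAlg] at hy ⊢
  refine ⟨cj_mem_spanAlg g hy.1, fun c hc => ?_⟩
  have h1 := (hy.2 (g⁻¹ * c * g) (by simpa using hC.conj_mem c hc g⁻¹)).map (cj ρ g)
  rwa [cj_rho, show g * (g⁻¹ * c * g) * g⁻¹ = c by group] at h1

/-- The centraliser has dimension the index, and acts faithfully on the block. -/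
theorem cenAlg_dim [ρ.IsIrreducible] (C M : Subgroup G) [C.Normal] [M.Normal] (hCM : C ≤ M)
    (hC : ∃ (θ : C → ℂ) (c : ℕ), IsIrrCharacter C θ ∧
      (fun x : C => ρ.character x) = (c : ℂ) • θ)
    (P : Module.End ℂ V) (hP0 : P ≠ 0) (hP : P * P = P) (hPC : ∀ c ∈ C, Commute P (ρ c))
    (horth : ∀ m ∈ M, m ∉ C → P * ρ m * P = 0) :
    Module.finrank ℂ (cenAlg ρ M C) = (C.subgroupOf M).index ∧
      ∀ y ∈ cenAlg ρ M C, y * P = 0 → y = 0 := by
  classical
  haveI := nontrivial_of_irreducible ρ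
  set C' := C.subgroupOf M with hC'
  choose X hX Y hY hXY hYX hXc using fun g => exists_inner ρ C hC g
  let r : M ⧸ C' → G := fun t => ((t.out : M) : G)
  let u : M ⧸ C' → Module.End ℂ V := fun t => Y (r t) * ρ (r t)
  have hu : ∀ t, u t ∈ cenAlg ρ M C := fun t => by
    refine (mem_cenAlg ρ).2 ⟨mul_mem (spanAlg_mono hCM (hY _)) (rho_mem_spanAlg t.out.2),
      fun c hc => ?_⟩
    show Y (r t) * ρ (r t) * ρ c = ρ c * (Y (r t) * ρ (r t))
    have h1 : ρ (r t) * ρ c = cj ρ (r t) (ρ c) * ρ (r t) := by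
      rw [cj_rho, ← map_mul, ← map_mul, inv_mul_cancel_right]
    have h2 : Y (r t) * cj ρ (r t) (ρ c) = ρ c * Y (r t) := by
      calc Y (r t) * cj ρ (r t) (ρ c)
          = Y (r t) * (cj ρ (r t) (ρ c) * X (r t)) * Y (r t) := by
            rw [mul_assoc, mul_assoc, hXY, mul_one]
        _ = ρ c * Y (r t) := by
            rw [← hXc _ _ (rho_mem_spanAlg hc), ← mul_assoc, hYX, one_mul]
    rw [mul_assoc, h1, ← mul_assoc, h2, mul_assoc]
  have hPQ : ∀ g, ∀ c ∈ C, Commute (cj ρ g P) (ρ c) := fun g c hc => by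
    have h1 := (hPC (g⁻¹ * c * g) (by simpa using ‹C.Normal›.conj_mem c hc g⁻¹)).map (cj ρ g)
    rwa [cj_rho, show g * (g⁻¹ * c * g) * g⁻¹ = c by group] at h1
  have hcoef : ∀ s : M ⧸ C' → Module.End ℂ V, (∀ t, s t ∈ spanAlg ρ C) →
      (∑ t, s t * u t) * P = 0 → ∀ t, s t = 0 := by
    intro s hs h0 t₀
    have h1 : ∑ t, s t * Y (r t) * (cj ρ (r t₀) P * ρ (r t) * P) = 0 := by
      have h2 := congrArg (cj ρ (r t₀) P * ·) h0
      rw [mul_zero] at h2
      rw [← h2]
      simp only [Finset.sum_mul, Finset.mul_sum]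
      refine Finset.sum_congr rfl fun t _ => ?_
      have hc := (commute_spanAlg (hPQ (r t₀)) (mul_mem (hs t) (hY (r t)))).eq
      simp only [u, ← mul_assoc] at hc ⊢
      rw [hc]
    rw [Finset.sum_eq_single t₀ (fun t _ ht => ?_) (fun h => absurd (Finset.mem_univ _) h)] at h1
    · have h2 : s t₀ * Y (r t₀) * cj ρ (r t₀) P = 0 := by
        have h3 := congrArg (· * ρ (r t₀)⁻¹) h1
        rw [zero_mul] at h3
        rw [← h3]
        conv_lhs => rw [← hP, map_mul]
        simp only [cj_apply, mul_assoc]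
      have hne : cj ρ (r t₀) P ≠ 0 := fun h => hP0 (by
        have := congrArg (cj ρ (r t₀)⁻¹) h
        rwa [map_zero, cj_cj, inv_mul_cancel, cj_one] at this)
      have h4 := eq_zero_of_mul_eq_zero ρ C hC (mul_mem (hs t₀) (hY _)) (hPQ _) hne h2
      calc s t₀ = s t₀ * (Y (r t₀) * X (r t₀)) := by rw [hYX, mul_one]
        _ = 0 := by rw [← mul_assoc, h4, zero_mul]
    · have hmem : (r t₀)⁻¹ * r t ∈ M := M.mul_mem (M.inv_mem t₀.out.2) t.out.2
      have hnot : (r t₀)⁻¹ * r t ∉ C := fun hc => ht (by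
        rw [← QuotientGroup.out_eq' t, ← QuotientGroup.out_eq' t₀, eq_comm, QuotientGroup.eq]
        exact Subgroup.mem_subgroupOf.2 hc)
      rw [cj_apply, show ρ (r t₀) * P * ρ (r t₀)⁻¹ * ρ (r t) * P =
          ρ (r t₀) * (P * ρ ((r t₀)⁻¹ * r t) * P) by rw [map_mul]; simp only [mul_assoc],
        horth _ hmem hnot, mul_zero, mul_zero]
  have hspan : ∀ y ∈ spanAlg ρ M, ∃ s : M ⧸ C' → Module.End ℂ V,
      (∀ t, s t ∈ spanAlg ρ C) ∧ y = ∑ t, s t * u t := by
    intro y hy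
    rw [← Subalgebra.mem_toSubmodule, spanAlg_toSubmodule] at hy
    induction hy using Submodule.span_induction with
    | mem x hx =>
      obtain ⟨m, hm, rfl⟩ := hx
      set t : M ⧸ C' := QuotientGroup.mk ⟨m, hm⟩
      have hc : t.out⁻¹ * ⟨m, hm⟩ ∈ C' := by rw [← QuotientGroup.eq, QuotientGroup.out_eq']
      have hc' : m * (r t)⁻¹ ∈ C := by
        have h1 := ‹C.Normal›.conj_mem _ (Subgroup.mem_subgroupOf.1 hc) (r t)
        simpa [r, mul_assoc] using h1
      refine ⟨Pi.single t (ρ (m * (r t)⁻¹) * X (r t)), fun i => ?_, ?_⟩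
      · rcases eq_or_ne i t with rfl | hi
        · rw [Pi.single_eq_same]; exact mul_mem (rho_mem_spanAlg hc') (hX _)
        · rw [Pi.single_eq_of_ne hi]; exact zero_mem _
      · rw [Finset.sum_eq_single t (fun i _ hi => by rw [Pi.single_eq_of_ne hi, zero_mul])
          (fun h => absurd (Finset.mem_univ _) h), Pi.single_eq_same, mul_assoc,
          ← mul_assoc (X (r t)), hXY, one_mul, ← map_mul, inv_mul_cancel_right]
    | zero => exact ⟨0, fun t => zero_mem _, by simp⟩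
    | add x z _ _ hx hz =>
      obtain ⟨a, ha, rfl⟩ := hx
      obtain ⟨b, hb, rfl⟩ := hz
      exact ⟨a + b, fun t => add_mem (ha t) (hb t),
        by simp [add_mul, Finset.sum_add_distrib]⟩
    | smul k x _ hx =>
      obtain ⟨a, ha, rfl⟩ := hx
      exact ⟨k • a, fun t => Subalgebra.smul_mem _ (ha t) _, by
        simp [Finset.smul_sum, smul_mul_assoc]⟩
  have hrep : ∀ y ∈ cenAlg ρ M C, ∃ a : M ⧸ C' → ℂ, y = ∑ t, a t • u t := by
    intro y hy
    rw [mem_cenAlg] at hy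
    obtain ⟨s, hs, rfl⟩ := hspan y hy.1
    have hsc : ∀ t, ∃ a : ℂ, s t = a • 1 := fun t => by
      refine eq_smul_one_of_central ρ C hC (hs t) fun c hc => ?_
      refine sub_eq_zero.1 (hcoef (fun i => s i * ρ c - ρ c * s i)
        (fun i => sub_mem (mul_mem (hs i) (rho_mem_spanAlg hc)) (mul_mem (rho_mem_spanAlg hc) (hs i)))
        ?_ t)
      have h1 := (hy.2 c hc).eq
      rw [Finset.sum_mul, Finset.mul_sum] at h1
      simp only [sub_mul, Finset.sum_sub_distrib, mul_assoc] at h1 ⊢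
      rw [← h1]
      exact sub_eq_zero.2 (congrArg (· * P) (Finset.sum_congr rfl fun i _ => by
        rw [(((mem_cenAlg ρ).1 (hu i)).2 c hc).eq]))
    choose a ha using hsc
    exact ⟨a, Finset.sum_congr rfl fun t _ => by rw [ha t, smul_mul_assoc, one_mul]⟩
  have hzero : ∀ a : M ⧸ C' → ℂ, (∑ t, a t • u t) * P = 0 → a = 0 := by
    intro a ha
    funext t
    have h1 := hcoef (fun i => a i • 1) (fun i => Subalgebra.smul_mem _ (one_mem _) _)
      (by simpa only [smul_mul_assoc, one_mul] using ha) t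
    exact (smul_eq_zero.1 h1).resolve_right one_ne_zero
  refine ⟨?_, fun y hy h0 => ?_⟩
  · let u' : M ⧸ C' → cenAlg ρ M C := fun t => ⟨u t, hu t⟩
    let L := Fintype.linearCombination ℂ u'
    have hL : ∀ a, ((L a : cenAlg ρ M C) : Module.End ℂ V) = ∑ t, a t • u t := fun a => by
      simp [L, u', Fintype.linearCombination_apply]
    have hbij : Function.Bijective L := by
      refine ⟨?_, fun y => ?_⟩
      · rw [← LinearMap.ker_eq_bot, LinearMap.ker_eq_bot']
        intro a ha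
        refine hzero a ?_
        rw [← hL, ha]
        simp
      · obtain ⟨a, ha⟩ := hrep y y.2
        exact ⟨a, Subtype.ext ((hL a).trans ha.symm)⟩
    rw [← (LinearEquiv.ofBijective L hbij).finrank_eq, Module.finrank_fintype_fun_eq_card,
      Subgroup.index_eq_card, Nat.card_eq_fintype_card]
  · obtain ⟨a, rfl⟩ := hrep y hy
    rw [hzero a h0]
    simp

/-- `x` is invertible in the centraliser and realises conjugation by `a` on it. -/
def Realises (M C : Subgroup G) (a : G) (x : Module.End ℂ V) : Prop :=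
  x ∈ cenAlg ρ M C ∧ (∃ x' ∈ cenAlg ρ M C, x * x' = 1 ∧ x' * x = 1) ∧
    ∀ z ∈ cenAlg ρ M C, x * z = cj ρ a z * x

theorem Realises.mul {M C : Subgroup G} [M.Normal] [C.Normal] {a b : G} {x y : Module.End ℂ V}
    (hx : Realises ρ M C a x) (hy : Realises ρ M C b y) :
    Realises ρ M C (a * b) (x * y) := by
  obtain ⟨hx1, ⟨x', hx', hxx', hx'x⟩, hx2⟩ := hx
  obtain ⟨hy1, ⟨y', hy', hyy', hy'y⟩, hy2⟩ := hy
  refine ⟨mul_mem hx1 hy1, ⟨y' * x', mul_mem hy' hx', ?_, ?_⟩, fun z hz => ?_⟩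
  · rw [show x * y * (y' * x') = x * (y * y') * x' by simp only [mul_assoc], hyy', mul_one, hxx']
  · rw [show y' * x' * (x * y) = y' * (x' * x) * y by simp only [mul_assoc], hx'x, mul_one, hy'y]
  · rw [mul_assoc, hy2 z hz, ← mul_assoc, hx2 _ (cj_mem_cenAlg ρ b hz), cj_cj, mul_assoc]

theorem Realises.pow {M C : Subgroup G} [M.Normal] [C.Normal] {a : G} {x : Module.End ℂ V}
    (hx : Realises ρ M C a x) : ∀ k : ℕ, Realises ρ M C (a ^ k) (x ^ k)
  | 0 => by
    rw [pow_zero, pow_zero]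
    exact ⟨one_mem _, ⟨1, one_mem _, mul_one 1, one_mul 1⟩, fun z _ => by
      rw [cj_one, one_mul, mul_one]⟩
  | k + 1 => by
    rw [pow_succ, pow_succ]
    exact (Realises.pow hx k).mul ρ hx

theorem Realises.conj {M C : Subgroup G} [M.Normal] [C.Normal] {a : G} {x : Module.End ℂ V}
    (hx : Realises ρ M C a x) (g : G) : Realises ρ M C (g * a * g⁻¹) (cj ρ g x) := by
  obtain ⟨hx1, ⟨x', hx', hxx', hx'x⟩, hx2⟩ := hx
  refine ⟨cj_mem_cenAlg ρ g hx1, ⟨cj ρ g x', cj_mem_cenAlg ρ g hx', by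
    rw [← map_mul, hxx', map_one], by rw [← map_mul, hx'x, map_one]⟩, fun z hz => ?_⟩
  have h1 := congrArg (cj ρ g) (hx2 _ (cj_mem_cenAlg ρ g⁻¹ hz))
  rw [map_mul, map_mul, cj_cj, cj_cj, cj_cj, mul_inv_cancel, cj_one] at h1
  exact h1

/-- Two realisations of the same action differ by a scalar. -/
theorem Realises.unique [ρ.IsIrreducible] {M C : Subgroup G} [M.Normal] [C.Normal] (hCM : C ≤ M)
    (hC : ∃ (θ : C → ℂ) (c : ℕ), IsIrrCharacter C θ ∧
      (fun n : C => ρ.character n) = (c : ℂ) • θ)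
    (hM : ∃ (θ : M → ℂ) (c : ℕ), IsIrrCharacter M θ ∧
      (fun n : M => ρ.character n) = (c : ℂ) • θ) {a b : G}
    (hab : ∀ z ∈ cenAlg ρ M C, cj ρ a z = cj ρ b z) {x y : Module.End ℂ V}
    (hx : Realises ρ M C a x) (hy : Realises ρ M C b y) : ∃ k : ℂ, x = k • y := by
  obtain ⟨hy1, ⟨y', hy', hyy', hy'y⟩, hy2⟩ := hy
  have hw : ∀ z ∈ cenAlg ρ M C, Commute (y' * x) z := fun z hz => by
    show y' * x * z = z * (y' * x)
    rw [mul_assoc, hx.2.2 z hz, hab z hz]
    calc y' * (cj ρ b z * x) = y' * (cj ρ b z * (y * y')) * x := by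
          rw [hyy', mul_one, mul_assoc]
      _ = y' * (cj ρ b z * y) * (y' * x) := by simp only [mul_assoc]
      _ = z * (y' * x) := by rw [← hy2 z hz, ← mul_assoc y', hy'y, one_mul]
  have hwS := ((mem_cenAlg ρ).1 (mul_mem hy' hx.1))
  obtain ⟨k, hk⟩ := eq_smul_one_of_central ρ M hM hwS.1 fun m hm => by
    obtain ⟨X, hX, Y, hY, hXY, hYX, hXc⟩ := exists_inner ρ C hC m
    have hu : Y * ρ m ∈ cenAlg ρ M C := by
      refine (mem_cenAlg ρ).2 ⟨mul_mem (spanAlg_mono hCM hY) (rho_mem_spanAlg hm), fun c hc => ?_⟩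
      show Y * ρ m * ρ c = ρ c * (Y * ρ m)
      have h1 := hXc _ (rho_mem_spanAlg hc)
      rw [cj_rho] at h1
      calc Y * ρ m * ρ c = Y * ρ (m * c * m⁻¹) * (X * Y) * ρ m := by
            rw [hXY, mul_one, mul_assoc, mul_assoc Y, ← map_mul, ← map_mul, inv_mul_cancel_right]
        _ = Y * (ρ (m * c * m⁻¹) * X) * Y * ρ m := by simp only [mul_assoc]
        _ = ρ c * (Y * ρ m) := by
            rw [← h1, ← mul_assoc, hYX, one_mul, mul_assoc]
    have h2 : ρ m = X * (Y * ρ m) := by rw [← mul_assoc, hXY, one_mul]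
    rw [h2]
    exact (commute_spanAlg hwS.2 hX).mul_right (hw _ hu)
  exact ⟨k, by rw [← one_mul x, ← hyy', mul_assoc, hk, mul_smul_comm, mul_one]⟩

/-- Conjugation by any group element is realised in the centraliser. -/
theorem exists_realises [ρ.IsIrreducible] {M C : Subgroup G} [M.Normal] [C.Normal] (hCM : C ≤ M)
    (hC : ∃ (θ : C → ℂ) (c : ℕ), IsIrrCharacter C θ ∧
      (fun n : C => ρ.character n) = (c : ℂ) • θ)
    (hM : ∃ (θ : M → ℂ) (c : ℕ), IsIrrCharacter M θ ∧
      (fun n : M => ρ.character n) = (c : ℂ) • θ) (a : G) :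
    ∃ x, Realises ρ M C a x := by
  obtain ⟨X, hX, X', hX', hXX', hX'X, hXc⟩ := exists_inner ρ M hM a
  obtain ⟨W, hW, W', hW', hWW', hW'W, hWc⟩ := exists_inner ρ C hC a
  have hxc : ∀ c ∈ C, Commute (W' * X) (ρ c) := fun c hc => by
    show W' * X * ρ c = ρ c * (W' * X)
    rw [mul_assoc, hXc _ (rho_mem_spanAlg (hCM hc))]
    calc W' * (cj ρ a (ρ c) * X) = W' * (cj ρ a (ρ c) * (W * W')) * X := by
          rw [hWW', mul_one, mul_assoc]
      _ = W' * (cj ρ a (ρ c) * W) * (W' * X) := by simp only [mul_assoc]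
      _ = ρ c * (W' * X) := by rw [← hWc _ (rho_mem_spanAlg hc), ← mul_assoc W', hW'W, one_mul]
  have h1 : W' * X * (X' * W) = 1 := by
    rw [show W' * X * (X' * W) = W' * (X * X') * W by simp only [mul_assoc], hXX', mul_one, hW'W]
  have h2 : X' * W * (W' * X) = 1 := by
    rw [show X' * W * (W' * X) = X' * (W * W') * X by simp only [mul_assoc], hWW', mul_one, hX'X]
  refine ⟨W' * X, (mem_cenAlg ρ).2 ⟨mul_mem (spanAlg_mono hCM hW') hX, hxc⟩,
    ⟨X' * W, (mem_cenAlg ρ).2 ⟨mul_mem hX' (spanAlg_mono hCM hW), fun c hc => ?_⟩, h1, h2⟩,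
    fun z hz => ?_⟩
  · show X' * W * ρ c = ρ c * (X' * W)
    calc X' * W * ρ c = X' * W * (ρ c * (W' * X * (X' * W))) := by rw [h1, mul_one]
      _ = X' * W * (ρ c * (W' * X)) * (X' * W) := by simp only [mul_assoc]
      _ = X' * W * (W' * X * ρ c) * (X' * W) := by rw [(hxc c hc).eq]
      _ = ρ c * (X' * W) := by rw [← mul_assoc (X' * W), h2, one_mul]
  · have hz' := (mem_cenAlg ρ).1 hz
    have hcz := ((mem_cenAlg ρ).1 (cj_mem_cenAlg ρ a hz)).2
    rw [mul_assoc, hXc z hz'.1, ← mul_assoc, ← (commute_spanAlg hcz hW').eq, mul_assoc]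

/-- The main construction: a larger normal subgroup lies in an inducing subgroup. -/
theorem exists_imprimitive [ρ.IsIrreducible] (H C M A : Subgroup G) [C.Normal] [M.Normal]
    {ϑ : H → ℂ} (hϑ : IsCharacter H ϑ) (hind : indFun H ϑ = ρ.character)
    (hCH : C ≤ H) (hCM : C ≤ M) (hMH : ∀ m ∈ M, m ∈ H → m ∈ C) (hsup : H ⊔ M = ⊤)
    (hC : ∃ (θ : C → ℂ) (c : ℕ), IsIrrCharacter C θ ∧
      (fun n : C => ρ.character n) = (c : ℂ) • θ)
    (hM : ∃ (θ : M → ℂ) (c : ℕ), IsIrrCharacter M θ ∧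
      (fun n : M => ρ.character n) = (c : ℂ) • θ)
    (hAH : A ≤ H) (hHA : ∀ h ∈ H, ∀ a ∈ A, h * a * h⁻¹ ∈ A)
    {q : ℕ} (hq : q.Prime) (hqe : ¬ q ∣ (C.subgroupOf M).index) (hpow : ∀ a ∈ A, a ^ q ∈ C)
    (hab : ∀ a ∈ A, ∀ b ∈ A, a * b * a⁻¹ * b⁻¹ ∈ C)
    (hnt : ∃ a ∈ A, ∃ m ∈ M, a * m * a⁻¹ * m⁻¹ ∉ C) :
    ∃ S : Subgroup G, M ≤ S ∧ S ≠ ⊤ ∧ ∃ ψ : S → ℂ, IsCharacter S ψ ∧
      indFun S ψ = ρ.character := by
  classical
  haveI := Fintype.ofFinite M
  haveI := nontrivial_of_irreducible ρ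
  obtain ⟨P, d, hd, hP, hPH, htr, hdim⟩ := exists_inducing_projection ρ H hϑ hind
  obtain ⟨horth, hsum⟩ := exists_blocks ρ H C M hCH hMH hsup hCM P d hd hP hPH htr hdim
  have hPC : ∀ c ∈ C, Commute P (ρ c) := fun c hc => hPH c (hCH hc)
  have hP0 : P ≠ 0 := fun h0 => by
    rw [h0, map_zero] at htr
    exact hd.ne' (by exact_mod_cast htr.symm)
  obtain ⟨hrank, hfaith⟩ := cenAlg_dim ρ C M hCM hC P hP0 hP hPC horth
  have hC0 : (Nat.card C : ℂ) ≠ 0 := Nat.cast_ne_zero.2 Nat.card_pos.ne'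
  let R : Module.End ℂ V → Module.End ℂ V := fun y =>
    (Nat.card C : ℂ)⁻¹ • ∑ i : M, cj ρ (i : G) (y * P)
  have hRM : ∀ m ∈ M, ∀ y, cj ρ m (R y) = R y := fun m hm y => by
    simp only [R, map_smul]
    rw [cj_sum_self ρ M _ hm]
  have hRH : ∀ h ∈ H, ∀ y, cj ρ h (R y) = R (cj ρ h y) := fun h hh y => by
    simp only [R, map_smul]
    rw [cj_sum_conj, map_mul, cj_eq_self (hPH h hh)]
  have hR1 : R 1 = 1 := by
    simp only [R, one_mul]
    rw [hsum, smul_smul, inv_mul_cancel₀ hC0, one_smul]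
  have hRP : ∀ y ∈ cenAlg ρ M C, R y * P = y * P := by
    intro y hy
    simp only [R, smul_mul_assoc, Finset.sum_mul]
    rw [← Finset.sum_filter_add_sum_filter_not _ (fun i : M => (i : G) ∈ C),
      Finset.sum_eq_zero (s := Finset.univ.filter fun i : M => ¬ (i : G) ∈ C) (fun i hi => ?_),
      add_zero, Finset.sum_congr rfl (g := fun _ => y * P) fun i hi => ?_, Finset.sum_const,
      ← Nat.cast_smul_eq_nsmul ℂ, smul_smul]
    · have hcard : (Finset.univ.filter fun i : M => (i : G) ∈ C).card = Nat.card C := by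
        rw [← Nat.card_congr (Subgroup.subgroupOfEquivOfLe hCM).toEquiv, Nat.card_eq_fintype_card,
          Fintype.card_subtype]
        simp [Subgroup.mem_subgroupOf]
      rw [hcard, inv_mul_cancel₀ hC0, one_smul]
    · rw [Finset.mem_filter] at hi
      rw [cj_eq_self ((((mem_cenAlg ρ).1 hy).2 _ hi.2).mul_left (hPC _ hi.2)), mul_assoc, hP]
    · rw [Finset.mem_filter] at hi
      have h1 : (i : G)⁻¹ ∉ C := fun h => hi.2 (by simpa using C.inv_mem h)
      rw [cj_apply]
      calc ρ (i : G) * (y * P) * ρ (i : G)⁻¹ * P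
          = ρ (i : G) * y * (P * ρ (i : G)⁻¹ * P) := by simp only [mul_assoc]
        _ = 0 := by rw [horth _ (M.inv_mem i.2) h1, mul_zero]
  have hRcomm : ∀ y, ∀ z ∈ spanAlg ρ M, Commute (R y) z := fun y z hz =>
    commute_spanAlg (fun m hm => commute_of_cj_eq (hRM m hm y)) hz
  have hRmul : ∀ x ∈ cenAlg ρ M C, ∀ y ∈ cenAlg ρ M C, R x * R y = R (y * x) := by
    intro x hx y hy
    show R x * ((Nat.card C : ℂ)⁻¹ • ∑ i : M, cj ρ (i : G) (y * P)) = _
    rw [mul_smul_comm, Finset.mul_sum]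
    congr 1
    refine Finset.sum_congr rfl fun i _ => ?_
    conv_lhs => rw [← hRM (i : G) i.2 x, ← map_mul]
    congr 1
    rw [← mul_assoc, (hRcomm x y ((mem_cenAlg ρ).1 hy).1).eq, mul_assoc, hRP x hx, mul_assoc]
  -- elements of `A` act through commuting realisations
  have htriv : ∀ c ∈ C, ∀ z ∈ cenAlg ρ M C, cj ρ c z = z := fun c hc z hz =>
    cj_eq_self (((mem_cenAlg ρ).1 hz).2 c hc)
  have hone : Realises ρ M C 1 1 :=
    ⟨one_mem _, ⟨1, one_mem _, mul_one 1, one_mul 1⟩, fun z _ => by rw [cj_one, one_mul, mul_one]⟩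
  haveI : Nontrivial (cenAlg ρ M C) := ⟨⟨0, 1, fun h => zero_ne_one (congrArg Subtype.val h)⟩⟩
  have hcomm : ∀ a ∈ A, ∀ b ∈ A, ∀ x y, Realises ρ M C a x → Realises ρ M C b y →
      x * y = y * x := by
    intro a ha b hb x y hx hy
    obtain ⟨c, hc⟩ := (hy.conj ρ a).unique ρ hCM hC hM (fun z hz => by
      rw [show a * b * a⁻¹ = a * b * a⁻¹ * b⁻¹ * b by group, ← cj_cj,
        htriv _ (hab a ha b hb) _ (cj_mem_cenAlg ρ b hz)]) hy
    have h1 : x * y = c • (y * x) := by rw [hx.2.2 y hy.1, hc, smul_mul_assoc]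
    have hk : ∀ k : ℕ, x ^ k * y = c ^ k • (y * x ^ k) := by
      intro k
      induction k with
      | zero => simp
      | succ k ih =>
        rw [pow_succ, mul_assoc, h1, mul_smul_comm, ← mul_assoc, ih, smul_mul_assoc, smul_smul,
          mul_assoc, pow_succ, mul_comm]
    obtain ⟨l, hl⟩ := (hx.pow ρ q).unique ρ hCM hC hM (fun z hz => by
      rw [htriv _ (hpow a ha) z hz, cj_one]) hone
    obtain ⟨-, ⟨y', -, hyy', hy'y⟩, -⟩ := id hy
    obtain ⟨-, ⟨x', -, hxx', hx'x⟩, -⟩ := hx.pow ρ q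
    have hcq : c ^ q = 1 := by
      have h2 := hk q
      rw [hl, smul_mul_assoc, one_mul, mul_smul_comm, mul_one, smul_smul] at h2
      have hl0 : l ≠ 0 := fun h0 => by
        rw [hl, h0, zero_smul, zero_mul] at hxx'
        exact zero_ne_one hxx'
      have hy0 : y ≠ 0 := fun h0 => by rw [h0, zero_mul] at hyy'; exact zero_ne_one hyy'
      have h3 := smul_left_injective ℂ hy0 h2
      exact mul_right_cancel₀ hl0 (h3.symm.trans (one_mul l).symm)
    have hce : c ^ (C.subgroupOf M).index = 1 := by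
      have hx1 := hx.1
      let X : cenAlg ρ M C := ⟨x, hx1⟩
      have hyc : ∃ Y : cenAlg ρ M C, (Y : Module.End ℂ V) = y ∧ IsUnit Y := by
        obtain ⟨h0, ⟨yi, hyi, ha, hb⟩, -⟩ := hy
        exact ⟨⟨y, h0⟩, rfl, ⟨⟨⟨y, h0⟩, ⟨yi, hyi⟩, Subtype.ext ha, Subtype.ext hb⟩, rfl⟩⟩
      obtain ⟨Y, hY, hYu⟩ := hyc
      have hXu : IsUnit X := by
        obtain ⟨h0, ⟨xj, hxj, ha, hb⟩, -⟩ := hx
        exact ⟨⟨X, ⟨xj, hxj⟩, Subtype.ext ha, Subtype.ext hb⟩, rfl⟩
      have h2 : X * Y = algebraMap ℂ _ c * (Y * X) := Subtype.ext (by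
        simp only [Subalgebra.coe_mul, Subalgebra.coe_algebraMap, hY, X]
        rw [h1, ← Algebra.smul_def])
      have h3 := congrArg (Algebra.norm ℂ) h2
      rw [map_mul, map_mul, map_mul, Algebra.norm_algebraMap, hrank, mul_comm] at h3
      have hn : Algebra.norm ℂ Y * Algebra.norm ℂ X ≠ 0 :=
        mul_ne_zero (hYu.map _).ne_zero (hXu.map _).ne_zero
      exact mul_right_cancel₀ hn (h3.symm.trans (one_mul _).symm)
    have hc1 : c = 1 := by
      have := pow_gcd_eq_one.2 ⟨hcq, hce⟩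
      rwa [(hq.coprime_iff_not_dvd.2 hqe).gcd_eq_one, pow_one] at this
    rw [h1, hc1, one_smul]
  let F : Set (Module.End ℂ V) := {f | ∃ a ∈ A, ∃ x, Realises ρ M C a x ∧ f = R x}
  refine exists_induced_of_family ρ F ?_ ?_ ?_ M ?_
  · rintro _ ⟨a, ha, x, hx, rfl⟩ _ ⟨b, hb, y, hy, rfl⟩
    show R x * R y = R y * R x
    rw [hRmul x hx.1 y hy.1, hRmul y hy.1 x hx.1, hcomm a ha b hb x y hx hy]
  · rintro g _ ⟨a, ha, x, hx, rfl⟩
    obtain ⟨m, hm, h, hh, rfl⟩ := Subgroup.mem_sup_of_normal_left.1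
      (by rw [sup_comm, hsup]; exact Subgroup.mem_top g : g ∈ M ⊔ H)
    exact ⟨h * a * h⁻¹, hHA h hh a ha, cj ρ h x, hx.conj ρ h,
      by rw [← cj_cj, hRH h hh, hRM m hm]⟩
  · obtain ⟨a, ha, m, hm, hk⟩ := hnt
    obtain ⟨x, hx⟩ := exists_realises ρ hCM hC hM a
    refine ⟨R x, ⟨a, ha, x, hx, rfl⟩, fun l hl => hk ?_⟩
    have h1 : R (x - l • 1) * P = 0 := by
      have : R (x - l • 1) = R x - l • R 1 := by
        simp only [R, sub_mul, map_sub, Finset.sum_sub_distrib, smul_sub, smul_mul_assoc, map_smul,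
          ← Finset.smul_sum, smul_comm l]
      rw [this, hR1, hl, sub_self, zero_mul]
    have hxl : x - l • 1 ∈ cenAlg ρ M C := sub_mem hx.1 (Subalgebra.smul_mem _ (one_mem _) _)
    rw [hRP _ hxl] at h1
    have hx1 := sub_eq_zero.1 (hfaith _ hxl h1)
    -- conjugation by `a` is then trivial
    by_contra hkC
    obtain ⟨-, ⟨x', -, hxx', -⟩, hx2⟩ := hx
    have hl0 : l ≠ 0 := fun h0 => by
      rw [hx1, h0, zero_smul, zero_mul] at hxx'
      exact zero_ne_one hxx'
    obtain ⟨X, hX, Y, hY, hXY, hYX, hXc⟩ := exists_inner ρ C hC m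
    have hu : Y * ρ m ∈ cenAlg ρ M C := by
      refine (mem_cenAlg ρ).2 ⟨mul_mem (spanAlg_mono hCM hY) (rho_mem_spanAlg hm), fun c hc => ?_⟩
      show Y * ρ m * ρ c = ρ c * (Y * ρ m)
      have h1 := hXc _ (rho_mem_spanAlg hc)
      rw [cj_rho] at h1
      calc Y * ρ m * ρ c = Y * ρ (m * c * m⁻¹) * (X * Y) * ρ m := by
            rw [hXY, mul_one, mul_assoc, mul_assoc Y, ← map_mul, ← map_mul, inv_mul_cancel_right]
        _ = Y * (ρ (m * c * m⁻¹) * X) * Y * ρ m := by simp only [mul_assoc]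
        _ = ρ c * (Y * ρ m) := by
            rw [← h1, ← mul_assoc, hYX, one_mul, mul_assoc]
    have h2 := hx2 _ hu
    rw [hx1, smul_mul_assoc, one_mul, mul_smul_comm, mul_one] at h2
    have h3 := smul_right_injective (Module.End ℂ V) hl0 h2
    rw [map_mul, cj_rho] at h3
    set n := a * m * a⁻¹ with hn
    have hnM : n ∈ M := ‹M.Normal›.conj_mem m hm a
    have hnm : n⁻¹ * m ∉ C := fun h => hkC (by
      have h4 := C.inv_mem (‹C.Normal›.conj_mem _ h n)
      simpa [mul_assoc] using h4)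
    have hPn : ∀ c ∈ C, Commute (cj ρ n P) (ρ c) := fun c hc => by
      have h4 := (hPC (n⁻¹ * c * n) (by simpa using ‹C.Normal›.conj_mem c hc n⁻¹)).map (cj ρ n)
      rwa [cj_rho, show n * (n⁻¹ * c * n) * n⁻¹ = c by group] at h4
    have h5 : cj ρ a Y * cj ρ n P = 0 := by
      have h4 := congrArg (fun y => cj ρ n P * (y * P) * ρ n⁻¹) h3
      have eL : cj ρ n P * (Y * ρ m * P) * ρ n⁻¹ = 0 := by
        rw [← mul_assoc, ← mul_assoc, (commute_spanAlg hPn hY).eq, cj_apply,
          show Y * (ρ n * P * ρ n⁻¹) * ρ m * P * ρ n⁻¹ =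
            Y * ρ n * (P * ρ (n⁻¹ * m) * P) * ρ n⁻¹ by rw [map_mul ρ n⁻¹ m]; simp only [mul_assoc],
          horth _ (M.mul_mem (M.inv_mem hnM) hm) hnm, mul_zero, zero_mul]
      have eR : cj ρ n P * (cj ρ a Y * ρ n * P) * ρ n⁻¹ = cj ρ a Y * cj ρ n P := by
        rw [← mul_assoc, ← mul_assoc, (commute_spanAlg hPn (cj_mem_spanAlg a hY)).eq]
        conv_rhs => rw [← hP, map_mul]
        simp only [cj_apply, mul_assoc]
      simp only [eL, eR] at h4
      exact h4.symm
    have hne : cj ρ n P ≠ 0 := fun h => hP0 (by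
      have := congrArg (cj ρ n⁻¹) h
      rwa [map_zero, cj_cj, inv_mul_cancel, cj_one] at this)
    have h6 := eq_zero_of_mul_eq_zero ρ C hC (cj_mem_spanAlg a hY) hPn hne h5
    have h7 : cj ρ a Y * cj ρ a X = 1 := by rw [← map_mul, hYX, map_one]
    rw [h6, zero_mul] at h7
    exact zero_ne_one h7
  · rintro m hm _ ⟨a, ha, x, hx, rfl⟩
    exact hRM m hm _

/-- Berger's theorem: a quasi-primitive character of a solvable group is primitive. -/
theorem berger_primitive {G : Type*} [Group G] [Fintype G] [Group.IsSolvable G] (χ : G → ℂ)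
    (hχ : IsIrrCharacter G χ)
    (hqp : ∀ N : Subgroup G, N.Normal → ∃ (ϑ : N → ℂ) (e : ℕ), IsIrrCharacter N ϑ ∧
      (fun n : N => χ n) = (e : ℂ) • ϑ)
    (K : Subgroup G) (hK : K ≠ ⊤) (ψ : K → ℂ) (hψ : IsCharacter K ψ) : indFun K ψ ≠ χ := by
  classical
  intro hKψ
  have hup : ∀ (S : Subgroup G) (η : S → ℂ), S ≠ ⊤ → IsCharacter S η → indFun S η = χ →
      ∃ H : Subgroup G, IsCoatom H ∧ S ≤ H ∧
        ∃ ϑ : H → ℂ, IsCharacter H ϑ ∧ indFun H ϑ = χ := by
    intro S η hS hη hSη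
    obtain ⟨H, hH, hSH⟩ := (eq_top_or_exists_le_coatom S).resolve_left hS
    haveI := Fintype.ofFinite H
    refine ⟨H, hH, hSH, _, Chars.isCharacter_indFun _ ?_, (Chars.indFun_trans S H hSH η).trans hSη⟩
    exact Chars.isCharacter_comp hη (Subgroup.subgroupOfEquivOfLe hSH).toMonoidHom
  obtain ⟨H₀, hH₀, -, hH₀'⟩ := hup K ψ hK hψ hKψ
  haveI : Fintype (Subgroup G) := Fintype.ofFinite _
  obtain ⟨H, hH, hHmax⟩ := Finset.exists_max_image
    (Finset.univ.filter fun H : Subgroup G =>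
      IsCoatom H ∧ ∃ ϑ : H → ℂ, IsCharacter H ϑ ∧ indFun H ϑ = χ)
    (fun H => Nat.card H.normalCore) ⟨H₀, by simp [hH₀, hH₀']⟩
  obtain ⟨-, hmax, ϑ, hϑ, hind⟩ := Finset.mem_filter.1 hH
  haveI := Fintype.ofFinite H
  obtain ⟨d, ρ, hρ, hρχ⟩ := id hχ
  haveI := hρ
  subst hρχ
  -- an inducing subgroup is not normal
  have hnn : ¬ H.Normal := by
    intro hn
    obtain ⟨θ, k, hθ, hk⟩ := hqp H hn
    have hϑi := irr_of_indFun_irr H hϑ (hind ▸ hχ)
    have h1 : classInner ϑ (fun h : H => ρ.character h) = 1 := by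
      rw [← Chars.classInner_indFun H ϑ (Chars.isClassFunction_of_isCharacter
        (Chars.isCharacter_of_isIrr hχ)), hind]
      exact Chars.classInner_self_irr hχ
    rw [hk, Chars.classInner_smul_right, map_natCast, Chars.classInner_irr hϑi hθ] at h1
    split_ifs at h1 with he
    · have h2 := congrFun hind 1
      have h3 := congrFun hk 1
      rw [OneMemClass.coe_one, Pi.smul_apply, smul_eq_mul] at h3
      rw [Chars.indFun_apply_one, h3, he] at h2
      rw [mul_one] at h1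
      have hi : (H.index : ℂ) = 1 := by
        rw [h1] at h2
        exact mul_right_cancel₀ (Chars.irr_apply_one_ne_zero hθ) h2
      exact hmax.1 (Subgroup.index_eq_one.1 (by exact_mod_cast hi))
    · rw [mul_zero] at h1
      exact zero_ne_one h1
  set C := H.normalCore with hCdef
  have hCn : C.Normal := Subgroup.normalCore_normal H
  have hCH : C ≤ H := H.normalCore_le
  set π := QuotientGroup.mk' C with hπ
  have hπs : Function.Surjective π := QuotientGroup.mk'_surjective C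
  haveI : Group.IsSolvable (G ⧸ C) := solvable_of_surjective hπs
  have hπH : (H.map π).comap π = H := by
    rw [Subgroup.comap_map_eq, QuotientGroup.ker_mk', sup_eq_left.2 hCH]
  have hmax' : IsCoatom (H.map π) := by
    refine ⟨fun h => hmax.1 (by rw [← hπH, h, Subgroup.comap_top]), fun L hL => ?_⟩
    have h1 : H < L.comap π := by
      rw [← hπH]; exact (Subgroup.comap_lt_comap_of_surjective hπs).2 hL
    exact Subgroup.comap_injective hπs ((hmax.2 _ h1).trans (Subgroup.comap_top π).symm)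
  have hcore : ∀ N : Subgroup (G ⧸ C), N.Normal → N ≤ H.map π → N = ⊥ := by
    intro N hN hle
    have h1 : N.comap π ≤ C := by
      haveI := hN.comap π
      exact Subgroup.normal_le_normalCore.2 (hπH ▸ Subgroup.comap_mono hle)
    rw [eq_bot_iff, ← Subgroup.map_comap_eq_self_of_surjective hπs N]
    refine (Subgroup.map_mono h1).trans (le_of_eq ?_)
    rw [Subgroup.map_eq_bot_iff, QuotientGroup.ker_mk']
  have hHC : H.map π ≠ ⊥ := fun h0 => hnn (by
    rw [Subgroup.map_eq_bot_iff, QuotientGroup.ker_mk'] at h0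
    exact (le_antisymm h0 hCH) ▸ hCn)
  obtain ⟨p, T, A', hp, hT, hsup, hinf, ⟨n, hn0, hTn⟩, hA', hA'p, hA'0⟩ :=
    exists_complement_layers (H.map π) hmax' hcore
  obtain ⟨hA'ne, q, hq, hqA, hA'ab, hA'exp⟩ := hA'0 hHC
  set M := T.comap π with hMdef
  haveI hMn : M.Normal := hT.comap π
  set A := (A'.map (H.map π).subtype).comap π with hAdef
  have hker : ∀ {g : G}, π g = 1 ↔ g ∈ C := fun {g} => QuotientGroup.eq_one_iff g
  have hCM : C ≤ M := fun c hc => by
    show π c ∈ T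
    rw [hker.2 hc]
    exact one_mem _
  have hMH : ∀ y ∈ M, y ∈ H → y ∈ C := fun y hyM hyH => by
    have : π y ∈ H.map π ⊓ T := ⟨⟨y, hyH, rfl⟩, hyM⟩
    rw [hinf, Subgroup.mem_bot] at this
    exact hker.1 this
  have hsupG : H ⊔ M = ⊤ := by
    have h1 : ((H ⊔ M).map π).comap π = H ⊔ M := by
      rw [Subgroup.comap_map_eq, QuotientGroup.ker_mk', sup_eq_left.2 (hCM.trans le_sup_right)]
    rw [← h1, Subgroup.map_sup, hMdef, Subgroup.map_comap_eq_self_of_surjective hπs, hsup,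
      Subgroup.comap_top]
  have hcardM : Nat.card M = p ^ n * Nat.card C := by
    rw [← hTn, hMdef, card_comap_of_surj π hπs, QuotientGroup.ker_mk', mul_comm]
  have hidx : (C.subgroupOf M).index = p ^ n := by
    refine Nat.eq_of_mul_eq_mul_left (Nat.card_pos (α := C.subgroupOf M)) ?_
    rw [Subgroup.card_mul_index, hcardM,
      Nat.card_congr (Subgroup.subgroupOfEquivOfLe hCM).toEquiv, mul_comm]
  have hqe : ¬ q ∣ (C.subgroupOf M).index := fun h => hA'p (by
    rw [hidx] at h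
    exact (Nat.prime_dvd_prime_iff_eq hq hp).1 (hq.dvd_of_dvd_pow h) ▸ hqA)
  have hAH : A ≤ H := fun a ha => by
    rw [← hπH]
    exact Subgroup.map_subtype_le A' ha
  have hHA : ∀ h ∈ H, ∀ a ∈ A, h * a * h⁻¹ ∈ A := by
    rintro h hh a ⟨w, hw, hwa⟩
    refine ⟨_, hA'.conj_mem w hw ⟨π h, Subgroup.mem_map_of_mem π hh⟩, ?_⟩
    simp only [Subgroup.coe_subtype, Subgroup.coe_mul, InvMemClass.coe_inv, map_mul,
      map_inv] at hwa ⊢
    rw [hwa]
  have hpow : ∀ a ∈ A, a ^ q ∈ C := by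
    rintro a ⟨w, hw, hwa⟩
    refine hker.1 ?_
    rw [map_pow, ← hwa, ← map_pow, hA'exp w hw, map_one]
  have hab : ∀ a ∈ A, ∀ b ∈ A, a * b * a⁻¹ * b⁻¹ ∈ C := by
    rintro a ⟨w, hw, hwa⟩ b ⟨v, hv, hvb⟩
    refine hker.1 ?_
    rw [map_mul, map_mul, map_mul, map_inv, map_inv, ← hwa, ← hvb, ← map_inv, ← map_inv,
      ← map_mul, ← map_mul, ← map_mul, hA'ab w hw v hv, mul_inv_cancel_right, mul_inv_cancel,
      map_one]
  have hnt : ∃ a ∈ A, ∃ m ∈ M, a * m * a⁻¹ * m⁻¹ ∉ C := by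
    by_contra hall
    push Not at hall
    have hcen : ∀ t ∈ T, ∀ y ∈ A'.map (H.map π).subtype, t * y = y * t := by
      intro t ht y hy
      obtain ⟨a, rfl⟩ := hπs y
      obtain ⟨m, rfl⟩ := hπs t
      have h1 := hker.2 (hall a hy m ht)
      rw [map_mul, map_mul, map_mul, map_inv, map_inv, mul_inv_eq_one,
        mul_inv_eq_iff_eq_mul] at h1
      exact h1.symm
    have hn' : (A'.map (H.map π).subtype).Normal := by
      refine Subgroup.normalizer_eq_top_iff.1 (eq_top_iff.2 (hsup.ge.trans (sup_le ?_ ?_)))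
      · intro h hh
        rw [Subgroup.mem_normalizer_iff]
        intro y
        constructor
        · rintro ⟨w, hw, rfl⟩
          exact ⟨_, hA'.conj_mem w hw ⟨h, hh⟩, rfl⟩
        · rintro ⟨w, hw, hwy⟩
          refine ⟨_, hA'.conj_mem w hw (⟨h, hh⟩ : H.map π)⁻¹, ?_⟩
          simp only [Subgroup.coe_subtype, Subgroup.coe_mul, InvMemClass.coe_inv] at hwy ⊢
          rw [hwy]
          group
      · intro z hz
        rw [Subgroup.mem_normalizer_iff]
        intro y
        constructor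
        · intro hy
          rw [hcen z hz y hy, mul_inv_cancel_right]
          exact hy
        · intro hy
          have h2 := hcen z⁻¹ (inv_mem hz) _ hy
          have h3 : y = z * y * z⁻¹ := by
            calc y = (z⁻¹ * (z * y * z⁻¹)) * z := by group
              _ = _ := by rw [h2, inv_mul_cancel_right]
          rw [h3]
          exact hy
    have h4 := hcore _ hn' (Subgroup.map_subtype_le A')
    rw [Subgroup.map_eq_bot_iff, Subgroup.ker_subtype, le_bot_iff] at h4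
    exact hA'ne h4
  obtain ⟨S, hMS, hS, η, hη, hSη⟩ :=
    exists_imprimitive ρ H C M A hϑ hind hCH hCM hMH hsupG (hqp C hCn) (hqp M hMn) hAH hHA hq hqe
      hpow hab hnt
  obtain ⟨H', hH', hSH', hex⟩ := hup S η hS hη hSη
  have hle : M ≤ H'.normalCore := Subgroup.normal_le_normalCore.2 (hMS.trans hSH')
  have hlt : Nat.card C < Nat.card M := by
    rw [hcardM]
    exact lt_mul_of_one_lt_left Nat.card_pos (Nat.one_lt_pow hn0.ne' hp.one_lt)
  have h5 := hHmax H' (Finset.mem_filter.2 ⟨Finset.mem_univ _, hH', hex⟩)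
  have h6 : Nat.card C < Nat.card H'.normalCore := hlt.trans_le (Subgroup.card_le_of_le hle)
  exact absurd h5 (by rw [not_le]; exact h6)

end Cfsg.Agent.Chars2
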