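import Cfsg.Agent.BlockChar.SubsectionHeight
import Cfsg.Agent.Chars.Induced

/-!
The p-part of the sum of the squares of the degrees in a block.
-/

set_option autoImplicit false
set_option linter.unusedSectionVars false
set_option linter.style.haveILetI false

namespace Cfsg.Agent.Chars2

open Cfsg Cfsg.Agent Cfsg.Agent.Blocks Cfsg.Agent.BlockChar
open scoped ComplexConjugate

universe u

variable {G : Type u} [Group G] [Fintype G] {p : ℕ} [Fact p.Prime] {M : Ideal AlgInt}
  [M.IsMaximal]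

open Classical in
/-- A generalized character with value the index of a Sylow group at one and zero on the other
regular elements. -/
theorem exists_sylow_perm : ∃ u : IrrCharacter G → ℕ, ∀ g : G, ¬ p ∣ orderOf g →
    ∑ φ : IrrCharacter G, (u φ : ℂ) * (φ : G → ℂ) g =
      if g = 1 then ((Nat.card G / p ^ (Nat.card G).factorization p : ℕ) : ℂ) else 0 := by
  classical
  obtain ⟨P⟩ : Nonempty (Sylow p G) := inferInstance
  letI : Fintype (P : Subgroup G) := Fintype.ofFinite _
  have hchar : IsCharacter G (indFun (P : Subgroup G) (fun _ => (1 : ℂ))) :=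
    Chars.isCharacter_indFun _ Chars.isCharacter_one
  choose u hu using fun φ : IrrCharacter G =>
    Chars.exists_classInner_eq_nat hchar (Chars.irr_isCharacter φ)
  refine ⟨u, fun g hg => ?_⟩
  have h : indFun (P : Subgroup G) (fun _ => (1 : ℂ)) g =
      ∑ φ : IrrCharacter G, (u φ : ℂ) * (φ : G → ℂ) g := by
    refine (congrFun (Chars.eq_sum_classInner (Chars.isClassFunction_indFun _ _)) g).trans ?_
    rw [Finset.sum_apply]
    exact Finset.sum_congr rfl fun φ _ => by rw [hu φ]; rfl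
  rw [← h]
  split_ifs with h1
  · subst h1
    rw [Chars.indFun_apply_one, mul_one]
    congr 1
    rw [← P.card_eq_multiplicity, ← (P : Subgroup G).card_mul_index,
      Nat.mul_div_cancel_left _ Nat.card_pos]
  · rw [Chars.indFun_apply]
    refine mul_eq_zero_of_right _ (Finset.sum_eq_zero fun x _ => ?_)
    refine Chars.extendByZero_of_not_mem _ _ fun hmem => ?_
    obtain ⟨k, hk⟩ := P.2 ⟨_, hmem⟩
    obtain ⟨i, -, hi⟩ := (Nat.dvd_prime_pow (Fact.out : p.Prime)).1 (orderOf_dvd_of_pow_eq_one hk)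
    rw [Subgroup.orderOf_mk] at hi
    have ho : orderOf (x⁻¹ * g * x) = orderOf g := by
      have h2 := MulEquiv.orderOf_eq (MulAut.conj x⁻¹) g
      rwa [MulAut.conj_apply, inv_inv] at h2
    rw [ho] at hi
    rcases Nat.eq_zero_or_pos i with h0 | h0
    · rw [h0, pow_zero, orderOf_eq_one_iff] at hi
      exact h1 hi
    · exact hg (hi ▸ dvd_pow_self p h0.ne')

/-- The p-part of the sum of the squares of the degrees. -/
theorem factorization_sum_sq (hpM : (p : AlgInt) ∈ M) {B : Set (IrrCharacter G)}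
    (hB : IsPBlock M B) :
    (∑ χ ∈ bf B, charDegree (χ : G → ℂ) ^ 2).factorization p =
      2 * (Nat.card G).factorization p - blockDefect p B := by
  classical
  obtain ⟨u, hu⟩ := exists_sylow_perm (G := G) (p := p)
  obtain ⟨A, hA, hsym, -, -⟩ := exists_contribution hpM hB
  obtain ⟨η, hη, hη0, r, hrR, hrη, hcongr, -⟩ := exists_congr_rank_one hpM hB hA hsym
  set d := blockDefect p B with hd
  set a := (Nat.card G).factorization p with hadef
  have hda : d ≤ a := blockDefect_le B
  let m : IrrCharacter G → ℤ := fun ψ => ∑ φ ∈ bf B, A ψ φ * (u φ : ℤ)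
  have hp0 : (p : ℂ) ≠ 0 := Nat.cast_ne_zero.2 (Fact.out : p.Prime).ne_zero
  -- the degrees
  have hm : ∀ ψ ∈ B, (charDegree (ψ : G → ℂ) : ℤ) = (p : ℤ) ^ (a - d) * m ψ := by
    intro ψ hψ
    have h1 : ∑ φ ∈ bf B, regInner p (ψ : G → ℂ) (φ : G → ℂ) * (u φ : ℂ) =
        ∑ φ : IrrCharacter G, regInner p (ψ : G → ℂ) (φ : G → ℂ) * (u φ : ℂ) := by
      refine Finset.sum_subset (Finset.subset_univ _) fun φ _ hφ => ?_
      rw [regInner_eq_zero hpM fun h => hφ (mem_bf.2 (mem_of_sameBlock hB hψ h)), zero_mul]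
    have h2 : ∑ φ : IrrCharacter G, regInner p (ψ : G → ℂ) (φ : G → ℂ) * (u φ : ℂ) =
        (ψ : G → ℂ) 1 * (Nat.card G : ℂ)⁻¹ *
          ((Nat.card G / p ^ (Nat.card G).factorization p : ℕ) : ℂ) := by
      calc _ = (Nat.card G : ℂ)⁻¹ * ∑ g ∈ regs p G, (ψ : G → ℂ) g *
            conj (∑ φ : IrrCharacter G, (u φ : ℂ) * (φ : G → ℂ) g) := by
            simp only [regInner, map_sum, map_mul, map_natCast, Finset.mul_sum, Finset.sum_mul]
            rw [Finset.sum_comm]
            exact Finset.sum_congr rfl fun g _ => Finset.sum_congr rfl fun φ _ => by ring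
        _ = _ := by
            rw [Finset.sum_eq_single (1 : G)]
            · rw [hu 1 (by rw [orderOf_one]; exact (Fact.out : p.Prime).not_dvd_one), if_pos rfl,
                map_natCast]
              ring
            · intro g hg hne
              rw [hu g (mem_regs.1 hg), if_neg hne, map_zero, mul_zero]
            · intro h
              exact absurd (mem_regs.2 (by
                rw [orderOf_one]; exact (Fact.out : p.Prime).not_dvd_one)) h
    have hG : (Nat.card G : ℂ) = (p : ℂ) ^ a * ((Nat.card G / p ^ a : ℕ) : ℂ) := by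
      rw [← Nat.cast_pow, ← Nat.cast_mul, Nat.ordProj_mul_ordCompl_eq_self]
    have hg0 : ((Nat.card G / p ^ a : ℕ) : ℂ) ≠ 0 := by
      intro h
      rw [h, mul_zero] at hG
      exact Chars.card_ne_zero hG
    have hmC : (m ψ : ℂ) * (p : ℂ) ^ a = (p : ℂ) ^ d * (charDegree (ψ : G → ℂ) : ℂ) := by
      simp only [m, Int.cast_sum, Int.cast_mul, Int.cast_natCast]
      rw [Finset.sum_congr rfl fun φ _ => by rw [hA ψ hψ φ, mul_assoc], ← Finset.mul_sum, h1, h2,
        (Blocks.charDegree_eq ψ.2).1, ← hadef, hG]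
      field_simp
    apply Int.cast_injective (α := ℂ)
    push_cast
    apply mul_left_cancel₀ (pow_ne_zero d hp0)
    rw [← hmC, ← mul_assoc, ← pow_add, Nat.add_sub_cancel' hda]
    ring
  let N : ℤ := ∑ φ ∈ bf B, (u φ : ℤ) * m φ
  have hsq : ∑ ψ ∈ bf B, m ψ ^ 2 = (p : ℤ) ^ d * N := by
    have hAA : ∀ φ ∈ bf B, ∀ φ' ∈ bf B,
        ∑ ψ ∈ bf B, A ψ φ * A ψ φ' = (p : ℤ) ^ d * A φ φ' := by
      intro φ hφ φ' _
      apply Int.cast_injective (α := ℂ)
      push_cast
      rw [Finset.sum_congr rfl fun ψ hψ => by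
        rw [show A ψ φ = A φ ψ from hsym ψ (mem_bf.1 hψ) φ (mem_bf.1 hφ), hA φ (mem_bf.1 hφ) ψ,
          hA ψ (mem_bf.1 hψ) φ', mul_mul_mul_comm],
        ← Finset.mul_sum, regInner_trans hpM hB (mem_bf.1 hφ), hA φ (mem_bf.1 hφ)]
      ring
    calc ∑ ψ ∈ bf B, m ψ ^ 2
        = ∑ φ ∈ bf B, ∑ φ' ∈ bf B, (u φ : ℤ) * u φ' * ∑ ψ ∈ bf B, A ψ φ * A ψ φ' := by
          simp only [m, sq, Finset.sum_mul_sum]
          rw [Finset.sum_comm]
          refine Finset.sum_congr rfl fun φ _ => ?_
          rw [Finset.sum_comm]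
          refine Finset.sum_congr rfl fun φ' _ => ?_
          rw [Finset.mul_sum]
          exact Finset.sum_congr rfl fun ψ _ => by ring
      _ = _ := by
          simp only [N, m, Finset.mul_sum]
          refine Finset.sum_congr rfl fun φ hφ => Finset.sum_congr rfl fun φ' hφ' => ?_
          rw [← Finset.mul_sum, hAA φ hφ φ' hφ']
          ring
  have hmη : ¬ (p : ℤ) ∣ m η := by
    intro hdvd
    have h1 : (p : ℤ) ^ (a - d + 1) ∣ (charDegree (η : G → ℂ) : ℤ) := by
      rw [hm η hη, pow_succ]; exact mul_dvd_mul_left _ hdvd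
    have h2 : p ^ (a - d + 1) ∣ charDegree (η : G → ℂ) := by exact_mod_cast h1
    have h3 := (Nat.Prime.pow_dvd_iff_le_factorization (Fact.out : p.Prime)
      (Blocks.charDegree_eq η.2).2.ne').1 h2
    have h4 := degree_eq_height hpM hB hη
    rw [hη0] at h4
    omega
  set w : IrrCharacter G → ℂ := fun ψ => omega (η : G → ℂ) (regConj p (ψ : G → ℂ)) with hw
  have hwR : ∀ ψ, MemLocalRing M (w ψ) := fun ψ =>
    omega_memR hpM η.2 (isClassFunction_regConj (Chars.isClassFunction_irr ψ)) (rFun_regConj ψ)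
  set Sr : ℂ := ∑ φ ∈ bf B, (u φ : ℂ) * r φ
  set Sw : ℂ := ∑ φ ∈ bf B, (u φ : ℂ) * w φ
  have hSwR : MemLocalRing M Sw := memR_sum _ _ fun φ _ => memR_mul (memR_natCast _) (hwR φ)
  have hSrR : MemLocalRing M Sr :=
    memR_sum _ _ fun φ hφ => memR_mul (memR_natCast _) (hrR φ (mem_bf.1 hφ))
  have hNN : ¬ (p : ℤ) ∣ N := by
    intro hdvd
    have hNC : MemLocalIdeal M ((N : ℂ) - Sr * Sw) := by
      simp only [N, m, Sr, Sw, Int.cast_sum, Int.cast_mul, Int.cast_natCast, Finset.mul_sum,
        Finset.sum_mul, ← Finset.sum_sub_distrib]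
      refine memI_sum _ _ fun φ hφ => memI_sum _ _ fun φ' hφ' => ?_
      have h1 := memI_mul_left (memR_mul (memR_natCast (M := M) (u φ)) (memR_natCast (u φ')))
        (hcongr φ' (mem_bf.1 hφ') φ (mem_bf.1 hφ))
      rw [← hsym φ (mem_bf.1 hφ) φ' (mem_bf.1 hφ')] at h1
      convert h1 using 1
      ring
    rcases memI_or_of_mul hSrR hSwR
      ((memI_iff_of_sub hNC).1 ((memI_intCast_iff hpM N).2 hdvd)) with h | h
    · refine hmη ((memI_intCast_iff hpM (m η)).1 ?_)
      have h1 : MemLocalIdeal M ((m η : ℂ) - Sr * w η) := by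
        simp only [m, Sr, Int.cast_sum, Int.cast_mul, Int.cast_natCast, Finset.sum_mul,
          ← Finset.sum_sub_distrib]
        refine memI_sum _ _ fun φ hφ => ?_
        have := memI_mul_left (memR_natCast (M := M) (u φ)) (hcongr φ (mem_bf.1 hφ) η hη)
        rw [show A η φ = A φ η from hsym η hη φ (mem_bf.1 hφ)]
        convert this using 1
        ring
      exact (memI_iff_of_sub h1).2 (memI_mul_right h (hwR η))
    · refine hmη ((memI_intCast_iff hpM (m η)).1 ?_)
      have h1 : MemLocalIdeal M ((m η : ℂ) - r η * Sw) := by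
        simp only [m, Sw, Int.cast_sum, Int.cast_mul, Int.cast_natCast, Finset.mul_sum,
          ← Finset.sum_sub_distrib]
        refine memI_sum _ _ fun φ hφ => ?_
        have := memI_mul_left (memR_natCast (M := M) (u φ)) (hcongr η hη φ (mem_bf.1 hφ))
        convert this using 1
        ring
      exact (memI_iff_of_sub h1).2 (memI_mul_left (hrR η hη) h)
  have htot : ((∑ χ ∈ bf B, charDegree (χ : G → ℂ) ^ 2 : ℕ) : ℤ) =
      (p : ℤ) ^ (2 * (a - d) + d) * N := by
    push_cast
    rw [Finset.sum_congr rfl fun χ hχ => by rw [hm χ (mem_bf.1 hχ), mul_pow], ← Finset.mul_sum,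
      hsq, ← pow_mul, ← mul_assoc, ← pow_add, mul_comm (a - d) 2]
  have hNpos : 0 < N := by
    have h1 : (0 : ℤ) < ((∑ χ ∈ bf B, charDegree (χ : G → ℂ) ^ 2 : ℕ) : ℤ) := by
      exact_mod_cast Finset.sum_pos (fun χ _ => pow_pos (Blocks.charDegree_eq χ.2).2 2)
        ⟨η, mem_bf.2 hη⟩
    rw [htot] at h1
    exact pos_of_mul_pos_right h1 (by positivity)
  obtain ⟨N', hN'⟩ : ∃ N' : ℕ, N = N' := ⟨N.toNat, (Int.toNat_of_nonneg hNpos.le).symm⟩
  rw [hN'] at htot hNN hNpos
  have htot' : ∑ χ ∈ bf B, charDegree (χ : G → ℂ) ^ 2 = p ^ (2 * (a - d) + d) * N' := by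
    exact_mod_cast htot
  have hN0 : N' ≠ 0 := by omega
  rw [htot', Nat.factorization_mul (pow_ne_zero _ (Fact.out : p.Prime).ne_zero) hN0,
    Finsupp.add_apply, (Fact.out : p.Prime).factorization_pow, Finsupp.single_eq_same,
    Nat.factorization_eq_zero_of_not_dvd fun h => hNN (by exact_mod_cast h)]
  omega

end Cfsg.Agent.Chars2
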