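import Cfsg.Agent.Chars2.DadeLemma
import Cfsg.Agent.BlockChar.Weight
import Mathlib.GroupTheory.FiniteAbelian.Duality
import Mathlib.Analysis.Complex.Polynomial.Basic

/-!
Extension of invariant characters when the Sylow intersection is central.
-/

set_option autoImplicit false
set_option linter.style.haveILetI false
set_option linter.unusedSectionVars false

namespace Cfsg.Agent.Chars2

open Cfsg Cfsg.Agent
open scoped ComplexConjugate IsMulCommutative

universe u

variable {G : Type u} [Group G] [Fintype G]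

set_option maxHeartbeats 800000 in
theorem dade_extend {p : ℕ} [hp : Fact p.Prime] (N : Subgroup G) [hN : N.Normal] [Fintype N]
    (hind : ∃ k : ℕ, N.index = p ^ k) (P : Sylow p G)
    (hcent : ∀ x ∈ (P : Subgroup G) ⊓ N, ∀ y ∈ (P : Subgroup G), x * y = y * x)
    (hlin : ∀ lam : ↥((P : Subgroup G) ⊓ N) → ℂ, IsCharacter ↥((P : Subgroup G) ⊓ N) lam →
      lam 1 = 1 → ∃ μ : ↥(P : Subgroup G) → ℂ, IsCharacter ↥(P : Subgroup G) μ ∧ μ 1 = 1 ∧
        ∀ x : ↥((P : Subgroup G) ⊓ N), μ ⟨(x : G), x.2.1⟩ = lam x)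
    {θ : N → ℂ} (hθ : IsIrrCharacter N θ)
    (hinv : ∀ (g : G) (n : N), θ ⟨g * n * g⁻¹, hN.conj_mem (n : G) n.2 g⟩ = θ n) :
    ∃ χ : G → ℂ, IsIrrCharacter G χ ∧ ∀ n : N, χ n = θ n := by
  classical
  obtain ⟨E, φ, m, hE, htop, hm, -, hmult⟩ := exists_elementary_invariant N hind hθ hinv
  obtain ⟨k, hk⟩ := hind
  obtain ⟨z, hzc, hzp, l, hl⟩ := hE
  obtain ⟨Q⟩ : Nonempty (Sylow p E) := inferInstance
  set Z : Subgroup E := Subgroup.zpowers z with hZ
  have hcop : (Nat.card Z).Coprime (Nat.card Q) := by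
    obtain ⟨s, hs⟩ := IsPGroup.iff_card.1 Q.2
    rw [hs, hZ, Nat.card_zpowers]
    exact hzp.pow_right s
  let f : Z × (Q : Subgroup E) →* E :=
    { toFun := fun v => (v.1 : E) * (v.2 : E)
      map_one' := by simp
      map_mul' := fun v w => by
        have hc : (v.2 : E) * (w.1 : E) = (w.1 : E) * (v.2 : E) := by
          obtain ⟨j, hj⟩ := Subgroup.mem_zpowers_iff.1 w.1.2
          rw [← hj]
          exact Subgroup.mem_center_iff.1 (Subgroup.zpow_mem _ hzc j) _
        simp only [Prod.fst_mul, Prod.snd_mul, Subgroup.coe_mul]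
        rw [mul_assoc, ← mul_assoc (w.1 : E), ← hc]
        simp [mul_assoc] }
  have hinj : Function.Injective f := by
    rw [injective_iff_map_eq_one]
    rintro ⟨a, b⟩ h
    have h' : (a : E) * (b : E) = 1 := h
    have hmem : (b : E) ∈ Z ⊓ (Q : Subgroup E) :=
      ⟨by rw [eq_inv_of_mul_eq_one_right h']; exact Z.inv_mem a.2, b.2⟩
    rw [Subgroup.inf_eq_bot_of_coprime hcop, Subgroup.mem_bot] at hmem
    rw [hmem, mul_one] at h'
    exact Prod.ext (Subtype.ext h') (Subtype.ext hmem)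
  have hbij : Function.Bijective f := by
    refine (Nat.bijective_iff_injective_and_card f).2 ⟨hinj,
      Nat.dvd_antisymm (Subgroup.card_dvd_of_injective f hinj) ?_⟩
    rw [Nat.card_prod]
    have h1 := Subgroup.card_mul_index Z
    have h2 : p ^ l ∣ Nat.card Q := by
      obtain ⟨s, hs⟩ := IsPGroup.iff_card.1 Q.2
      have h3 : p ^ l ∣ p ^ s * (Q : Subgroup E).index := by
        rw [← hs, Subgroup.card_mul_index, ← h1, hl]
        exact Dvd.intro_left _ rfl
      rw [hs]
      exact ((hp.out.coprime_iff_not_dvd.2 Q.not_dvd_index).pow_left l).dvd_of_dvd_mul_right h3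
    rw [← h1, hl]
    exact Nat.mul_dvd_mul_left _ h2
  let e := MulEquiv.ofBijective f hbij
  have hzN : (z : G) ∈ N := by
    rw [← QuotientGroup.eq_one_iff, ← orderOf_eq_one_iff]
    have h1 : orderOf ((z : G) : G ⧸ N) ∣ orderOf z :=
      (orderOf_map_dvd (QuotientGroup.mk' N) _).trans (dvd_of_eq (Subgroup.orderOf_coe z))
    have h2 : orderOf ((z : G) : G ⧸ N) ∣ p ^ k :=
      (orderOf_dvd_natCard _).trans (dvd_of_eq hk)
    exact Nat.eq_one_of_dvd_coprimes (hzp.pow_right k) h1 h2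
  have hZN : ∀ w ∈ Z, (w : G) ∈ N := fun w hw => by
    obtain ⟨j, rfl⟩ := Subgroup.mem_zpowers_iff.1 hw
    rw [SubgroupClass.coe_zpow]
    exact N.zpow_mem hzN j
  -- into the Sylow group
  obtain ⟨T, hT⟩ := (Q.2.map E.subtype).exists_le_sylow
  obtain ⟨a, ha⟩ := MulAction.exists_smul_eq G T P
  have hQP : ∀ q ∈ (Q : Subgroup E), a * (q : G) * a⁻¹ ∈ (P : Subgroup G) := fun q hq => by
    rw [← ha]
    show a * (q : G) * a⁻¹ ∈ (T : Subgroup G).map (MulAut.conj a).toMonoidHom
    exact ⟨(q : G), hT ⟨q, hq, rfl⟩, rfl⟩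
  let ι : (Q : Subgroup E) →* (P : Subgroup G) :=
    ((MulAut.conj a).toMonoidHom.comp (E.subtype.comp (Q : Subgroup E).subtype)).codRestrict _
      fun q => hQP q q.2
  haveI hcom : IsMulCommutative ↥((P : Subgroup G) ⊓ N) :=
    ⟨⟨fun u v => Subtype.ext (hcent _ u.2 _ v.2.1)⟩⟩
  -- the character on the intersection
  let D : Subgroup G := E ⊓ N
  letI : Fintype D := Fintype.ofFinite _
  have hDab : ∀ x y : D, x * y = y * x := by
    intro x y
    obtain ⟨⟨xz, xq⟩, hx⟩ := hbij.2 ⟨(x : G), x.2.1⟩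
    obtain ⟨⟨yz, yq⟩, hy⟩ := hbij.2 ⟨(y : G), y.2.1⟩
    have hmemN : ∀ (v : D) (vz : Z) (vq : (Q : Subgroup E)), f (vz, vq) = ⟨(v : G), v.2.1⟩ →
        ((vq : E) : G) ∈ N := fun v vz vq hv => by
      have h : ((vz : E) : G) * ((vq : E) : G) = v := congrArg Subtype.val hv
      rw [eq_inv_mul_of_mul_eq h]
      exact N.mul_mem (N.inv_mem (hZN _ vz.2)) v.2.2
    have hq : (xq : E) * (yq : E) = (yq : E) * (xq : E) := by
      have h := hcent _ ⟨hQP _ xq.2, hN.conj_mem _ (hmemN x xz xq hx) a⟩ _ (hQP _ yq.2)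
      apply Subtype.ext
      rw [Subgroup.coe_mul, Subgroup.coe_mul]
      calc ((xq : E) : G) * ((yq : E) : G)
          = a⁻¹ * ((a * (xq : E) * a⁻¹) * (a * (yq : E) * a⁻¹)) * a := by group
        _ = a⁻¹ * ((a * (yq : E) * a⁻¹) * (a * (xq : E) * a⁻¹)) * a := by rw [h]
        _ = _ := by group
    have hzz : ∀ (w : Z) (b : E), b * (w : E) = (w : E) * b := fun w b => by
      obtain ⟨j, hj⟩ := Subgroup.mem_zpowers_iff.1 w.2
      rw [← hj]
      exact Subgroup.mem_center_iff.1 (Subgroup.zpow_mem _ hzc j) _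
    have hxy : f (xz, xq) * f (yz, yq) = f (yz, yq) * f (xz, xq) := by
      rw [← map_mul, ← map_mul]
      refine congrArg f (Prod.ext (Subtype.ext ?_) (Subtype.ext hq))
      exact (hzz xz (yz : E)).symm
    rw [hx, hy] at hxy
    exact Subtype.ext (congrArg (Subtype.val : E → G) hxy :)
  obtain ⟨φh, hφh⟩ := Chars.exists_hom_of_degree_one (Chars.irr_isCharacter φ)
    (Chars.irr_apply_one_of_comm hDab φ.2)
  -- the linear character of Q extending φ
  let Q0 : Subgroup (Q : Subgroup E) := N.comap (E.subtype.comp (Q : Subgroup E).subtype)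
  let ι0 : Q0 →* ↥((P : Subgroup G) ⊓ N) :=
    ((P : Subgroup G).subtype.comp (ι.comp Q0.subtype)).codRestrict _
      fun q => ⟨hQP _ (q : (Q : Subgroup E)).2, hN.conj_mem _ q.2 a⟩
  have hι0 : Function.Injective ι0 := by
    intro q r h
    have h' : a * (((q : (Q : Subgroup E)) : E) : G) * a⁻¹ =
        a * (((r : (Q : Subgroup E)) : E) : G) * a⁻¹ := congrArg Subtype.val h
    exact Subtype.ext (Subtype.ext (Subtype.ext (mul_left_cancel (mul_right_cancel h'))))
  let j0 : Q0 →* D := (E.subtype.comp ((Q : Subgroup E).subtype.comp Q0.subtype)).codRestrict _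
    fun q => ⟨((q : (Q : Subgroup E)) : E).2, q.2⟩
  let e0 := MonoidHom.ofInjective hι0
  obtain ⟨lam, hlam⟩ := MonoidHom.domRestrict_surjective (M := ℂ) ι0.range
    ((φh.comp j0).comp e0.symm.toMonoidHom)
  obtain ⟨μ, hμc, hμ1, hμ⟩ := hlin (fun x => (lam x : ℂ)) (Chars.isCharacter_hom lam)
    (by simp)
  obtain ⟨μh, rfl⟩ := Chars.exists_hom_of_degree_one hμc hμ1
  let zD : Z →* D := (E.subtype.comp Z.subtype).codRestrict _
    fun w => ⟨(w : E).2, hZN _ w.2⟩
  let η : E →* ℂˣ :=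
    (((φh.comp zD).comp (MonoidHom.fst _ _)) *
      ((μh.comp ι).comp (MonoidHom.snd _ _))).comp e.symm.toMonoidHom
  have hηval : ∀ x : D, η ⟨(x : G), x.2.1⟩ = φh x := by
    intro x
    obtain ⟨⟨xz, xq⟩, hx⟩ := hbij.2 ⟨(x : G), x.2.1⟩
    have hxe : e.symm ⟨(x : G), x.2.1⟩ = (xz, xq) := e.symm_apply_eq.2 hx.symm
    have h : ((xz : E) : G) * ((xq : E) : G) = x := congrArg Subtype.val hx
    have hqN : ((xq : E) : G) ∈ N := by
      rw [eq_inv_mul_of_mul_eq h]
      exact N.mul_mem (N.inv_mem (hZN _ xz.2)) x.2.2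
    set q0 : Q0 := ⟨xq, hqN⟩
    have hmu : μh (ι xq) = φh (j0 q0) := by
      have h1 := hμ (ι0 q0)
      have h2 : lam (ι0 q0) = φh (j0 q0) := by
        have h3 := congrFun (congrArg DFunLike.coe hlam) (e0 q0)
        simp only [MonoidHom.domRestrictHom_apply, MonoidHom.coe_comp, MulEquiv.coe_toMonoidHom,
          Function.comp_apply, MulEquiv.symm_apply_apply] at h3
        exact h3
      rw [h2] at h1
      exact Units.ext h1
    show φh (zD (e.symm ⟨(x : G), x.2.1⟩).1) * μh (ι (e.symm ⟨(x : G), x.2.1⟩).2) = _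
    rw [hxe, hmu, ← map_mul]
    exact congrArg φh (Subtype.ext h)
  -- induce
  letI : Fintype E := Fintype.ofFinite _
  have hind : classInner (fun n : N => indFun E (fun x => (η x : ℂ)) n) θ = (m : ℂ) := by
    have e1 : ∀ x : G, ∑ n : N, extendByZero E (fun x => (η x : ℂ)) (x⁻¹ * (n : G) * x) *
        conj (θ n) = ∑ n : N, extendByZero E (fun x => (η x : ℂ)) (n : G) * conj (θ n) := by
      intro x
      refine (Fintype.sum_equiv (MulAut.conjNormal x).toEquiv _ _ fun n => ?_).symm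
      have e : MulAut.conjNormal x n = (⟨x * n * x⁻¹, hN.conj_mem (n : G) n.2 x⟩ : N) :=
        Subtype.ext (MulAut.conjNormal_apply x n)
      rw [MulEquiv.toEquiv_eq_coe, EquivLike.coe_coe, e, hinv]
      congr 2
      simp [mul_assoc]
    have e2 : ∑ n : N, extendByZero E (fun x => (η x : ℂ)) (n : G) * conj (θ n) =
        ∑ x : D, (φ : D → ℂ) x * conj (θ ⟨(x : G), x.2.2⟩) := by
      rw [← Finset.sum_filter_of_ne (p := fun n : N => (n : G) ∈ E) fun n _ h => by
        by_contra hn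
        exact h (by rw [Chars.extendByZero_of_not_mem _ _ hn, zero_mul])]
      refine (Finset.sum_bij (fun (x : D) _ => (⟨(x : G), x.2.2⟩ : N))
        (fun (x : D) _ => Finset.mem_filter.2 ⟨Finset.mem_univ _, x.2.1⟩)
        (fun x _ y _ h => Subtype.ext (congrArg (Subtype.val : N → G) h))
        (fun n hn => ⟨⟨(n : G), (Finset.mem_filter.1 hn).2, n.2⟩, Finset.mem_univ _, rfl⟩)
        fun x _ => ?_).symm
      rw [Chars.extendByZero_of_mem E (fun x => (η x : ℂ)) x.2.1, hηval, hφh]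
    have hm' := hmult
    rw [Chars.classInner_def, inv_mul_eq_iff_eq_mul₀ Chars.card_ne_zero] at hm'
    have hm'' := congrArg (starRingEnd ℂ) hm'
    simp only [map_sum, map_mul, Complex.conj_conj, map_natCast] at hm''
    rw [Chars.classInner_def]
    simp only [Chars.indFun_apply, mul_assoc _ (∑ _x : G, _), Finset.sum_mul]
    rw [← Finset.mul_sum, Finset.sum_comm, Finset.sum_congr rfl fun x _ => e1 x, Finset.sum_const,
      Finset.card_univ, e2, nsmul_eq_mul, ← Nat.card_eq_fintype_card,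
      Finset.sum_congr rfl fun x _ => mul_comm _ _,
      show ∑ x : D, conj (θ ⟨(x : G), x.2.2⟩) * (φ : D → ℂ) x = (Nat.card D : ℂ) * m by
        convert hm'' using 2]
    have hc := congrArg (Nat.cast : ℕ → ℂ) (card_sup_inf E N)
    rw [htop, Subgroup.index_top, one_mul] at hc
    push_cast at hc ⊢
    field_simp [Chars.card_ne_zero]
    linear_combination (m : ℂ) * hc
  obtain ⟨c, hc⟩ := exists_multiplicities
    (Chars.isCharacter_indFun E (Chars.isCharacter_hom η))
  choose b hb using fun χ : IrrCharacter G => Chars.exists_classInner_eq_nat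
    (Chars.isCharacter_restrict (Chars.irr_isCharacter χ) N) (Chars.isCharacter_of_isIrr hθ)
  have hcl := Chars.isClassFunction_of_isCharacter
    (Chars.isCharacter_indFun E (Chars.isCharacter_hom η))
  have hsum : m = ∑ χ : IrrCharacter G, c χ * b χ := by
    apply Nat.cast_injective (R := ℂ)
    push_cast
    rw [← hind, show (fun n : N => indFun E (fun x => (η x : ℂ)) n) =
      ∑ χ : IrrCharacter G, (c χ : ℂ) • (fun n : N => (χ : G → ℂ) n) from ?_,
      Chars.classInner_sum_left]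
    · simp only [Chars.classInner_smul_left, hb]
    · funext n
      rw [apply_eq_sum hcl (n : G), Finset.sum_apply]
      simp only [hc, Pi.smul_apply, smul_eq_mul]
  obtain ⟨χ, hχ⟩ : ∃ χ : IrrCharacter G, ¬ p ∣ b χ := by
    by_contra hall
    push Not at hall
    exact hm (hsum ▸ Finset.dvd_sum fun χ _ => Dvd.dvd.mul_left (hall χ) _)
  have hb0 : b χ ≠ 0 := fun h => hχ (h ▸ dvd_zero p)
  have hcon : classInner (fun n : N => (χ : G → ℂ) n) θ ≠ 0 := by
    rw [hb]; exact_mod_cast hb0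
  have hres : ∀ n : N, (χ : G → ℂ) n = (b χ : ℂ) * θ n := fun n => by
    rw [clifford_invariant χ.2 hθ (inertiaSub_eq_top hinv) hcon n, hb]
  have hdvd := (BlockChar.degree_ratio_dvd (θ := (⟨θ, hθ⟩ : IrrCharacter N)) hcon).2
  have hdeg : charDegree (χ : G → ℂ) = b χ * charDegree θ := by
    apply Nat.cast_injective (R := ℂ)
    rw [Nat.cast_mul, BlockChar.charDegree_cast (Chars.irr_isCharacter χ),
      BlockChar.charDegree_cast (Chars.isCharacter_of_isIrr hθ), ← hres 1, OneMemClass.coe_one]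
  rw [hk] at hdvd
  change charDegree (χ : G → ℂ) / charDegree θ ∣ p ^ k at hdvd
  rw [hdeg, Nat.mul_div_cancel _ (BlockChar.charDegree_pos hθ)] at hdvd
  have hb1 : b χ = 1 := by
    obtain ⟨j, -, hj⟩ := (Nat.dvd_prime_pow hp.out).1 hdvd
    rcases j with _ | j
    · rw [hj, pow_zero]
    · exact absurd (hj ▸ dvd_pow_self p (Nat.succ_ne_zero j)) hχ
  exact ⟨χ, χ.2, fun n => by rw [hres, hb1, Nat.cast_one, one_mul]⟩

end Cfsg.Agent.Chars2
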