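import Cfsg.Agent.Blocks.Defect
import Cfsg.Agent.BlockChar.Reduce

/-!
Blocks of a given defect are determined by the central characters on the classes of that defect.
-/

set_option autoImplicit false
set_option linter.unusedSectionVars false
set_option linter.style.haveILetI false

namespace Cfsg.Agent.Chars2

open Cfsg Cfsg.Agent Cfsg.Agent.Blocks

universe u

variable {G : Type u} [Group G] [Fintype G] {p : ℕ} [Fact p.Prime] {M : Ideal AlgInt} [M.IsMaximal]

/-- A unit central character forces a centralizer of at least the block's defect. -/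
theorem defect_le_of_central (hpM : (p : AlgInt) ∈ M) {B : Set (IrrCharacter G)}
    (hB : IsPBlock M B) {χ : IrrCharacter G} (hχ : χ ∈ B) {g : G}
    (h : ¬ MemLocalIdeal M (centralChar (χ : G → ℂ) g)) :
    blockDefect p B ≤ (Nat.card (Subgroup.centralizer ({g} : Set G))).factorization p := by
  obtain ⟨χ₀, hχ₀⟩ := block_nonempty hB
  obtain ⟨ψ, hψ, hmin⟩ := Nat.sInf_mem (Set.Nonempty.image
    (fun χ : IrrCharacter G => (charDegree (χ : G → ℂ)).factorization p)
    (show B.Nonempty from ⟨χ₀, hχ₀⟩))
  have h1 : ¬ MemLocalIdeal M (centralChar (ψ : G → ℂ) g) := fun h1 => h (by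
    simpa using memI_add (sameBlock_of_mem hB hχ hψ g) h1)
  have h2 := factorization_index_le hpM ψ h1
  simp only at hmin
  rw [hmin] at h2
  have h3 := index_factorization (p := p) g
  unfold blockDefect
  omega

/-- A unit coefficient forces a centralizer of at most the block's defect. -/
theorem coeff_le_defect (hpM : (p : AlgInt) ∈ M) {B : Set (IrrCharacter G)}
    (hB : IsPBlock M B) {g : G} (h : ¬ MemLocalIdeal M (blockCoeff B g)) :
    ¬ p ∣ orderOf g ∧
      (Nat.card (Subgroup.centralizer ({g} : Set G))).factorization p ≤ blockDefect p B := by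
  refine ⟨fun hp => h (by rw [blockCoeff_eq_zero_of_dvd hpM hB hp]; exact memI_zero), ?_⟩
  obtain ⟨D, hD⟩ := exists_isDefectGroup hpM hB
  obtain ⟨Q, hQ⟩ := exists_isSylowIn (p := p) (Subgroup.centralizer ({g} : Set G))
  obtain ⟨x, hx⟩ := le_defect_of_coeff hpM hB hD h hQ.2.1 (le_centralizer_singleton_iff.1 hQ.1)
  have h1 := Subgroup.card_dvd_of_le hx
  rw [card_conjSub, hQ.2.2, card_defectGroup hpM hB hD] at h1
  exact (Nat.pow_dvd_pow_iff_le_right (Fact.out : p.Prime).one_lt).1 h1

theorem defect_congr_of_classes (hpM : (p : AlgInt) ∈ M) {χ ψ : IrrCharacter G} {d : ℕ}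
    (hχ : blockDefect p (blockOf M (χ : G → ℂ)) = d)
    (hψ : blockDefect p (blockOf M (ψ : G → ℂ)) = d)
    (h : ∀ x : G, ¬ p ∣ orderOf x →
      (Nat.card (Subgroup.centralizer ({x} : Set G))).factorization p = d →
      MemLocalIdeal M (centralChar (χ : G → ℂ) x - centralChar (ψ : G → ℂ) x)) :
    SameBlock M (χ : G → ℂ) (ψ : G → ℂ) := by
  classical
  by_contra hne
  set B := blockOf M (χ : G → ℂ) with hBdef
  have hB := isPBlock_blockOf (M := M) χ
  have hec := isClassFunction_blockCoeff B
  have h1 := omega_blockCoeff_mem (G := G) (mem_blockOf_self (M := M) χ)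
  have h0 := omega_blockCoeff_not_mem (G := G) (B := B) (χ := ψ) hne
  rw [omega_eq_sum_clsFun (Chars.isClassFunction_irr _) hec] at h0 h1
  have hI : MemLocalIdeal M ((1 : ℂ) - 0) := by
    rw [← h0, ← h1, ← Finset.sum_sub_distrib]
    refine memI_sum _ _ fun C _ => ?_
    rw [← mul_sub]
    set g := clsRep C
    by_cases he : MemLocalIdeal M (blockCoeff B g)
    · exact memI_mul_right he (memR_sub (centralChar_memR hpM χ g) (centralChar_memR hpM ψ g))
    refine memI_mul_left (rFun_blockCoeff hpM hB g) ?_
    obtain ⟨hr, hle⟩ := coeff_le_defect hpM hB he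
    rw [hχ] at hle
    rcases hle.eq_or_lt with heq | hlt
    · exact h g hr heq
    · refine memI_sub ?_ ?_
      · by_contra hc
        have := defect_le_of_central (B := B) hpM hB (mem_blockOf_self χ) hc
        omega
      · by_contra hc
        have := defect_le_of_central hpM (isPBlock_blockOf ψ) (mem_blockOf_self ψ) hc
        omega
  rw [sub_zero] at hI
  exact not_memI_one hI

/-- The number of blocks of defect `σ` is at most the number of regular classes of defect `σ`. -/
theorem card_blocks_defect_le (hpM : (p : AlgInt) ∈ M) (σ : ℕ) :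
    Nat.card {B : Set (IrrCharacter G) // IsPBlock M B ∧ blockDefect p B = σ} ≤
      Nat.card {C : ConjClasses G // ∃ g : G, ConjClasses.mk g = C ∧ ¬ p ∣ orderOf g ∧
        (Nat.card (Subgroup.centralizer ({g} : Set G))).factorization p = σ} := by
  classical
  set ι := {B : Set (IrrCharacter G) // IsPBlock M B ∧ blockDefect p B = σ}
  set S := {C : ConjClasses G // ∃ g : G, ConjClasses.mk g = C ∧ ¬ p ∣ orderOf g ∧
    (Nat.card (Subgroup.centralizer ({g} : Set G))).factorization p = σ}
  have hne : ∀ B : ι, ∃ χ : IrrCharacter G, χ ∈ B.1 := fun B => block_nonempty B.2.1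
  choose rep hrep using hne
  haveI : Fintype ι := Fintype.ofInjective rep fun B B' h =>
    Subtype.ext (blocks_eq_of_inter B.2.1 B'.2.1 (hrep B) (h ▸ hrep B'))
  haveI : Fintype S := Fintype.ofFinite S
  let A : Matrix ι S (Res M) := Matrix.of fun B C =>
    BlockChar.res M (blockCoeff B.1 (clsRep C.1))
  let W : Matrix S ι (Res M) := Matrix.of fun C B =>
    BlockChar.res M (centralChar (rep B : G → ℂ) (clsRep C.1))
  have hAW : A * W = 1 := by
    ext B B'
    have hec := isClassFunction_blockCoeff B.1
    have hom : omega (rep B' : G → ℂ) (blockCoeff B.1) = if B = B' then 1 else 0 := by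
      split_ifs with hb
      · subst hb; exact omega_blockCoeff_mem (hrep B)
      · exact omega_blockCoeff_not_mem fun hm =>
          hb (Subtype.ext (blocks_eq_of_inter B.2.1 B'.2.1 hm (hrep B')))
    rw [omega_eq_sum_clsFun (Chars.isClassFunction_irr _) hec] at hom
    have hR : ∀ C : ConjClasses G, MemLocalRing M
        (blockCoeff B.1 (clsRep C) * centralChar (rep B' : G → ℂ) (clsRep C)) := fun C =>
      memR_mul (rFun_blockCoeff hpM B.2.1 _) (centralChar_memR hpM _ _)
    have h1 := congrArg (BlockChar.res M) hom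
    rw [BlockChar.res_sum _ _ (fun C _ => hR C), apply_ite (BlockChar.res M), BlockChar.res_one,
      BlockChar.res_zero] at h1
    rw [Matrix.mul_apply, Matrix.one_apply, ← h1]
    rw [← Finset.sum_subset (Finset.subset_univ ((Finset.univ : Finset S).map
      ⟨Subtype.val, Subtype.val_injective⟩)) (fun C _ hC => ?_)]
    · rw [Finset.sum_map]
      refine Finset.sum_congr rfl fun C _ => ?_
      simp only [A, W, Matrix.of_apply, Function.Embedding.coeFn_mk]
      exact (BlockChar.res_mul (rFun_blockCoeff hpM B.2.1 _) (centralChar_memR hpM _ _)).symm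
    · rw [BlockChar.res_eq_zero_iff (hR C)]
      set g := clsRep C with hg
      by_cases he : MemLocalIdeal M (blockCoeff B.1 g)
      · exact memI_mul_right he (centralChar_memR hpM _ _)
      refine memI_mul_left (rFun_blockCoeff hpM B.2.1 _) ?_
      by_contra hc
      obtain ⟨hr, hle⟩ := coeff_le_defect hpM B.2.1 he
      have hge := defect_le_of_central hpM B'.2.1 (hrep B') hc
      rw [B.2.2] at hle
      rw [B'.2.2] at hge
      exact hC (Finset.mem_map.2 ⟨⟨C, g, mk_clsRep C, hr, le_antisymm hle hge⟩, Finset.mem_univ _, rfl⟩)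
  have hinj : Function.Injective W.mulVecLin := fun x y hxy => by
    have hxy' : W.mulVec x = W.mulVec y := hxy
    have := congrArg A.mulVec hxy'
    rwa [Matrix.mulVec_mulVec, Matrix.mulVec_mulVec, hAW, Matrix.one_mulVec, Matrix.one_mulVec] at this
  have := LinearMap.finrank_le_finrank_of_injective hinj
  rw [Module.finrank_fintype_fun_eq_card, Module.finrank_fintype_fun_eq_card] at this
  rwa [Nat.card_eq_fintype_card, Nat.card_eq_fintype_card]

end Cfsg.Agent.Chars2
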