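import Cfsg.Agent.BlockChar.SubsectionHeight
import Cfsg.Agent.BlockChar.RankBounds
import Cfsg.Agent.Blocks.FirstMain
import Cfsg.Agent.Chars2.KleinBlock

/-!
`2`-blocks of defect one.
-/

set_option autoImplicit false
set_option linter.unusedSectionVars false
set_option linter.style.haveILetI false

namespace Cfsg.Agent.Chars2

open Cfsg Cfsg.Agent Cfsg.Agent.Blocks Cfsg.Agent.BlockChar
open scoped ComplexConjugate

universe u

variable {G : Type u} [Group G] [Fintype G] {M : Ideal AlgInt} [M.IsMaximal]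

/-- A `2`-block of defect one has exactly two characters. -/
theorem exists_pair_defect_one (h2M : ((2 : ℕ) : AlgInt) ∈ M) {B : Set (IrrCharacter G)}
    (hB : IsPBlock M B) (hd : blockDefect 2 B = 1) {χ : IrrCharacter G} (hχ : χ ∈ B) :
    Nat.card B = 2 ∧ ∃ ψ : IrrCharacter G, ψ ∈ B ∧ χ ≠ ψ ∧ ∀ φ ∈ B, φ = χ ∨ φ = ψ := by
  classical
  haveI : Fact (Nat.Prime 2) := ⟨Nat.prime_two⟩
  have hle := card_le_of_defect h2M hB
  rw [hd] at hle
  rw [show (2 : ℕ) ^ (2 * 1) = 4 from rfl] at hle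
  have hne : Nat.card B ≠ 1 := by
    intro h1
    have hB1 : B = {χ} := by
      rw [Nat.card_coe_set_eq, Set.ncard_eq_one] at h1
      obtain ⟨a, rfl⟩ := h1
      rw [Set.mem_singleton_iff.1 hχ]
    have hrk : blockRank 2 B = 1 := by
      rw [hB1, blockRank, Set.image_singleton, finrank_span_singleton]
      intro h
      have := congrFun h 1
      simp [pRegularPart, IsPRegular, Chars.irr_apply_one_ne_zero χ.2] at this
    have := (rank_le_card_and_defect_zero h2M hB).2.1.2 ⟨h1, hrk⟩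
    omega
  have hpos : 0 < Nat.card B := Nat.card_pos_iff.2 ⟨⟨⟨χ, hχ⟩⟩, inferInstance⟩
  have h2 : Nat.card B = 2 := by omega
  refine ⟨h2, ?_⟩
  rw [card_bf] at h2
  obtain ⟨a, b, hab, hS⟩ := Finset.card_eq_two.1 h2
  have hmem : ∀ φ, φ ∈ B ↔ φ = a ∨ φ = b := fun φ => by
    rw [← mem_bf, hS]; simp
  rcases (hmem χ).1 hχ with rfl | rfl
  · exact ⟨b, (hmem b).2 (Or.inr rfl), hab, fun φ hφ => (hmem φ).1 hφ⟩
  · exact ⟨a, (hmem a).2 (Or.inl rfl), hab.symm, fun φ hφ => ((hmem φ).1 hφ).symm⟩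

/-- Two characters of a block with opposite values at a `2`-element agree on the odd elements. -/
theorem pair_orth (h2M : ((2 : ℕ) : AlgInt) ∈ M) {B : Set (IrrCharacter G)} (hB : IsPBlock M B)
    {χ ψ : IrrCharacter G} (hχ : χ ∈ B) (hψ : ψ ∈ B) (hne : χ ≠ ψ)
    (hall : ∀ φ ∈ B, φ = χ ∨ φ = ψ) {y t : G} (hy : ¬ 2 ∣ orderOf y) (ht : 2 ∣ orderOf t) :
    (χ : G → ℂ) y * conj ((χ : G → ℂ) t) + (ψ : G → ℂ) y * conj ((ψ : G → ℂ) t) = 0 := by
  classical
  haveI : Fact (Nat.Prime 2) := ⟨Nat.prime_two⟩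
  have h := block_orth_weak (M := M) h2M hB hy ht
  have e : Finset.univ.filter (· ∈ B) = {χ, ψ} := by
    ext φ
    simp only [Finset.mem_filter, Finset.mem_univ, true_and, Finset.mem_insert,
      Finset.mem_singleton]
    exact ⟨hall φ, by rintro (rfl | rfl) <;> assumption⟩
  rw [e, Finset.sum_pair hne] at h
  exact h

/-- `2`-blocks with a defect group of order two. -/
theorem defect_one_two (h2M : ((2 : ℕ) : AlgInt) ∈ M) {x : G} (hx : orderOf x = 2)
    {B : Set (IrrCharacter G)} (hB : IsPBlock M B)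
    (hBD : IsDefectGroup 2 M B (Subgroup.zpowers x))
    {H : Subgroup G} [Fintype H] (hH : H = Subgroup.centralizer ({x} : Set G))
    {b : Set (IrrCharacter H)} (hb : IsInducedBlock M H b B) {θ : IrrCharacter H} (hθ : θ ∈ b)
    (hθx : ∀ z : H, (z : G) = x → (θ : H → ℂ) z = (θ : H → ℂ) 1) :
    Nat.card B = 2 ∧ (∀ χ ∈ B, ∀ ψ ∈ B, ∀ g : G, ¬ 2 ∣ orderOf g →
        (χ : G → ℂ) g = (ψ : G → ℂ) g) ∧
      ∃ χ₁ ∈ B, ∃ χ₂ ∈ B, χ₁ ≠ χ₂ ∧ ∃ ε₁ ε₂ : ℤ, (ε₁ = 1 ∨ ε₁ = -1) ∧ (ε₂ = 1 ∨ ε₂ = -1) ∧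
        ε₁ * ε₂ = -1 ∧ ∀ y : H, ¬ 2 ∣ orderOf y →
          (χ₁ : G → ℂ) (x * y) = (ε₁ : ℂ) * (θ : H → ℂ) y ∧
          (χ₂ : G → ℂ) (x * y) = (ε₂ : ℂ) * (θ : H → ℂ) y := by
  classical
  haveI : Fact (Nat.Prime 2) := ⟨Nat.prime_two⟩
  have hu : ∃ k : ℕ, orderOf x = 2 ^ k := ⟨1, by rw [hx, pow_one]⟩
  have hP : IsPGroup 2 (Subgroup.zpowers x) :=
    IsPGroup.of_card (n := 1) (by rw [Nat.card_zpowers, hx, pow_one])
  have hd : blockDefect 2 B = 1 := by
    have h := card_defectGroup h2M hB hBD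
    rw [Nat.card_zpowers, hx] at h
    exact Nat.pow_right_injective le_rfl (by simpa using h.symm)
  have hxH : x ∈ H := hH ▸ Subgroup.mem_centralizer_singleton_iff.2 rfl
  have hzH : Subgroup.zpowers x ≤ H := Subgroup.zpowers_le.2 hxH
  have hN : Subgroup.normalizer ((Subgroup.zpowers x : Subgroup G) : Set G) = H := by
    rw [hH]
    refine le_antisymm (fun g hg => ?_) ?_
    · rw [Subgroup.mem_centralizer_singleton_iff]
      have h := (Subgroup.mem_normalizer_iff.1 hg x).1 (Subgroup.mem_zpowers x)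
      obtain ⟨j, hj⟩ := Subgroup.mem_zpowers_iff.1 h
      have hxx : x ^ (2 : ℤ) = 1 := by rw [zpow_two, ← pow_two, ← hx, pow_orderOf_eq_one]
      rcases Int.even_or_odd j with ⟨i, rfl⟩ | ⟨i, rfl⟩
      · exfalso
        have hx2 : x ^ (i + i) = 1 := by
          rw [← two_mul, zpow_mul, hxx, one_zpow]
        rw [hx2] at hj
        have h1 : x = 1 := conj_eq_one_iff.1 hj.symm
        rw [h1, orderOf_one] at hx
        norm_num at hx
      · have hx2 : x ^ (2 * i + 1) = x := by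
          rw [zpow_add, zpow_mul, hxx, one_zpow, one_mul, zpow_one]
        rw [hx2] at hj
        exact (mul_inv_eq_iff_eq_mul.1 hj.symm)
    · rw [← Subgroup.centralizer_closure, ← Subgroup.zpowers_eq_closure]
      exact centralizer_le_normalizer _
  -- every block of `H` inducing `B` has defect group the involution's
  have hdef : ∀ b' : Set (IrrCharacter H), IsInducedBlock M H b' B →
      IsDefectGroup 2 M b' ((Subgroup.zpowers x).subgroupOf H) := by
    intro b' hb'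
    obtain ⟨D, hD⟩ := exists_isDefectGroup (p := 2) h2M hb'.1
    have hn : ((Subgroup.zpowers x).subgroupOf H).Normal := by
      subst hN
      infer_instance
    have hle := le_defect_of_normal h2M hb'.1 hD hn
      (hP.comap_of_injective H.subtype Subtype.val_injective)
    obtain ⟨E, hE, hmap⟩ := map_defect_le h2M H hb' hD
    have hcE : Nat.card E = 2 := by rw [card_defectGroup h2M hB hE, hd, pow_one]
    have hcP : Nat.card ((Subgroup.zpowers x).subgroupOf H) = 2 := by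
      rw [Nat.card_congr (Subgroup.subgroupOfEquivOfLe hzH).toEquiv, Nat.card_zpowers, hx]
    have hcD : Nat.card D ≤ 2 := by
      rw [← hcE, ← Subgroup.card_map_of_injective (f := H.subtype) Subtype.val_injective]
      exact Subgroup.card_le_of_le hmap
    rwa [Subgroup.eq_of_le_of_card_ge hle (by rw [hcP]; exact hcD)]
  -- the first main theorem
  have huniq : ∀ b' : Set (IrrCharacter H), IsInducedBlock M H b' B → b' = b := by
    intro b' hb'
    subst hN
    exact ((first_main h2M _).2 B hB hBD).unique ⟨hb'.1, hdef b' hb', hb'⟩ ⟨hb.1, hdef b hb, hb⟩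
  have hdb : blockDefect 2 b = 1 := by
    have h := card_defectGroup h2M hb.1 (hdef b hb)
    rw [Nat.card_congr (Subgroup.subgroupOfEquivOfLe hzH).toEquiv, Nat.card_zpowers, hx] at h
    exact Nat.pow_right_injective le_rfl (by simpa using h.symm)
  obtain ⟨-, θ', hθ', hθne, hball⟩ := exists_pair_defect_one h2M hb.1 hdb hθ
  set z : H := ⟨x, hxH⟩ with hz
  have hzo : orderOf z = 2 := by rw [← Subgroup.orderOf_coe]; exact hx
  have hz2 : z ^ 2 ^ 1 = 1 := by rw [pow_one, ← hzo, pow_orderOf_eq_one]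
  have hzc : ∀ c : H, z * c = c * z := fun c => Subtype.ext (commute_sec hH c).eq
  choose ζ hζk hζ using fun φ : IrrCharacter H =>
    exists_central_scalar (p := 2) h2M hz2 hzc φ
  have hζpm : ∀ φ, ζ φ = 1 ∨ ζ φ = -1 := fun φ => by
    have := hζk φ
    rw [pow_one, pow_two] at this
    exact mul_self_eq_one_iff.1 this
  have hval : ∀ φ : IrrCharacter H, (φ : H → ℂ) z = ζ φ * (φ : H → ℂ) 1 := fun φ => by
    rw [← hζ φ 1, mul_one]
  have hdeg : ∀ φ : IrrCharacter H, (φ : H → ℂ) 1 = (charDegree (φ : H → ℂ) : ℂ) :=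
    fun φ => (Blocks.charDegree_eq φ.2).1
  have hpair := fun (y : H) (hy : ¬ 2 ∣ orderOf y) =>
    pair_orth h2M hb.1 hθ hθ' hθne hball hy (t := z) (by rw [hzo])
  have hθ1 : (θ : H → ℂ) z = (θ : H → ℂ) 1 := hθx z rfl
  have h11 := hpair 1 (by rw [orderOf_one]; norm_num)
  rw [hθ1, hval θ', map_mul, hdeg θ, hdeg θ', map_natCast, map_natCast] at h11
  have hpos := (Blocks.charDegree_eq θ.2).2
  rcases hζpm θ' with hζ' | hζ'
  · exfalso
    rw [hζ', map_one, one_mul] at h11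
    have : charDegree (θ : H → ℂ) * charDegree (θ : H → ℂ) +
        charDegree (θ' : H → ℂ) * charDegree (θ' : H → ℂ) = 0 := by exact_mod_cast h11
    nlinarith
  have hdd : charDegree (θ' : H → ℂ) = charDegree (θ : H → ℂ) := by
    rw [hζ', map_neg, map_one] at h11
    have h3 : ((charDegree (θ : H → ℂ) : ℤ) * charDegree (θ : H → ℂ) : ℤ) =
        (charDegree (θ' : H → ℂ) : ℤ) * charDegree (θ' : H → ℂ) := by
      have h4 : ((charDegree (θ : H → ℂ) : ℂ)) * charDegree (θ : H → ℂ) =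
          (charDegree (θ' : H → ℂ) : ℂ) * charDegree (θ' : H → ℂ) := by linear_combination h11
      exact_mod_cast h4
    nlinarith
  have hreg : ∀ s : H, ¬ 2 ∣ orderOf s → (θ' : H → ℂ) s = (θ : H → ℂ) s := by
    intro s hs
    have h := hpair s hs
    rw [hθ1, hval θ', hζ', hdeg θ, hdeg θ', hdd, map_mul, map_neg, map_one, map_natCast] at h
    have hne : (charDegree (θ : H → ℂ) : ℂ) ≠ 0 := Nat.cast_ne_zero.2 hpos.ne'
    apply mul_right_cancel₀ hne
    linear_combination -h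
  -- the values of a character of `B` on the section
  have hres : ∀ χ : IrrCharacter G, IsCharacter H (fun h : H => (χ : G → ℂ) h) := fun χ =>
    Chars.isCharacter_restrict (Chars.irr_isCharacter χ) H
  choose n hn using fun (χ : IrrCharacter G) (φ : IrrCharacter H) =>
    Chars.exists_classInner_eq_nat (hres χ) (Chars.irr_isCharacter φ)
  have ha : ∀ (χ : IrrCharacter G) (φ : IrrCharacter H),
      classInner (fun c : H => (χ : G → ℂ) (x * (c : G))) (φ : H → ℂ) = (n χ φ : ℂ) * ζ φ := by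
    intro χ φ
    rw [← hn χ φ, Chars.classInner_def, Chars.classInner_def, mul_assoc, Finset.sum_mul]
    congr 1
    refine Fintype.sum_equiv (Equiv.mulLeft z) _ _ fun c => ?_
    show (χ : G → ℂ) (x * (c : G)) * conj ((φ : H → ℂ) c) =
      (χ : G → ℂ) (x * (c : G)) * conj ((φ : H → ℂ) (z * c)) * ζ φ
    rw [hζ φ, map_mul]
    rcases hζpm φ with h | h <;> rw [h] <;> simp
  have hbf : bf b = {θ, θ'} := by
    ext φ
    simp only [mem_bf, Finset.mem_insert, Finset.mem_singleton]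
    exact ⟨hball φ, by rintro (rfl | rfl) <;> assumption⟩
  set a : IrrCharacter G → ℤ := fun χ => (n χ θ : ℤ) - (n χ θ' : ℤ) with hadef
  have hζθ : ζ θ = 1 := by
    have h := hval θ
    rw [hθ1] at h
    exact (mul_left_eq_self₀.1 h.symm).resolve_right (Chars.irr_apply_one_ne_zero θ.2)
  have hsec : ∀ (χ : IrrCharacter G) (s : H), ¬ 2 ∣ orderOf s →
      secPart x b χ s = (a χ : ℂ) * (θ : H → ℂ) s := by
    intro χ s hs
    rw [secPart, blockPart, finsum_mem_bf, hbf, Finset.sum_pair hθne]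
    have e1 := ha χ θ
    have e2 := ha χ θ'
    simp only [Chars.classInner_congr_fintype (Fintype.ofFinite H) inferInstance]
    rw [e1, e2, hζθ, hζ', hreg s hs]
    simp only [a]
    push_cast
    ring
  have hxy : ∀ χ ∈ B, ∀ s : H, ¬ 2 ∣ orderOf s →
      (χ : G → ℂ) (x * (s : G)) = (a χ : ℂ) * (θ : H → ℂ) s := by
    intro χ hχ s hs
    rw [← sum_sec_eq hH hu h2M χ s, Finset.sum_eq_single b, hsec χ s hs]
    · intro b' hb' hne
      obtain ⟨B', hB'⟩ := induced_defined_sec hH hu h2M (mem_blockFinset.1 hb')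
      refine secPart_eq_zero hH hu h2M hB' (fun hmem => hne (huniq b' ?_)) hs
      rwa [← blocks_eq_of_inter hB'.2.1 hB hmem hχ]
    · exact fun h => absurd (mem_blockFinset.2 hb.1) h
  -- the two signs
  obtain ⟨χ₁, hχ₁⟩ := block_nonempty hB
  obtain ⟨hcard, χ₂, hχ₂, hne12, hall⟩ := exists_pair_defect_one h2M hB hd hχ₁
  have h1o : ¬ 2 ∣ orderOf (1 : H) := by rw [orderOf_one]; norm_num
  have hBf : bf B = {χ₁, χ₂} := by
    ext φ
    simp only [mem_bf, Finset.mem_insert, Finset.mem_singleton]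
    exact ⟨hall φ, by rintro (rfl | rfl) <;> assumption⟩
  have hsum : a χ₁ * a χ₁ + a χ₂ * a χ₂ = 2 := by
    have h := sum_sec_block hH hu h2M hb hb.1 h1o h1o
    rw [if_pos rfl, kerB, hBf, hbf, Finset.sum_pair hne12, Finset.sum_pair hθne,
      hsec χ₁ 1 h1o, hsec χ₂ 1 h1o, hdeg θ, hdeg θ', hdd] at h
    simp only [map_mul, map_intCast, map_natCast] at h
    have hne : (charDegree (θ : H → ℂ) : ℂ) * charDegree (θ : H → ℂ) ≠ 0 :=
      mul_ne_zero (Nat.cast_ne_zero.2 hpos.ne') (Nat.cast_ne_zero.2 hpos.ne')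
    have h' : ((a χ₁ : ℂ) * a χ₁ + (a χ₂ : ℂ) * a χ₂) = ((2 : ℤ) : ℂ) := by
      apply mul_right_cancel₀ hne
      push_cast
      linear_combination h
    exact_mod_cast h'
  have hrelx : ∀ g : G, ¬ 2 ∣ orderOf g →
      (a χ₁ : ℂ) * (χ₁ : G → ℂ) g + (a χ₂ : ℂ) * (χ₂ : G → ℂ) g = 0 := by
    intro g hg
    have h := pair_orth h2M hB hχ₁ hχ₂ hne12 hall hg (t := x) (by rw [hx])
    have e1 := hxy χ₁ hχ₁ 1 h1o
    have e2 := hxy χ₂ hχ₂ 1 h1o
    rw [OneMemClass.coe_one, mul_one] at e1 e2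
    rw [e1, e2, hdeg θ] at h
    simp only [map_mul, map_intCast, map_natCast] at h
    apply mul_right_cancel₀ (Nat.cast_ne_zero.2 hpos.ne' : (charDegree (θ : H → ℂ) : ℂ) ≠ 0)
    linear_combination h
  have hpm : (a χ₁ = 1 ∨ a χ₁ = -1) ∧ (a χ₂ = 1 ∨ a χ₂ = -1) := by
    have b1 : -1 ≤ a χ₁ := by nlinarith [mul_self_nonneg (a χ₂)]
    have b2 : a χ₁ ≤ 1 := by nlinarith [mul_self_nonneg (a χ₂)]
    have b3 : -1 ≤ a χ₂ := by nlinarith [mul_self_nonneg (a χ₁)]
    have b4 : a χ₂ ≤ 1 := by nlinarith [mul_self_nonneg (a χ₁)]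
    generalize a χ₁ = u at *
    generalize a χ₂ = v at *
    interval_cases u <;> interval_cases v <;> simp at hsum ⊢
  have hprod : a χ₁ * a χ₂ = -1 := by
    have h := hrelx 1 (by rw [orderOf_one]; norm_num)
    rw [(Blocks.charDegree_eq χ₁.2).1, (Blocks.charDegree_eq χ₂.2).1] at h
    have h1 : a χ₁ * (charDegree (χ₁ : G → ℂ) : ℤ) + a χ₂ * (charDegree (χ₂ : G → ℂ) : ℤ) = 0 := by
      exact_mod_cast h
    have p1 := (Blocks.charDegree_eq χ₁.2).2
    have p2 := (Blocks.charDegree_eq χ₂.2).2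
    rcases hpm.1 with e | e <;> rcases hpm.2 with e' | e' <;> rw [e, e'] at h1 ⊢ <;> omega
  have hagree : ∀ g : G, ¬ 2 ∣ orderOf g → (χ₁ : G → ℂ) g = (χ₂ : G → ℂ) g := by
    intro g hg
    have h := hrelx g hg
    rcases hpm.1 with e | e <;> rcases hpm.2 with e' | e' <;> rw [e, e'] at hprod h <;>
      push_cast at h <;>
      first
        | linear_combination h
        | linear_combination -h
        | omega
  refine ⟨hcard, fun χ hχ ψ hψ g hg => ?_, χ₁, hχ₁, χ₂, hχ₂, hne12, a χ₁, a χ₂, hpm.1, hpm.2,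
    hprod, fun y hy => ⟨hxy χ₁ hχ₁ y hy, hxy χ₂ hχ₂ y hy⟩⟩
  rcases hall χ hχ with rfl | rfl <;> rcases hall ψ hψ with rfl | rfl <;>
    first
      | rfl
      | exact hagree g hg
      | exact (hagree g hg).symm

end Cfsg.Agent.Chars2
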