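import Cfsg.Agent.Chars2.FongVanish
import Cfsg.Agent.Core.PiSeparable
import Cfsg.Agent.Blocks.Orth

/-!
Fong: above an invariant character of `O_{p'}(G)`, `G` p-solvable, there is one block, of full
defect.
-/

set_option autoImplicit false
set_option linter.style.haveILetI false
set_option linter.unusedSectionVars false

namespace Cfsg.Agent.Chars2

open Cfsg Cfsg.Agent
open scoped ComplexConjugate

universe u

variable {G : Type u} [Group G] [Fintype G] {p : ℕ} [Fact p.Prime] {M : Ideal AlgInt} [M.IsMaximal]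

/-- Two characters of the same block agree on the `p`-regular classes, and conversely. -/
theorem sameBlock_of_regular (hpM : (p : AlgInt) ∈ M) (χ ψ : IrrCharacter G)
    (h : ∀ g : G, ¬ p ∣ orderOf g →
      MemLocalIdeal M (centralChar (χ : G → ℂ) g - centralChar (ψ : G → ℂ) g)) :
    SameBlock M (χ : G → ℂ) (ψ : G → ℂ) := by
  classical
  by_contra hne
  have hB := Blocks.isPBlock_blockOf (M := M) χ
  have h1 := Blocks.omega_blockCoeff_mem (G := G) (Blocks.mem_blockOf_self (M := M) χ)
  have h0 := Blocks.omega_blockCoeff_not_mem (G := G) (B := blockOf M (χ : G → ℂ)) (χ := ψ) hne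
  have hec := Blocks.isClassFunction_blockCoeff (blockOf M (χ : G → ℂ))
  rw [Blocks.omega_eq_sum_clsFun (Chars.isClassFunction_irr _) hec] at h0 h1
  have hI : MemLocalIdeal M ((1 : ℂ) - 0) := by
    rw [← h0, ← h1, ← Finset.sum_sub_distrib]
    refine Blocks.memI_sum _ _ fun C _ => ?_
    rw [← mul_sub]
    by_cases hC : p ∣ orderOf (Blocks.clsRep C)
    · rw [Blocks.blockCoeff_eq_zero_of_dvd hpM hB hC, zero_mul]; exact Blocks.memI_zero
    · exact Blocks.memI_mul_left (Blocks.rFun_blockCoeff hpM hB _) (h _ hC)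
  rw [sub_zero] at hI
  exact Blocks.not_memI_one hI

/-- Central characters at `p`-regular elements outside `O_{p'}`. -/
theorem centralChar_memI_outside (hpM : (p : AlgInt) ∈ M) (hsolv : IsPSolvable p G)
    (N : Subgroup G) [N.Normal] [Fintype N] (hN : N = pPrimeCore p G) (θ : IrrCharacter N)
    (hinv : inertiaSub (θ : N → ℂ) = ⊤) (χ : IrrCharacter G)
    (hcon : classInner (fun m : N => (χ : G → ℂ) m) (θ : N → ℂ) ≠ 0)
    {x : G} (hx : ¬ p ∣ orderOf x) (hxN : x ∉ N) :
    MemLocalIdeal M (centralChar (χ : G → ℂ) x) := by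
  classical
  have hpp : p.Prime := Fact.out
  have hNp : ¬ p ∣ Nat.card N := by
    have h := Core.card_pPrimeCore_coprime p G
    rw [← hN] at h
    exact fun hd => hpp.ne_one (Nat.eq_one_of_dvd_coprimes h hd dvd_rfl)
  have hq : pPrimeCore p (G ⧸ N) = ⊥ := by
    subst hN
    exact Core.pPrimeCore_quotient_pPrimeCore p G
  set O := pCore p (G ⧸ N) with hO
  haveI hOn : O.Normal := inferInstance
  have hOp : IsPGroup p O := Core.isPGroup_pCore p (G ⧸ N)
  have hC := Core.centralizer_pCore_le (Core.isPSolvable_quotient hsolv N) hq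
  set K0 := O.comap (QuotientGroup.mk' N) with hK0
  haveI : K0.Normal := hOn.comap _
  have hNK : N ≤ K0 := fun m hm => by
    rw [hK0, Subgroup.mem_comap, QuotientGroup.mk'_apply, (QuotientGroup.eq_one_iff m).2 hm]
    exact O.one_mem
  let S : Sylow p K0 := default
  set Q := (S : Subgroup K0).map K0.subtype with hQdef
  have hQp : IsPGroup p Q := S.2.map _
  have hQK : Q ≤ K0 := Subgroup.map_subtype_le _
  obtain ⟨a, ha⟩ := hOp.exists_card_eq
  have hK0c : Nat.card K0 = Nat.card N * p ^ a := by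
    have h1 := N.index_mul_card
    have h2 : K0.index = O.index :=
      Subgroup.index_comap_of_surjective O (QuotientGroup.mk'_surjective N)
    have h3 := O.index_mul_card
    rw [ha, ← Subgroup.index_eq_card] at h3
    have h4 := K0.index_mul_card
    rw [h2, ← h1, ← h3] at h4
    have h5 : O.index ≠ 0 := Subgroup.index_ne_zero_of_finite
    refine Nat.eq_of_mul_eq_mul_left (Nat.pos_of_ne_zero h5) ?_
    rw [h4]; ring
  have hQc : Nat.card Q = p ^ a := by
    rw [hQdef, Nat.card_congr ((S : Subgroup K0).equivMapOfInjective K0.subtype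
      K0.subtype_injective).symm.toEquiv, S.card_eq_multiplicity, hK0c,
      Nat.factorization_mul Nat.card_pos.ne' (pow_ne_zero _ hpp.ne_zero), Finsupp.add_apply,
      Nat.factorization_eq_zero_of_not_dvd hNp, Nat.Prime.factorization_pow hpp,
      Finsupp.single_eq_same, zero_add]
  have hsup : N ⊔ Q = K0 := by
    refine Subgroup.eq_of_le_of_card_ge (sup_le hNK hQK) ?_
    rw [hK0c]
    refine Nat.le_of_dvd Nat.card_pos (Nat.Coprime.mul_dvd_of_dvd_of_dvd ?_ ?_ ?_)
    · exact (((Nat.Prime.coprime_iff_not_dvd hpp).2 hNp).pow_left a).symm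
    · exact Subgroup.card_dvd_of_le le_sup_left
    · exact hQc ▸ Subgroup.card_dvd_of_le le_sup_right
  refine centralChar_memI_of_no_conj hpM N hNp Q hQp (hsup.symm ▸ inferInstance) θ hinv χ hcon x ?_
  intro y hxy hy
  obtain ⟨c, rfl⟩ := isConj_iff.1 hxy
  set y := c * x * c⁻¹ with hydef
  have hyo : ¬ p ∣ orderOf y := by
    rw [hydef, ← MulAut.conj_apply, MulEquiv.orderOf_eq]; exact hx
  have hbar : (QuotientGroup.mk' N y) ∈ O := by
    refine hC ?_
    rw [Subgroup.mem_centralizer_iff]
    intro o ho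
    obtain ⟨z, rfl⟩ := QuotientGroup.mk'_surjective N o
    have hz : z ∈ N ⊔ Q := by rw [hsup]; exact ho
    obtain ⟨q, hq, m, hm, rfl⟩ := Subgroup.mem_sup_of_normal_right.1 (sup_comm N Q ▸ hz)
    rw [map_mul, show QuotientGroup.mk' N m = 1 from (QuotientGroup.eq_one_iff m).2 hm, mul_one,
      ← map_mul, ← map_mul, Subgroup.mem_centralizer_iff.1 hy q hq]
  obtain ⟨j, hj⟩ := (IsPGroup.iff_orderOf.1 hOp) ⟨_, hbar⟩
  rw [Subgroup.orderOf_mk] at hj
  have hd : p ^ j ∣ orderOf y := hj ▸ orderOf_map_dvd _ y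
  have hj0 : j = 0 := by
    by_contra h
    exact hyo ((dvd_pow_self p h).trans hd)
  rw [hj0, pow_zero, orderOf_eq_one_iff] at hj
  refine hxN ?_
  have hyN : y ∈ N := (QuotientGroup.eq_one_iff y).1 hj
  have := ‹N.Normal›.conj_mem _ hyN c⁻¹
  simpa [hydef, mul_assoc] using this

/-- One block of full defect above an invariant character, when the central characters vanish
modulo `M` at the regular elements outside the normal `p'`-subgroup. -/
theorem fong_block_of_outside (hpM : (p : AlgInt) ∈ M) (N : Subgroup G) [N.Normal]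
    [Fintype N] (hNp : ¬ p ∣ Nat.card N) (θ : IrrCharacter N)
    (hinv : inertiaSub (θ : N → ℂ) = ⊤)
    (hout : ∀ χ : IrrCharacter G, classInner (fun n : N => (χ : G → ℂ) n) (θ : N → ℂ) ≠ 0 →
      ∀ {x : G}, ¬ p ∣ orderOf x → x ∉ N → MemLocalIdeal M (centralChar (χ : G → ℂ) x)) :
    ∃ B : Set (IrrCharacter G), IsPBlock M B ∧
      (∀ χ : IrrCharacter G, χ ∈ B ↔ classInner (fun n : N => (χ : G → ℂ) n) (θ : N → ℂ) ≠ 0) ∧
      (∀ P : Sylow p G, IsDefectGroup p M B (P : Subgroup G)) ∧
      ∀ D : Subgroup G, IsDefectGroup p M B D → ∃ P : Sylow p G, D = (P : Subgroup G) := by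
  classical
  have hpp : p.Prime := Fact.out
  obtain ⟨d, hd0, hd, hdvd⟩ := Chars.irr_degree_dvd_card θ.2
  have hpd : ¬ p ∣ d := fun h => hNp (h.trans hdvd)
  -- an irreducible character over θ
  obtain ⟨χ₀, hχ₀⟩ : ∃ χ : IrrCharacter G,
      classInner (fun n : N => (χ : G → ℂ) n) (θ : N → ℂ) ≠ 0 := by
    obtain ⟨m, hm⟩ := exists_multiplicities (Chars.isCharacter_indFun N (Chars.irr_isCharacter θ))
    by_contra hall
    push Not at hall
    have h := apply_eq_sum (Chars.isClassFunction_indFun N (θ : N → ℂ)) 1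
    simp only [Chars.classInner_indFun N _ (Chars.isClassFunction_irr _)] at h
    have h2 : ∀ χ : IrrCharacter G,
        classInner (θ : N → ℂ) (fun n : N => (χ : G → ℂ) n) = 0 := fun χ => by
      rw [← Chars.classInner_conj_symm, hall χ, map_zero]
    simp only [h2, zero_mul, Finset.sum_const_zero, Chars.indFun_apply_one] at h
    exact mul_ne_zero (Nat.cast_ne_zero.2 N.index_ne_zero_of_finite)
      (Chars.irr_apply_one_ne_zero θ.2) h
  have hval : ∀ χ : IrrCharacter G,
      classInner (fun n : N => (χ : G → ℂ) n) (θ : N → ℂ) ≠ 0 →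
      ∀ n : N, centralChar (χ : G → ℂ) (n : G) =
        ((Subgroup.centralizer ({(n : G)} : Set G)).index : ℂ) * ((θ : N → ℂ) n / d) := by
    intro χ hχ n
    have h1 := clifford_invariant χ.2 θ.2 hinv hχ n
    have h2 := clifford_invariant χ.2 θ.2 hinv hχ 1
    simp only [Subgroup.coe_one] at h2
    rw [centralChar, h1, h2, hd, mul_div_assoc, mul_div_mul_left _ _ hχ]
  set B := blockOf M (χ₀ : G → ℂ) with hBdef
  have hB : IsPBlock M B := Blocks.isPBlock_blockOf χ₀
  have hover : ∀ χ : IrrCharacter G,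
      χ ∈ B ↔ classInner (fun n : N => (χ : G → ℂ) n) (θ : N → ℂ) ≠ 0 := by
    intro χ
    constructor
    · intro hχ h0
      -- the idempotent of θ separates
      set f : G → ℂ := Cfsg.extendByZero N (Blocks.eFun (θ : N → ℂ)) with hf
      have hfv : ∀ m : N, f m = Blocks.eFun (θ : N → ℂ) m := fun m =>
        Chars.extendByZero_coe N _ m
      have hfc : IsClassFunction G f := by
        intro g c
        by_cases hg : g ∈ N
        · have hg' := ‹N.Normal›.conj_mem g hg c
          rw [hfv ⟨g, hg⟩, hfv ⟨_, hg'⟩]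
          have h := congrFun (mem_inertiaSub.1 (hinv ▸ Subgroup.mem_top c⁻¹ :
            c⁻¹ ∈ inertiaSub (θ : N → ℂ))) ⟨g, hg⟩
          rw [conjFun_apply] at h
          simp only [inv_inv] at h
          simp only [Blocks.eFun, h]
        · have hg' : c * g * c⁻¹ ∉ N := fun h => hg (by
            simpa [mul_assoc] using ‹N.Normal›.conj_mem _ h c⁻¹)
          rw [hf, Chars.extendByZero_of_not_mem N _ hg, Chars.extendByZero_of_not_mem N _ hg']
      have hfR : Blocks.RFun M f := by
        intro g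
        by_cases hg : g ∈ N
        · rw [hfv ⟨g, hg⟩, Blocks.eFun, hd, ← Chars.char_inv_eq_conj (Chars.irr_isCharacter θ)]
          refine Blocks.memR_mul (Blocks.memR_inv_natCast hpM hNp)
            (Blocks.memR_mul (Blocks.memR_natCast d) ?_)
          exact Blocks.memR_of_algInt (M := M)
            ⟨_, Chars.isIntegral_of_isCharacter (Chars.irr_isCharacter θ) _⟩
        · rw [hf, Chars.extendByZero_of_not_mem N _ hg]; exact Blocks.memR_zero
      have hω : ∀ χ : IrrCharacter G, Blocks.omega (χ : G → ℂ) f =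
          (d : ℂ) * classInner (fun n : N => (χ : G → ℂ) n) (θ : N → ℂ) / (χ : G → ℂ) 1 := by
        intro χ
        rw [Blocks.omega, hf, Chars.sum_extendByZero_mul, Chars.classInner_def, Finset.mul_sum,
          Finset.mul_sum]
        congr 1
        refine Finset.sum_congr rfl fun m _ => ?_
        rw [Blocks.eFun, hd]; ring
      have h := Blocks.omega_congr (Blocks.sameBlock_of_mem hB
        (Blocks.mem_blockOf_self χ₀) hχ) hfc hfR
      rw [hω, hω, h0, mul_zero, zero_div, sub_zero] at h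
      have h2 := clifford_invariant χ₀.2 θ.2 hinv hχ₀ 1
      simp only [Subgroup.coe_one] at h2
      rw [h2, hd, mul_comm (d : ℂ), div_self (mul_ne_zero hχ₀ (Nat.cast_ne_zero.2 hd0.ne'))] at h
      exact Blocks.not_memI_one h
    · intro hχ
      refine sameBlock_of_regular hpM χ₀ χ fun g hg => ?_
      by_cases hgN : g ∈ N
      · rw [hval χ₀ hχ₀ ⟨g, hgN⟩, hval χ hχ ⟨g, hgN⟩, sub_self]; exact Blocks.memI_zero
      · exact Blocks.memI_sub (hout χ₀ hχ₀ hg hgN)
          (hout χ hχ hg hgN)
  -- defect classes have full Sylow subgroups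
  have hfull : ∀ g : G, IsDefectClass M B g →
      (Nat.card (Subgroup.centralizer ({g} : Set G))).factorization p =
        (Nat.card G).factorization p := by
    intro g hg
    have hgr := Blocks.isPRegular_of_isDefectClass hpM hB hg
    have hne := hg.2.2 χ₀ (Blocks.mem_blockOf_self χ₀)
    have hgN : g ∈ N := by
      by_contra hgN
      exact hne (hout χ₀ hχ₀ hgr hgN)
    rw [hval χ₀ hχ₀ ⟨g, hgN⟩] at hne
    have hR : MemLocalRing M ((θ : N → ℂ) ⟨g, hgN⟩ / d) := by
      rw [div_eq_mul_inv]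
      exact Blocks.memR_mul (Blocks.memR_of_algInt (M := M)
        ⟨_, Chars.isIntegral_of_isCharacter (Chars.irr_isCharacter θ) _⟩) (Blocks.memR_inv_natCast hpM hpd)
    have hi : ¬ p ∣ (Subgroup.centralizer ({g} : Set G)).index := fun h =>
      hne (Blocks.memI_mul_right ((Blocks.memI_natCast_iff hpM _).2 h) hR)
    have := Blocks.index_factorization (p := p) g
    rw [Nat.factorization_eq_zero_of_not_dvd hi, zero_add] at this
    exact this
  have hsyl : ∀ D : Subgroup G, IsDefectGroup p M B D → ∃ P : Sylow p G, D = (P : Subgroup G) := by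
    intro D hD
    obtain ⟨g, hg, hgD⟩ := Blocks.isDefectGroup_iff.1 hD
    have hc : Nat.card D = p ^ (Nat.card G).factorization p := by rw [hgD.2.2, hfull g hg]
    exact ⟨Sylow.ofCard D hc, (Sylow.coe_ofCard D hc).symm⟩
  refine ⟨B, hB, hover, fun P => ?_, hsyl⟩
  obtain ⟨D, hD⟩ := Blocks.exists_isDefectGroup hpM hB
  obtain ⟨P', hP'⟩ := hsyl D hD
  obtain ⟨c, hc⟩ := MulAction.exists_smul_eq G P' P
  have h := Blocks.isDefectGroup_conj hD c
  convert h using 1
  rw [← hc, hP', Sylow.coe_subgroup_smul]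
  ext y
  rw [Blocks.mem_conjSub, Subgroup.mem_pointwise_smul_iff_inv_smul_mem]
  simp [MulAut.smul_def]

/-- Fong's theorem. -/
theorem fong_block (hpM : (p : AlgInt) ∈ M) (hsolv : IsPSolvable p G) (N : Subgroup G) [N.Normal]
    [Fintype N] (hN : N = pPrimeCore p G) (θ : IrrCharacter N)
    (hinv : inertiaSub (θ : N → ℂ) = ⊤) :
    ∃ B : Set (IrrCharacter G), IsPBlock M B ∧
      (∀ χ : IrrCharacter G, χ ∈ B ↔ classInner (fun n : N => (χ : G → ℂ) n) (θ : N → ℂ) ≠ 0) ∧
      (∀ P : Sylow p G, IsDefectGroup p M B (P : Subgroup G)) ∧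
      ∀ D : Subgroup G, IsDefectGroup p M B D → ∃ P : Sylow p G, D = (P : Subgroup G) := by
  have hNp : ¬ p ∣ Nat.card N := by
    have h := Core.card_pPrimeCore_coprime p G
    rw [← hN] at h
    exact fun hd => (Fact.out : p.Prime).ne_one (Nat.eq_one_of_dvd_coprimes h hd dvd_rfl)
  exact fong_block_of_outside hpM N hNp θ hinv fun χ hχ _ hx hxN =>
    centralChar_memI_outside hpM hsolv N hN θ hinv χ hχ hx hxN

end Cfsg.Agent.Chars2
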