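import Cfsg.Agent.Chars2.TwistScalar
import Cfsg.Agent.Chars2.SmallDegree
import Mathlib.GroupTheory.Transfer

/-!
Feit–Thompson: large primes have normal Sylow subgroups in linear groups.
-/

set_option autoImplicit false
set_option linter.style.haveILetI false
set_option linter.unusedSectionVars false
set_option linter.unusedVariables false

namespace Cfsg.Agent.Chars2

open Cfsg Cfsg.Agent
open scoped IsMulCommutative

universe u

/-- The hypothesis on the subgroups with small `p`-part. -/
def LargePrime (p n : ℕ) (G : Type u) [Group G] : Prop :=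
  (n + 1) ^ 2 ≤ p ∨
    (n + 1 < p ∧ ∀ K : Subgroup G, ¬ p ^ 2 ∣ Nat.card K → ∀ Q : Sylow p K, (Q : Subgroup K).Normal)

section

variable {p : ℕ} [hp : Fact p.Prime] {G : Type u} [Group G] [Fintype G]

theorem normal_sylow_of_equiv {A B : Type*} [Group A] [Group B] [Finite A] [Finite B] (e : A ≃* B)
    (h : ∀ Q : Sylow p A, (Q : Subgroup A).Normal) (Q : Sylow p B) : (Q : Subgroup B).Normal := by
  have hle : (Q : Subgroup B) ≤ e.toMonoidHom.range := fun b _ => ⟨e.symm b, e.apply_symm_apply b⟩
  set R : Sylow p A := Q.comapOfInjective e.toMonoidHom e.injective hle with hR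
  have h1 := (h R).map e.toMonoidHom e.surjective
  have h2 : (R : Subgroup A).map e.toMonoidHom = (Q : Subgroup B) := by
    rw [hR]
    exact Subgroup.map_comap_eq_self hle
  rwa [h2] at h1

theorem largePrime_subgroup {n : ℕ} (h : LargePrime p n G) (H : Subgroup G) :
    LargePrime p n H := by
  refine h.imp id fun ⟨h1, h2⟩ => ⟨h1, fun K hK Q => ?_⟩
  have e := (Subgroup.equivMapOfInjective K H.subtype H.subtype_injective)
  refine normal_sylow_of_equiv e.symm (h2 _ ?_) Q
  rwa [Subgroup.card_map_of_injective H.subtype_injective]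

theorem lt_of_largePrime {n : ℕ} (h : LargePrime p n G) (hn : n ≠ 0) : n + 1 < p := by
  rcases h with h | ⟨h, -⟩
  · nlinarith [Nat.pos_of_ne_zero hn]
  · exact h

theorem le_normal_sylow {A : Type*} [Group A] [Finite A] {Q : Subgroup A} (hQ : IsPGroup p Q)
    (S : Sylow p A) (hS : (S : Subgroup A).Normal) : Q ≤ (S : Subgroup A) := by
  letI := Sylow.unique_of_normal S hS
  obtain ⟨R, hR⟩ := hQ.exists_le_sylow
  rwa [Subsingleton.elim R S] at hR

/-- In a subgroup with normal Sylow groups, all `p`-elements lie in each contained Sylow group. -/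
theorem mem_of_normal_sylow (H : Subgroup G) (hH : ∀ Q : Sylow p H, (Q : Subgroup H).Normal)
    (A : Sylow p G) (hA : (A : Subgroup G) ≤ H) {y : G} (hy : y ∈ H) {j : ℕ}
    (hj : y ^ p ^ j = 1) : y ∈ (A : Subgroup G) := by
  haveI := hH (A.subtype hA)
  have hz : IsPGroup p (Subgroup.zpowers (⟨y, hy⟩ : H)) := by
    refine IsPGroup.of_card (n := ?_) ?_
    rotate_left
    · rw [Nat.card_zpowers]
      exact ((Nat.dvd_prime_pow hp.out).1 (orderOf_dvd_of_pow_eq_one
        (Subtype.ext hj : (⟨y, hy⟩ : H) ^ p ^ j = 1))).choose_spec.2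
  have h1 := le_normal_sylow hz (A.subtype hA) inferInstance
  have h2 := h1 (Subgroup.mem_zpowers (⟨y, hy⟩ : H))
  rwa [Sylow.coe_subtype, Subgroup.mem_subgroupOf] at h2

end

theorem large_prime_aux (p : ℕ) [hp : Fact p.Prime] (n : ℕ) (hn : n ≠ 0) (m : ℕ) :
    ∀ (G : Type u) [Group G] [Fintype G], Nat.card G ≤ m → LargePrime p n G →
      ∀ (χ : G → ℂ), IsCharacter G χ → (∀ g, χ g = χ 1 → g = 1) → χ 1 = n →
        ∀ P : Sylow p G, (P : Subgroup G).Normal := by
  induction m with
  | zero => intro G _ _ hc; exact absurd hc (by have := Nat.card_pos (α := G); omega)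
  | succ m ih =>
  intro G _ _ hcard hL χ hχ hfaith hn1 P
  classical
  have hpn : n + 1 < p := lt_of_largePrime hL hn
  have hsub : ∀ H : Subgroup G, H ≠ ⊤ → ∀ Q : Sylow p H, (Q : Subgroup H).Normal := by
    intro H hH
    have : Fintype H := Fintype.ofFinite H
    have hlt : Nat.card H < Nat.card G :=
      lt_of_le_of_ne (Subgroup.card_le_card_group H) fun h => hH (Subgroup.eq_top_of_card_eq H h)
    exact ih H (by omega) (largePrime_subgroup hL H) (fun x : H => χ x)
      (Chars.isCharacter_restrict hχ H) (fun x hx => Subtype.ext (hfaith _ (by simpa using hx)))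
      (by simpa using hn1)
  have hab : ∀ A : Sylow p G, ∀ x ∈ (A : Subgroup G), ∀ y ∈ (A : Subgroup G), x * y = y * x :=
    fun A => Chars.comm_of_pgroup_of_degree_lt hχ hfaith hn1 (by omega) _ A.2
  obtain ⟨c, hc⟩ := exists_multiplicities hχ
  have hcl := Chars.isClassFunction_of_isCharacter hχ
  have hval : ∀ g, χ g = ∑ ψ : IrrCharacter G, (c ψ : ℂ) * (ψ : G → ℂ) g := fun g => by
    rw [apply_eq_sum hcl g]; simp only [hc]
  choose d hd0 hd using fun ψ : IrrCharacter G => Chars.exists_irr_apply_one_eq ψ.2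
  have hdle : ∀ ψ : IrrCharacter G, c ψ ≠ 0 → d ψ ≤ n := by
    intro ψ hψ
    have h1 : (n : ℂ) = ((∑ φ : IrrCharacter G, c φ * d φ : ℕ) : ℂ) := by
      rw [← hn1, hval]
      push_cast
      simp only [hd]
    rw [Nat.cast_inj] at h1
    rw [h1]
    exact (Nat.le_mul_of_pos_left _ (Nat.pos_of_ne_zero hψ)).trans
      (Finset.single_le_sum (f := fun φ : IrrCharacter G => c φ * d φ) (fun _ _ => Nat.zero_le _)
        (Finset.mem_univ ψ))
  have hcomm1 : ∀ a b : G, (∀ ψ : IrrCharacter G, c ψ ≠ 0 →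
      (ψ : G → ℂ) (a * b * a⁻¹ * b⁻¹) = (ψ : G → ℂ) 1) → a * b = b * a := by
    intro a b h
    have h1 : a * b * a⁻¹ * b⁻¹ = 1 := hfaith _ (by
      rw [hval, hval]
      refine Finset.sum_congr rfl fun ψ _ => ?_
      rcases eq_or_ne (c ψ) 0 with h0 | h0
      · rw [h0, Nat.cast_zero, zero_mul, zero_mul]
      · rw [h ψ h0])
    calc a * b = a * b * a⁻¹ * b⁻¹ * (b * a) := by group
      _ = _ := by rw [h1, one_mul]
  by_cases hA : ∃ M : Subgroup G, M.Normal ∧ M ≠ ⊤ ∧ (P : Subgroup G) ≤ M
  · obtain ⟨M, hMn, hMt, hPM⟩ := hA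
    have := Sylow.characteristic_of_normal (P.subtype hPM : Sylow p M) (hsub M hMt _)
    have h2 : (((P.subtype hPM : Sylow p M) : Subgroup M).map M.subtype).Normal := inferInstance
    rwa [Sylow.coe_subtype, Subgroup.subgroupOf_map_subtype, inf_eq_left.2 hPM] at h2
  push Not at hA
  have htop : ∀ M : Subgroup G, M.Normal → (P : Subgroup G) ≤ M → M = ⊤ := fun M h1 h2 =>
    by_contra fun h => hA M h1 h h2
  by_cases hperf : commutator G = ⊤
  · -- the perfect case
    by_contra hnot
    have hPZ : (P : Subgroup G) ⊓ Subgroup.center G = ⊥ := by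
      rw [eq_bot_iff]
      rintro z ⟨hz, hzc⟩
      rw [Subgroup.mem_bot]
      haveI : IsMulCommutative (P : Subgroup G) :=
        ⟨⟨fun a b => Subtype.ext (hab P _ a.2 _ b.2)⟩⟩
      let f := MonoidHom.transfer (MonoidHom.id (P : Subgroup G))
      have hf : f z = 1 := by
        have : z ∈ commutator G := hperf ▸ Subgroup.mem_top z
        exact Abelianization.commutator_subset_ker f this
      have key : ∀ (k : ℕ) (g₀ : G), g₀⁻¹ * z ^ k * g₀ ∈ (P : Subgroup G) →
          g₀⁻¹ * z ^ k * g₀ = z ^ k := fun k g₀ _ => by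
        rw [mul_assoc, ← Subgroup.mem_center_iff.1 (Subgroup.pow_mem _ hzc k) g₀,
          inv_mul_cancel_left]
      have h1 := MonoidHom.transfer_eq_pow (MonoidHom.id (P : Subgroup G)) z key
      have h2 : z ^ (P : Subgroup G).index = 1 := by
        rw [hf] at h1
        exact (congrArg Subtype.val h1.symm :)
      obtain ⟨s, hs⟩ := IsPGroup.iff_card.1 P.2
      have h3 : z ^ p ^ s = 1 := by
        rw [← hs]
        exact congrArg Subtype.val (pow_card_eq_one' (x := (⟨z, hz⟩ : (P : Subgroup G))))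
      have h4 := Nat.dvd_gcd (orderOf_dvd_of_pow_eq_one h2) (orderOf_dvd_of_pow_eq_one h3)
      rw [Nat.Coprime.gcd_eq_one ((hp.out.coprime_iff_not_dvd.2 P.not_dvd_index).symm.pow_right s),
        Nat.dvd_one, orderOf_eq_one_iff] at h4
      exact h4
    have hcent : ∀ x ∈ (P : Subgroup G), ∀ a : G, x ≠ 1 →
        Subgroup.centralizer ({a * x * a⁻¹} : Set G) ≠ ⊤ := by
      intro x hx a hx1 he
      refine hx1 ?_
      have hm : x ∈ (P : Subgroup G) ⊓ Subgroup.center G := by
        refine ⟨hx, Subgroup.mem_center_iff.2 fun g => ?_⟩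
        have h1 : a * g * a⁻¹ ∈ Subgroup.centralizer ({a * x * a⁻¹} : Set G) := he ▸ Subgroup.mem_top _
        rw [Subgroup.mem_centralizer_singleton_iff] at h1
        calc g * x = a⁻¹ * (a * g * a⁻¹ * (a * x * a⁻¹)) * a := by group
          _ = a⁻¹ * (a * x * a⁻¹ * (a * g * a⁻¹)) * a := by rw [h1]
          _ = x * g := by group
      rwa [hPZ, Subgroup.mem_bot] at hm
    have hmap : ∀ a : G, ((a • P : Sylow p G) : Subgroup G) =
        (P : Subgroup G).map (MulAut.conj a).toMonoidHom := fun a => rfl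
    have hle : ∀ a : G, ∀ x ∈ (P : Subgroup G),
        ((a • P : Sylow p G) : Subgroup G) ≤ Subgroup.centralizer ({a * x * a⁻¹} : Set G) := by
      intro a x hx y hy
      exact Subgroup.mem_centralizer_singleton_iff.2
        (hab (a • P) y hy _ (by rw [hmap]; exact ⟨x, hx, rfl⟩))
    have hone : ∀ g : G, g ∉ Subgroup.center G → ∀ a b : G,
        Subgroup.centralizer ({g} : Set G) ⊓
          (P : Subgroup G).map (MulAut.conj a).toMonoidHom ≠ ⊥ →
        Subgroup.centralizer ({g} : Set G) ⊓
          (P : Subgroup G).map (MulAut.conj b).toMonoidHom ≠ ⊥ →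
        (P : Subgroup G).map (MulAut.conj a).toMonoidHom =
          (P : Subgroup G).map (MulAut.conj b).toMonoidHom := by
      intro g hg a b ha hb
      rw [← hmap a] at ha ⊢
      rw [← hmap b] at hb ⊢
      set Cg := Subgroup.centralizer ({g} : Set G) with hCg
      have hCgt : Cg ≠ ⊤ := fun he => hg (Subgroup.mem_center_iff.2 fun y =>
        Subgroup.mem_centralizer_singleton_iff.1 (he ▸ Subgroup.mem_top y : y ∈ Cg))
      obtain ⟨x, hx, hx1⟩ := ((Subgroup.bot_or_exists_ne_one _).resolve_left ha)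
      obtain ⟨y, hy, hy1⟩ := ((Subgroup.bot_or_exists_ne_one _).resolve_left hb)
      have hex : ∀ (a : G) (x : G), x ∈ ((a • P : Sylow p G) : Subgroup G) → x ≠ 1 →
          Subgroup.centralizer ({x} : Set G) ≠ ⊤ ∧
            ((a • P : Sylow p G) : Subgroup G) ≤ Subgroup.centralizer ({x} : Set G) ∧
            ∃ j : ℕ, x ^ p ^ j = 1 := by
        intro a x hx hx1
        rw [hmap] at hx
        obtain ⟨x₀, hx₀, rfl⟩ := hx
        refine ⟨?_, hle a x₀ hx₀, ?_⟩
        · exact hcent x₀ hx₀ a fun h => hx1 (by rw [h, map_one])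
        · obtain ⟨j, hj⟩ := P.2 ⟨x₀, hx₀⟩
          exact ⟨j, by rw [← map_pow, show x₀ ^ p ^ j = 1 from congrArg Subtype.val hj, map_one]⟩
      obtain ⟨hxt, hxle, i, hxi⟩ := hex a x hx.2 hx1
      obtain ⟨hyt, hyle, j, hyj⟩ := hex b y hy.2 hy1
      have hxy : y * x = x * y := by
        have hxp : (⟨x, hx.1⟩ : Cg) ^ p ^ i = 1 := Subtype.ext hxi
        obtain ⟨S, hS⟩ := (IsPGroup.of_card (p := p)
          (G := Subgroup.zpowers (⟨x, hx.1⟩ : Cg)) (by
            rw [Nat.card_zpowers]
            exact ((Nat.dvd_prime_pow hp.out).1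
              (orderOf_dvd_of_pow_eq_one hxp)).choose_spec.2)).exists_le_sylow
        obtain ⟨T, hT⟩ := (S.2.map Cg.subtype).exists_le_sylow
        haveI := hsub Cg hCgt S
        have hyS : (⟨y, hy.1⟩ : Cg) ∈ (S : Subgroup Cg) := by
          have hz : IsPGroup p (Subgroup.zpowers (⟨y, hy.1⟩ : Cg)) :=
            IsPGroup.of_card (by
              rw [Nat.card_zpowers]
              exact ((Nat.dvd_prime_pow hp.out).1 (orderOf_dvd_of_pow_eq_one
                (Subtype.ext hyj : (⟨y, hy.1⟩ : Cg) ^ p ^ j = 1))).choose_spec.2)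
          exact le_normal_sylow hz S inferInstance (Subgroup.mem_zpowers _)
        exact hab T y (hT ⟨_, hyS, rfl⟩) x (hT ⟨_, hS (Subgroup.mem_zpowers _), rfl⟩)
      have hyA : y ∈ ((a • P : Sylow p G) : Subgroup G) :=
        mem_of_normal_sylow _ (hsub _ hxt) (a • P) hxle
          (Subgroup.mem_centralizer_singleton_iff.2 hxy) hyj
      obtain ⟨-, hyle', -⟩ := hex a y hyA hy1
      refine le_antisymm (fun v hv => ?_) (fun v hv => ?_)
      · obtain ⟨-, -, l, hl⟩ : _ ∧ _ ∧ ∃ l : ℕ, v ^ p ^ l = 1 := by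
          obtain ⟨l, hl⟩ := (a • P).2 ⟨v, hv⟩
          exact ⟨trivial, trivial, l, congrArg Subtype.val hl⟩
        exact mem_of_normal_sylow _ (hsub _ hyt) (b • P) hyle (hyle' hv) hl
      · obtain ⟨l, hl⟩ := (b • P).2 ⟨v, hv⟩
        exact mem_of_normal_sylow _ (hsub _ hyt) (a • P) hyle' (hyle hv)
          (congrArg Subtype.val hl)
    obtain ⟨ψ, hψ, hψ1⟩ : ∃ ψ : IrrCharacter G, c ψ ≠ 0 ∧ d ψ ≠ 1 := by
      by_contra hall
      push Not at hall
      refine hnot ⟨fun u hu g => ?_⟩
      have hgu : g * u = u * g := hcomm1 g u fun φ hφ => by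
        obtain ⟨l, hl⟩ := Chars.exists_hom_of_degree_one (Chars.irr_isCharacter φ)
          (by rw [hd, hall φ hφ, Nat.cast_one])
        simp only [hl]
        simp
      rwa [hgu, mul_inv_cancel_right]
    have : Fintype (P : Subgroup G) := Fintype.ofFinite _
    have hb := ft_bound_succ (P : Subgroup G) (hab P) hPZ hone ψ.2 (hd ψ) hψ1 htop
    have hb2 : Nat.card P < (n + 1) ^ 2 :=
      lt_of_lt_of_le hb (by rw [add_comm]; exact Nat.pow_le_pow_left (by have := hdle ψ hψ; omega) 2)
    obtain ⟨s, hs⟩ := IsPGroup.iff_card.1 P.2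
    have hPne : (P : Subgroup G) ≠ ⊥ := fun h => hnot (by rw [h]; infer_instance)
    have hs0 : s ≠ 0 := fun h => hPne (Subgroup.card_eq_one.1 (by rw [hs, h, pow_zero]))
    rcases hL with h | ⟨h1, h2⟩
    · have := Nat.le_self_pow hs0 p
      rw [← hs] at this
      omega
    · by_cases hp2 : p ^ 2 ∣ Nat.card G
      · have h3 : p ^ 2 ∣ Nat.card P :=
          (Nat.Coprime.pow_left 2 ((hp.out.coprime_iff_not_dvd).2 P.not_dvd_index)).dvd_of_dvd_mul_right
            (by rwa [Subgroup.card_mul_index])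
        have h4 := Nat.le_of_dvd Nat.card_pos h3
        nlinarith
      · exact hnot (normal_sylow_of_equiv Subgroup.topEquiv (h2 ⊤ (by rwa [Subgroup.card_top])) P)
  · -- the group has a normal subgroup with abelian quotient
    set M := commutator G with hM
    haveI : M.Normal := by rw [hM]; infer_instance
    have hsup : M ⊔ (P : Subgroup G) = ⊤ := by
      refine htop _ ⟨fun k hk g => ?_⟩ le_sup_right
      have h1 : g * k * g⁻¹ * k⁻¹ ∈ M :=
        Subgroup.commutator_mem_commutator (Subgroup.mem_top g) (Subgroup.mem_top k)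
      have h2 := (M ⊔ (P : Subgroup G)).mul_mem (Subgroup.mem_sup_left h1) hk
      rwa [inv_mul_cancel_right] at h2
    set P0 : Subgroup M := (P : Subgroup G).subgroupOf M with hP0
    have hP0p : IsPGroup p P0 := P.2.comap_subtype
    have hP0i : ¬ p ∣ P0.index := by
      intro hdvd
      refine P.not_dvd_index (hdvd.trans (dvd_of_eq ?_))
      have h1 : M.relIndex ((P : Subgroup G) ⊔ M) = M.relIndex (P : Subgroup G) :=
        Subgroup.relIndex_sup_right _ _
      rw [sup_comm, hsup, Subgroup.relIndex_top_right] at h1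
      have e0 := Subgroup.card_mul_index P0
      have e1 := Subgroup.card_mul_index (P : Subgroup G)
      have e2 := Subgroup.card_mul_index M
      have e3 := Subgroup.card_mul_index (M.subgroupOf (P : Subgroup G))
      have e4 : Nat.card (M.subgroupOf (P : Subgroup G)) = Nat.card P0 := by
        rw [hP0, ← Subgroup.card_map_of_injective (K := M.subgroupOf (P : Subgroup G))
          (P : Subgroup G).subtype_injective, ← Subgroup.card_map_of_injective
          (K := (P : Subgroup G).subgroupOf M) M.subtype_injective,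
          Subgroup.subgroupOf_map_subtype, Subgroup.subgroupOf_map_subtype, inf_comm]
      rw [show (M.subgroupOf (P : Subgroup G)).index = M.index from h1.symm, e4] at e3
      refine Nat.eq_of_mul_eq_mul_left (Nat.card_pos (α := (P : Subgroup G))) ?_
      rw [e1, ← e2, ← e0, ← e3]
      ring
    let S : Sylow p M := hP0p.toSylow hP0i
    have hS : (S : Subgroup M) = P0 := IsPGroup.toSylow_coe hP0p hP0i
    have hSn := hsub M hperf S
    have hSc := Sylow.characteristic_of_normal S hSn
    have hcen : ∀ u ∈ (P : Subgroup G), u ∈ M → u ∈ Subgroup.center G := by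
      intro u hu huM
      set U := ((S : Subgroup M).map M.subtype) with hU
      haveI : U.Normal := by rw [hU]; infer_instance
      have hUe : U = (P : Subgroup G) ⊓ M := by
        rw [hU, hS, hP0, Subgroup.subgroupOf_map_subtype]
      have h1 : Subgroup.centralizer (U : Set G) = ⊤ := htop _ inferInstance fun v hv =>
        Subgroup.mem_centralizer_iff.2 fun w hw => hab P w (hUe.le hw).1 v hv
      refine Subgroup.mem_center_iff.2 fun g => ?_
      have h2 : g ∈ Subgroup.centralizer (U : Set G) := h1 ▸ Subgroup.mem_top g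
      exact (Subgroup.mem_centralizer_iff.1 h2 u (hUe.ge ⟨hu, huM⟩)).symm
    have hSN : Subgroup.normalizer ((S : Subgroup M) : Set M) ≤
        Subgroup.centralizer ((S : Subgroup M) : Set M) := fun x _ =>
      Subgroup.mem_centralizer_iff.2 fun v hv => by
        rw [SetLike.mem_coe, hS, hP0, Subgroup.mem_subgroupOf] at hv
        exact Subtype.ext (Subgroup.mem_center_iff.1 (hcen _ hv v.2) x).symm
    set K := (MonoidHom.transferSylow S hSN).ker with hK
    set O : Subgroup G := K.map M.subtype with hO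
    have hOp : ¬ p ∣ Nat.card O := by
      rw [hO, Subgroup.card_map_of_injective M.subtype_injective]
      exact MonoidHom.not_dvd_card_ker_transferSylow S hSN
    haveI hOn : O.Normal := ⟨fun o ho g => by
      obtain ⟨k, hk, rfl⟩ := ho
      have hmem : g * (k : G) * g⁻¹ ∈ M := ‹M.Normal›.conj_mem _ k.2 g
      refine ⟨⟨_, hmem⟩, ?_, rfl⟩
      show (MonoidHom.transferSylow S hSN) (⟨_, hmem⟩ : M) = 1
      set f := (MonoidHom.transferSylow S hSN) (⟨_, hmem⟩ : M)
      have h1 : orderOf (⟨_, hmem⟩ : M) = orderOf k := by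
        rw [← Subgroup.orderOf_coe, ← Subgroup.orderOf_coe k]
        exact (MulAut.conj g).orderOf_eq (k : G)
      obtain ⟨s, hs⟩ := IsPGroup.iff_card.1 S.2
      have h2 : orderOf f ∣ Nat.card K := ((orderOf_map_dvd _ _).trans (dvd_of_eq h1)).trans (by
        rw [← Subgroup.orderOf_mk k hk]; exact orderOf_dvd_natCard _)
      have h3 : orderOf f ∣ p ^ s := hs ▸ orderOf_dvd_natCard f
      rw [← orderOf_eq_one_iff]
      exact Nat.eq_one_of_dvd_coprimes
        ((hp.out.coprime_iff_not_dvd.2
          (MonoidHom.not_dvd_card_ker_transferSylow S hSN)).symm.pow_right s) h2 h3⟩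
    have hdec : ∀ g : G, ∃ o ∈ O, ∃ u ∈ (P : Subgroup G), g = o * u := by
      intro g
      obtain ⟨w, hw, u, hu, rfl⟩ := Subgroup.mem_sup_of_normal_left.1 (hsup ▸ Subgroup.mem_top g)
      obtain ⟨⟨k, v⟩, hkv⟩ := (MonoidHom.ker_transferSylow_isComplement' S hSN).2 ⟨w, hw⟩
      have hv : ((v : M) : G) ∈ (P : Subgroup G) := by
        have h : (v : M) ∈ P0 := (SetLike.ext_iff.1 hS _).1 v.2
        exact h
      refine ⟨((k : M) : G), ⟨k, k.2, rfl⟩, ((v : M) : G) * u,
        (P : Subgroup G).mul_mem hv hu, ?_⟩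
      rw [← mul_assoc]
      congr 1
      exact (congrArg Subtype.val hkv).symm
    have habq : ∀ a b : G ⧸ O, a * b = b * a := by
      intro a b
      obtain ⟨a, rfl⟩ := QuotientGroup.mk'_surjective O a
      obtain ⟨b, rfl⟩ := QuotientGroup.mk'_surjective O b
      obtain ⟨o, ho, u, hu, rfl⟩ := hdec a
      obtain ⟨o', ho', u', hu', rfl⟩ := hdec b
      have h0 : ∀ o ∈ O, QuotientGroup.mk' O o = 1 := fun o ho => (QuotientGroup.eq_one_iff o).2 ho
      rw [map_mul, map_mul, h0 o ho, h0 o' ho', one_mul, one_mul, ← map_mul, ← map_mul,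
        hab P u hu u' hu']
    refine ⟨fun u hu g => ?_⟩
    have hgu : g * u = u * g := hcomm1 g u fun ψ hψ => by
      obtain ⟨e, ρ, hirr, hρ⟩ := ψ.2
      have he : e = d ψ := Nat.cast_injective (R := ℂ) (by
        rw [← hd, ← hρ, Representation.char_one, Module.finrank_fin_fun])
      obtain ⟨j, hj⟩ := P.2 ⟨u, hu⟩
      obtain ⟨l, hl⟩ := scalar_of_split ρ (hρ ▸ ψ.2) (by
        have := hdle ψ hψ
        omega) O hOp habq (x := u) ⟨j, congrArg Subtype.val hj⟩
      have hcomm : ρ (g * u) = ρ (u * g) := by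
        rw [map_mul, map_mul, hl, mul_smul_one, smul_mul_assoc, one_mul]
      rw [← hρ, Representation.character, Representation.character,
        show g * u * g⁻¹ * u⁻¹ = g * u * (g⁻¹ * u⁻¹) by group, map_mul, hcomm, ← map_mul,
        show u * g * (g⁻¹ * u⁻¹) = 1 by group]
    rwa [hgu, mul_inv_cancel_right]

theorem large_prime_normal {G : Type u} [Group G] [Fintype G] {p : ℕ} [Fact p.Prime] {n : ℕ}
    (hn : n ≠ 0) (hL : LargePrime p n G) {χ : G → ℂ} (hχ : IsCharacter G χ)
    (hfaith : ∀ g, χ g = χ 1 → g = 1) (hn1 : χ 1 = n) (P : Sylow p G) :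
    (P : Subgroup G).Normal :=
  large_prime_aux p n hn (Nat.card G) G le_rfl hL χ hχ hfaith hn1 P

end Cfsg.Agent.Chars2
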