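import Cfsg.Agent.Chars2.OnceMult

/-!
When `p` divides the group order only once: how a character restricts to the blocks of the
centralizer of `x`, and the relations between the regular restrictions in a block.
-/

set_option autoImplicit false
set_option linter.unusedSectionVars false
set_option linter.style.haveILetI false

namespace Cfsg.Agent.Chars2.Cyc

open Cfsg Cfsg.Agent Cfsg.Agent.Blocks Cfsg.Agent.BlockChar Function
open scoped ComplexConjugate

universe u

variable {G : Type u} [Group G] [Fintype G] {H : Subgroup G} [Fintype H] {p m K : ℕ}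
  [hp : Fact p.Prime] {M : Ideal AlgInt} [M.IsMaximal] {x : G} {σ : ℂ ≃+* ℂ}

namespace Once

theorem defect_pos_of_induced (S : Once M p m K x σ H) {B : Set (IrrCharacter G)}
    {b : Set (IrrCharacter H)} (hind : IsInducedBlock M H b B) : 0 < blockDefect p B := by
  rcases Nat.eq_zero_or_pos (blockDefect p B) with h0 | h0
  · have h := card_defectGroup S.hpM hind.1 (S.isDefectGroup_D hind.1)
    rw [(blockDefect_zero_iff S.hpM H hind).2 h0, S.card_D, pow_zero] at h
    exact absurd h hp.out.ne_one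
  · exact h0

theorem fix_noninducing (S : Once M p m K x σ H) {B : Set (IrrCharacter G)} (hB : IsPBlock M B)
    {ψ : IrrCharacter G} (hψ : ψ ∈ B) {b : Set (IrrCharacter H)} (hb : IsPBlock M b)
    (hni : ¬ IsInducedBlock M H b B) : p * S.blockFix ψ b = blockMult ψ b := by
  obtain ⟨B', hB'⟩ := induced_defined_sec S.hH S.hu S.hpM hb
  have h := S.fix_eq hb ψ
  rw [Finset.sum_eq_zero fun r _ => dB_eq_zero S hB' fun h => hni ?_, add_zero] at h
  · exact_mod_cast h
  · rwa [← blocks_eq_of_inter hB'.2.1 hB h ((S.iterate_mem_block hB r).2 hψ)]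

variable {B : Set (IrrCharacter G)} {b₀ b : Set (IrrCharacter H)} {c : ℕ}

theorem sum_dB_inducing (S : Once M p m K x σ H) (hd : 0 < blockDefect p B)
    (hind₀ : IsInducedBlock M H b₀ B) (hind : IsInducedBlock M H b B) (ψ : IrrCharacter G) :
    ∑ r ∈ Finset.range (p - 1), dB x b ((gal σ)^[r] ψ) =
      ∑ r ∈ Finset.range (p - 1), dB x b₀ ((gal σ)^[r] ψ) := by
  obtain ⟨θ₀, hθ₀⟩ := block_nonempty hind₀.1
  obtain ⟨θ, hθ⟩ := block_nonempty hind.1
  obtain ⟨rb, -, hrb, -⟩ := S.induced_conj hd hind₀ hind hθ₀ hθ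
  simp only [hrb, ← iterate_add_apply]
  set F : ℕ → ℂ := fun r => dB x b₀ ((gal σ)^[r] ψ) with hF
  have hper : ∀ r, F (r + (p - 1)) = F r := fun r => by
    simp only [hF, iterate_add_apply, gal_iterate_fix S.hm S.hexp S.hσ S.hk S.hKpow]
  have hrot : ∀ a, ∑ r ∈ Finset.range (p - 1), F (a + r) = ∑ r ∈ Finset.range (p - 1), F r := by
    intro a
    induction a with
    | zero => simp
    | succ a ih =>
      rw [← ih]
      have h1 := Finset.sum_range_succ' (fun r => F (a + r)) (p - 1)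
      rw [Finset.sum_range_succ, add_zero, hper a] at h1
      rw [add_right_cancel h1]
      exact Finset.sum_congr rfl fun r _ => by rw [add_right_comm a 1 r, add_assoc]
  exact hrot rb

theorem fix_inducing_X (S : Once M p m K x σ H) (hind₀ : IsInducedBlock M H b₀ B)
    (O : OneShape M p x σ B b₀ c) (hind : IsInducedBlock M H b B) {ψ : IrrCharacter G}
    (hψ : ψ ∈ B) (hψY : ψ ∉ O.Y) :
    ((p * S.blockFix ψ b : ℕ) : ℤ) = (blockMult ψ b : ℤ) + ((p : ℤ) - 1) * O.W ψ := by
  have h := S.fix_eq hind.1 ψ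
  rw [S.sum_dB_inducing (S.defect_pos_of_induced hind) hind₀ hind,
    Finset.sum_congr rfl fun r _ => by rw [iterate_fixed (O.fixed ψ hψ hψY), O.dB_X ψ hψ hψY],
    Finset.sum_const, Finset.card_range, nsmul_eq_mul, Nat.cast_sub hp.out.one_le] at h
  apply Int.cast_injective (α := ℂ)
  push_cast at h ⊢
  linear_combination h

theorem fix_inducing_Y (S : Once M p m K x σ H) (hind₀ : IsInducedBlock M H b₀ B)
    (O : OneShape M p x σ B b₀ c) (hind : IsInducedBlock M H b B) {ψ : IrrCharacter G}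
    (hψY : ψ ∈ O.Y) :
    ((p * S.blockFix ψ b : ℕ) : ℤ) =
      (blockMult ψ b : ℤ) + (((p - 1) / O.t : ℕ) : ℤ) * O.W ψ := by
  have h := S.fix_eq hind.1 ψ
  have h2 := sum_range_periodic (f := fun r => dB x b₀ ((gal σ)^[r] ψ)) (a := O.t)
    (fun i => by rw [iterate_add_apply, O.fixed_t ψ (O.Y_sub hψY)]) ((p - 1) / O.t)
  rw [Nat.div_mul_cancel O.t_dvd, O.dB_Y ψ hψY, nsmul_eq_mul] at h2
  rw [S.sum_dB_inducing (S.defect_pos_of_induced hind) hind₀ hind, h2] at h
  generalize (p - 1) / O.t = q at h ⊢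
  apply Int.cast_injective (α := ℂ)
  push_cast at h ⊢
  linear_combination h

/-- When `x` is not conjugate to `x ^ K` the exceptional families have at least two members. -/
theorem two_le_t (S : Once M p m K x σ H) (hind₀ : IsInducedBlock M H b₀ B)
    (O : OneShape M p x σ B b₀ c) (hK : ¬ IsConj (x ^ K) x) : 2 ≤ O.t := by
  by_contra h
  have ht : O.t = 1 := by have := O.t_pos; omega
  have hper := (O.period 1).2 (by rw [ht])
  rcases S.dichotomy hind₀ 1 with ⟨-, n, hn, hxr, -⟩ | ⟨h0, -⟩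
  · rw [pow_one] at hxr
    exact hK (isConj_iff.2 ⟨n, by rw [← hxr]; group⟩)
  · classical
    rw [Finset.sum_congr rfl fun χ _ => by rw [hper χ], sum_dB S hind₀ hind₀.1, if_pos rfl] at h0
    exact hp.out.ne_zero (by exact_mod_cast h0)

/-- The multiplicities in a block satisfy the relation of the regular restrictions. -/
theorem blockMult_relation (S : Once M p m K x σ H) (O : OneShape M p x σ B b₀ c)
    (hb : IsPBlock M b) {θ : IrrCharacter G} (hθ : θ ∈ O.Y) :
    (∑ᶠ χ ∈ B \ O.Y, O.W χ * (blockMult χ b : ℤ)) + O.W θ * (blockMult θ b : ℤ) = 0 := by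
  classical
  rw [finsum_mem_eq_finite_toFinset_sum _ (Set.toFinite _)]
  apply Int.cast_injective (α := ℂ)
  push_cast
  refine mul_left_cancel₀ (Nat.cast_ne_zero.2 (S.blockDeg_pos hb).ne' : (blockDeg b : ℂ) ≠ 0) ?_
  simp only [mul_add, Finset.mul_sum, mul_zero, mul_left_comm (blockDeg b : ℂ),
    S.blockMult_eq_sum hb]
  rw [Finset.sum_comm, ← Finset.sum_add_distrib]
  refine Finset.sum_eq_zero fun k hk => ?_
  have h := O.relation k (by rw [Subgroup.orderOf_coe]; exact mem_regs.1 hk) θ hθ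
  rw [finsum_mem_eq_finite_toFinset_sum _ (Set.toFinite _)] at h
  simp only [mul_left_comm _ (blockCoeff b k), ← Finset.mul_sum]
  rw [← mul_add, h, mul_zero]

end Once

/-- A relation between regular restrictions splits along the blocks. -/
theorem block_rel (hpM : (p : AlgInt) ∈ M) {B : Set (IrrCharacter G)} (hB : IsPBlock M B)
    (a : IrrCharacter G → ℂ) (h : ∀ g : G, ¬ p ∣ orderOf g → ∑ χ, a χ * (χ : G → ℂ) g = 0)
    {g : G} (hg : ¬ p ∣ orderOf g) : ∑ χ ∈ bf B, a χ * (χ : G → ℂ) g = 0 := by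
  classical
  set u : G → ℂ := fun g => ∑ χ ∈ bf B, a χ * (χ : G → ℂ) g with hu
  have h1 : ∀ χ ∈ bf B, regInner p u (χ : G → ℂ) = 0 := by
    intro χ hχ
    have h0 : regInner p (fun g => ∑ ψ, a ψ * (ψ : G → ℂ) g) (χ : G → ℂ) = 0 := by
      rw [regInner, Finset.sum_eq_zero fun y hy => by rw [h y (mem_regs.1 hy), zero_mul], mul_zero]
    rw [← h0]
    simp only [regInner, hu, Finset.sum_mul, Finset.mul_sum]
    conv_lhs => rw [Finset.sum_comm]
    conv_rhs => rw [Finset.sum_comm]
    refine Finset.sum_subset (Finset.subset_univ _) fun ψ _ hψ => ?_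
    have h2 := regInner_eq_zero (p := p) hpM (χ := ψ) (ψ := χ)
      fun h => hψ (mem_bf.2 (mem_of_sameBlock hB (mem_bf.1 hχ) (sameBlock_symm h)))
    rw [regInner] at h2
    rw [← mul_zero (a ψ), ← h2, Finset.mul_sum, Finset.mul_sum]
    exact Finset.sum_congr rfl fun y _ => by ring
  have h3 : regInner p u u = 0 := by
    have : regInner p u u = ∑ χ ∈ bf B, conj (a χ) * regInner p u (χ : G → ℂ) := by
      simp only [regInner]
      conv_lhs => enter [2, 2, y, 2]; rw [hu]
      simp only [map_sum, map_mul, Finset.mul_sum]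
      rw [Finset.sum_comm]
      exact Finset.sum_congr rfl fun χ _ => Finset.sum_congr rfl fun y _ => by ring
    rw [this]
    exact Finset.sum_eq_zero fun χ hχ => by rw [h1 χ hχ, mul_zero]
  rw [regInner, mul_eq_zero] at h3
  have h4 := h3.resolve_left (inv_ne_zero Chars.card_ne_zero)
  have h5 : ∑ y ∈ regs p G, Complex.normSq (u y) = 0 := by
    apply Complex.ofReal_injective
    push_cast
    simpa [Complex.mul_conj] using h4
  exact Complex.normSq_eq_zero.1 ((Finset.sum_eq_zero_iff_of_nonneg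
    fun y _ => Complex.normSq_nonneg _).1 h5 g (mem_regs.2 hg))

open scoped Classical in
/-- The only relation between the regular restrictions outside the exceptional family. -/
theorem rel_coeff {B : Set (IrrCharacter G)} {b₀ : Set (IrrCharacter H)} {c : ℕ}
    (S : Once M p m K x σ H) (O : OneShape M p x σ B b₀ c) (a : IrrCharacter G → ℤ)
    (h : ∀ g : G, ¬ p ∣ orderOf g → ∑ χ ∈ bf B, (a χ : ℂ) * (χ : G → ℂ) g = 0)
    {y : IrrCharacter G} (hy : y ∈ O.Y) :
    ∀ χ ∈ B, χ ∉ O.Y →
      a χ = (∑ θ ∈ (bf B).filter (fun θ => θ ∈ O.Y), a θ) * O.W y * O.W χ := by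
  classical
  set X : Finset (IrrCharacter G) := (bf B).filter (fun θ => θ ∉ O.Y) with hX
  set Z : ℤ := ∑ θ ∈ (bf B).filter (fun θ => θ ∈ O.Y), a θ with hZ
  set v : IrrCharacter G → (G → ℂ) := fun χ => pRegularPart p (χ : G → ℂ) with hv
  have hXset : (B \ O.Y : Set (IrrCharacter G)) = (X : Set (IrrCharacter G)) := by
    ext χ; simp [hX, mem_bf]
  have hreg : ∀ θ ∈ O.Y, ∀ g : G, ¬ p ∣ orderOf g → (θ : G → ℂ) g = (y : G → ℂ) g := by
    intro θ hθ g hg
    obtain ⟨r, rfl⟩ := (O.orbit y hy θ).2 hθ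
    exact S.gal_reg y r hg
  have hWy : (O.W y : ℂ) * (O.W y : ℂ) = 1 := by
    rcases O.sign y (O.Y_sub hy) with e | e <;> simp [e]
  have hrel : ∀ g : G, ¬ p ∣ orderOf g →
      ∑ χ ∈ X, (O.W χ : ℂ) * (χ : G → ℂ) g + (O.W y : ℂ) * (y : G → ℂ) g = 0 := fun g hg => by
    have h1 := O.relation g hg y hy
    rwa [hXset, finsum_mem_coe_finset] at h1
  -- independence
  have hli : LinearIndependent ℂ (fun χ : X => v χ.1) := by
    rw [linearIndependent_iff_card_eq_finrank_span, Fintype.card_coe]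
    have hspan : Submodule.span ℂ (Set.range fun χ : X => v χ.1) =
        Submodule.span ℂ ((fun χ : IrrCharacter G => pRegularPart p (χ : G → ℂ)) '' B) := by
      refine le_antisymm (Submodule.span_mono ?_) (Submodule.span_le.2 ?_)
      · rintro _ ⟨χ, rfl⟩
        exact ⟨χ.1, mem_bf.1 (Finset.mem_filter.1 χ.2).1, rfl⟩
      · rintro _ ⟨χ, hχ, rfl⟩
        show v χ ∈ Submodule.span ℂ (Set.range fun χ : X => v χ.1)
        by_cases hχY : χ ∈ O.Y
        · have he : v χ = ∑ ψ : X, (-(O.W y : ℂ) * (O.W ψ.1 : ℂ)) • v ψ.1 := by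
            funext g
            rw [Finset.sum_apply]
            simp only [hv, Pi.smul_apply, smul_eq_mul]
            by_cases hg : p ∣ orderOf g
            · simp [pRegularPart, IsPRegular, hg]
            · simp only [pRegularPart, IsPRegular, hg, not_false_eq_true, if_true]
              rw [hreg χ hχY g hg, Finset.sum_coe_sort X
                (fun ψ => -(O.W y : ℂ) * (O.W ψ : ℂ) * (ψ : G → ℂ) g)]
              simp only [mul_assoc, ← Finset.mul_sum]
              linear_combination (O.W y : ℂ) * hrel g hg - (y : G → ℂ) g * hWy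
          rw [he]
          exact Submodule.sum_mem _ fun ψ _ =>
            Submodule.smul_mem _ _ (Submodule.subset_span ⟨ψ, rfl⟩)
        · exact Submodule.subset_span
            ⟨⟨χ, Finset.mem_filter.2 ⟨mem_bf.2 hχ, hχY⟩⟩, rfl⟩
    rw [Set.finrank, hspan]
    show X.card = blockRank p B
    rw [O.rank, ← O.card_X, hXset, Nat.card_coe_set_eq, Set.ncard_coe_finset]
  intro χ hχ hχY
  have hcomb : ∑ ψ : X, ((a ψ.1 : ℂ) - (Z : ℂ) * (O.W y : ℂ) * (O.W ψ.1 : ℂ)) • v ψ.1 = 0 := by
    funext g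
    rw [Finset.sum_apply]
    simp only [hv, Pi.smul_apply, smul_eq_mul, Pi.zero_apply]
    by_cases hg : p ∣ orderOf g
    · simp [pRegularPart, IsPRegular, hg]
    · simp only [pRegularPart, IsPRegular, hg, not_false_eq_true, if_true]
      rw [Finset.sum_coe_sort X (fun ψ => ((a ψ : ℂ) - (Z : ℂ) * (O.W y : ℂ) * (O.W ψ : ℂ)) *
        (ψ : G → ℂ) g)]
      have h1 : ∑ ψ ∈ X, (a ψ : ℂ) * (ψ : G → ℂ) g + (Z : ℂ) * (y : G → ℂ) g = 0 := by
        rw [← h g hg, ← Finset.sum_filter_add_sum_filter_not (bf B) (fun θ => θ ∈ O.Y), add_comm,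
          hZ, Int.cast_sum, Finset.sum_mul]
        congr 1
        exact Finset.sum_congr rfl fun θ hθ => by rw [hreg θ (Finset.mem_filter.1 hθ).2 g hg]
      simp only [sub_mul, Finset.sum_sub_distrib, mul_assoc, ← Finset.mul_sum]
      linear_combination h1 - (Z : ℂ) * (O.W y : ℂ) * hrel g hg +
        (Z : ℂ) * (y : G → ℂ) g * hWy
  have h2 := linearIndependent_iff'.1 hli Finset.univ _ hcomb
    ⟨χ, Finset.mem_filter.2 ⟨mem_bf.2 hχ, hχY⟩⟩ (Finset.mem_univ _)
  exact_mod_cast sub_eq_zero.1 h2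

end Cfsg.Agent.Chars2.Cyc
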