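import Cfsg.Agent.Chars2.DefectOneApps
import Cfsg.Agent.Chars2.SmallDegreeLocal
import Cfsg.Agent.Chars2.DegreeInherit
import Mathlib.Data.Rat.Cast.CharZero

/-!
When `p` divides the group order only once: the number of characters of degree prime to `p` is
determined by the action of the normalizer of `⟨x⟩` on the blocks of the centralizer of `x`.
-/

set_option autoImplicit false
set_option linter.unusedSectionVars false
set_option linter.style.haveILetI false

namespace Cfsg.Agent.Chars2.Cyc

open Cfsg Cfsg.Agent Cfsg.Agent.Blocks Cfsg.Agent.BlockChar Function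

universe u

variable {G : Type u} [Group G] [Fintype G] {p m K : ℕ} [hp : Fact p.Prime] {M : Ideal AlgInt}
  [M.IsMaximal] {x : G} {σ : ℂ ≃+* ℂ} {H : Subgroup G}

/-- The orbit of a block of the centralizer. -/
def blockOrbit (x : G) (H : Subgroup G) (b : Set (IrrCharacter H)) : Set (Set (IrrCharacter H)) :=
  blockImg H b '' (Subgroup.normalizer ((Subgroup.zpowers x : Subgroup G) : Set G) : Set G)

/-- The number of characters of degree prime to `p` in an orbit of length `n`, per block. -/
def orbitWeight (p c n : ℕ) : ℚ := ((c / n + (p - 1) / (c / n) : ℕ) : ℚ) / (n : ℚ)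

namespace Once

variable [Fintype H]

theorem induced_unique (S : Once M p m K x σ H) {B B' : Set (IrrCharacter G)}
    {b : Set (IrrCharacter H)} (h : IsInducedBlock M H b B) (h' : IsInducedBlock M H b B') : B = B' := by
  classical
  by_contra hne
  have hs := sum_dB S h h.1
  rw [if_pos rfl, Finset.sum_eq_zero fun χ hχ => by
    rw [dB_eq_zero S h' fun hc => hne (blocks_eq_of_inter h.2.1 h'.2.1 (mem_bf.1 hχ) hc), zero_mul]] at hs
  exact hp.out.ne_zero (by exact_mod_cast hs.symm)

/-- The size of a block as a sum over the blocks of the centralizer inducing it. -/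
theorem block_card_eq_sum (S : Once M p m K x σ H) {B : Set (IrrCharacter G)} (hB : IsPBlock M B)
    (hd : 0 < blockDefect p B) [DecidablePred fun b => IsInducedBlock M H b B] :
    (Nat.card B : ℚ) = ∑ b ∈ (blockFinset M H).filter (fun b => IsInducedBlock M H b B),
      orbitWeight p (H.relIndex (Subgroup.normalizer ((Subgroup.zpowers x : Subgroup G) : Set G)))
        (blockOrbit x H b).ncard := by
  classical
  set s := (blockFinset M H).filter fun b => IsInducedBlock M H b B with hs
  set N := Subgroup.normalizer ((Subgroup.zpowers x : Subgroup G) : Set G) with hN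
  have key : ∀ b ∈ s, orbitWeight p (H.relIndex N) (blockOrbit x H b).ncard = (Nat.card B : ℚ) / s.card := by
    intro b hb
    have hind := (Finset.mem_filter.1 hb).2
    obtain ⟨θ, hθ, hθx⟩ := S.exists_trivial hind.1
    have hn : (blockOrbit x H b).ncard = s.card := by
      rw [← Set.ncard_coe_finset]
      congr 1
      ext b'
      simp only [hs, Finset.coe_filter, mem_blockFinset, Set.mem_setOf_eq, blockOrbit, Set.mem_image,
        SetLike.mem_coe]
      constructor
      · rintro ⟨g, hg, rfl⟩
        exact ⟨(S.blockImg_induced hind hg).1, S.blockImg_induced hind hg⟩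
      · rintro ⟨-, hb'⟩
        obtain ⟨n, hn, hnP, he⟩ :=
          (first_main_at S.hpM hind.2.1 (S.isDefectGroup_zpowers hind.2.1 hd).2 S.sup_eq_H).2
            b' b hb' hind
        exact ⟨n, hnP, by rw [blockImg_eq b hn, he]⟩
    let T : Subgroup G :=
      { carrier := {g | g ∈ N ∧ ∀ c c' : H, (c' : G) = g * c * g⁻¹ → (θ : H → ℂ) c' = (θ : H → ℂ) c}
        one_mem' := ⟨one_mem _, fun c c' h => by
          rw [show c' = c from Subtype.ext (by rw [h]; group)]⟩
        mul_mem' := fun {a a'} ha ha' => ⟨mul_mem ha.1 ha'.1, fun c c' h => by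
          have hn := S.mem_normalizer_H ha'.1
          have h1 : a' * (c : G) * a'⁻¹ ∈ H := (Subgroup.mem_normalizer_iff.1 hn _).1 c.2
          rw [ha.2 ⟨_, h1⟩ c' (by rw [h]; group), ha'.2 c ⟨_, h1⟩ rfl]⟩
        inv_mem' := fun {a} ha => ⟨inv_mem ha.1, fun c c' h => (ha.2 c' c (by rw [h]; group)).symm⟩ }
    have hT : ∀ g : G, g ∈ T ↔ g ∈ N ∧ ∀ c c' : H, (c' : G) = g * c * g⁻¹ →
        (θ : H → ℂ) c' = (θ : H → ℂ) c := fun g => Iff.rfl
    obtain ⟨O⟩ := S.exists_shape hd hind hθ
    have he : H.relIndex T = (p - 1) / O.t := S.relIndex_inertia hind hθ hθx hT O.t_dvd O.period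
    have hc : s.card = T.relIndex N := S.card_inducing hd hind hθ hθx hT
    have hTN : T ≤ N := fun g hg => hg.1
    have hHN : H ≤ T := fun g hg => ⟨Subgroup.mem_normalizer_iff.2 fun y => by
        have hgx : Commute g x := (S.comm ⟨g, hg⟩).symm
        have hy : ∀ y ∈ Subgroup.zpowers x, g * y * g⁻¹ = y := fun y hy => by
          obtain ⟨j, rfl⟩ := Subgroup.mem_zpowers_iff.1 hy
          rw [(hgx.zpow_right j).eq, mul_inv_cancel_right]
        refine ⟨fun h => by rw [hy y h]; exact h, fun h => ?_⟩
        have h2 := hy _ h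
        have h3 : g * y * g⁻¹ = y := mul_left_cancel (a := g) (mul_right_cancel (b := g⁻¹) h2)
        rwa [h3] at h,
      fun c c' h => by
        have hc : c' = ⟨g, hg⟩ * c * ⟨g, hg⟩⁻¹ := Subtype.ext h
        rw [hc]
        exact Chars.isClassFunction_of_isCharacter (Chars.irr_isCharacter θ) _ _⟩
    have hidx : H.relIndex N = (p - 1) / O.t * s.card := by
      rw [← he, hc, Subgroup.relIndex_mul_relIndex H T N hHN hTN]
    have hB' : Nat.card B = O.t + (p - 1) / O.t := by
      have h := Set.ncard_sdiff_add_ncard_of_subset O.Y_sub (Set.toFinite B)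
      rw [← Nat.card_coe_set_eq, ← Nat.card_coe_set_eq, ← Nat.card_coe_set_eq, O.card_X, O.card_Y] at h
      omega
    have hpos : 0 < s.card := Finset.card_pos.2 ⟨b, hb⟩
    rw [orbitWeight, hn, hidx, Nat.mul_div_cancel _ hpos,
      Nat.div_div_self O.t_dvd (by have := hp.out.two_le; omega), hB', add_comm]
  rw [Finset.sum_congr rfl key, Finset.sum_const, nsmul_eq_mul]
  have hne : (s.card : ℚ) ≠ 0 := by
    obtain ⟨b, hb⟩ := S.exists_induced hB hd
    have : 0 < s.card := Finset.card_pos.2 ⟨b, Finset.mem_filter.2 ⟨mem_blockFinset.2 hb.1, hb⟩⟩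
    exact_mod_cast this.ne'
  field_simp

/-- The count of the characters of degree prime to `p`. -/
theorem count_prime_degree (S : Once M p m K x σ H) :
    (Nat.card {χ : IrrCharacter G // ¬ p ∣ charDegree (χ : G → ℂ)} : ℚ) =
      ∑ b ∈ blockFinset M H,
        orbitWeight p (H.relIndex (Subgroup.normalizer ((Subgroup.zpowers x : Subgroup G) : Set G)))
          (blockOrbit x H b).ncard := by
  classical
  choose! β hβ using fun b (hb : b ∈ blockFinset M H) =>
    induced_defined_sec S.hH S.hu S.hpM (mem_blockFinset.1 hb)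
  set t := (blockFinset M G).filter fun B => 0 < blockDefect p B with ht
  have hmaps : ∀ b ∈ blockFinset M H, β b ∈ t := fun b hb =>
    Finset.mem_filter.2 ⟨mem_blockFinset.2 (hβ b hb).2.1, S.defect_pos_of_induced (hβ b hb)⟩
  rw [← Finset.sum_fiberwise_of_maps_to hmaps]
  have hfib : ∀ B ∈ t, (blockFinset M H).filter (fun b => β b = B) =
      (blockFinset M H).filter fun b => IsInducedBlock M H b B := by
    intro B _
    refine Finset.filter_congr fun b hb => ⟨fun h => h ▸ hβ b hb, fun h => S.induced_unique (hβ b hb) h⟩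
  rw [Finset.sum_congr rfl fun B hB => by
    rw [hfib B hB, ← S.block_card_eq_sum (mem_blockFinset.1 (Finset.mem_filter.1 hB).1)
      (Finset.mem_filter.1 hB).2]]
  rw [← Nat.cast_sum]
  congr 1
  have hset : (Finset.univ.filter fun χ : IrrCharacter G => ¬ p ∣ charDegree (χ : G → ℂ)) =
      t.biUnion fun B => bf B := by
    ext χ
    simp only [Finset.mem_filter, Finset.mem_univ, true_and, Finset.mem_biUnion, mem_bf, ht, mem_blockFinset]
    constructor
    · intro hχ
      refine ⟨blockOf M (χ : G → ℂ), ⟨⟨χ, rfl⟩, ?_⟩, mem_blockOf_self χ⟩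
      rw [blockDefect, S.vG]
      refine Nat.sub_pos_of_lt (lt_of_le_of_lt (Nat.sInf_le ⟨χ, mem_blockOf_self χ, rfl⟩) ?_)
      show (charDegree (χ : G → ℂ)).factorization p < 1
      rw [Nat.factorization_eq_zero_of_not_dvd hχ]
      exact Nat.one_pos
    · rintro ⟨B, ⟨hB, hd⟩, hχ⟩
      exact S.degree_not_dvd hB hd hχ
  rw [Nat.card_eq_fintype_card, Fintype.card_subtype, hset, Finset.card_biUnion]
  · refine Finset.sum_congr rfl fun B _ => ?_
    rw [Nat.card_coe_set_eq, ← Set.ncard_coe_finset]
    congr 1
    ext χ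
    simp [mem_bf]
  · intro B hB B' hB' hne
    rw [Function.onFun, Finset.disjoint_left]
    exact fun χ h h' => hne (blocks_eq_of_inter (mem_blockFinset.1 (Finset.mem_filter.1 hB).1)
      (mem_blockFinset.1 (Finset.mem_filter.1 hB').1) (mem_bf.1 h) (mem_bf.1 h'))

end Once

end Cfsg.Agent.Chars2.Cyc
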