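import Cfsg.Agent.Chars2.McKayOnce

/-!
The count is the same for a subgroup containing the normalizer of `⟨x⟩`, in particular for the
normalizer itself: the McKay equality when `p` divides the group order only once.
-/

set_option autoImplicit false
set_option linter.unusedSectionVars false
set_option linter.style.haveILetI false

namespace Cfsg.Agent.Chars2.Cyc

open Cfsg Cfsg.Agent Cfsg.Agent.Blocks Cfsg.Agent.BlockChar Function

universe u

variable {G : Type u} [Group G] [Fintype G] {p : ℕ} [hp : Fact p.Prime]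

theorem mapSet_mapSet {A B : Type u} [Group A] [Group B] [Fintype A] [Fintype B] (φ : A ≃* B)
    (e : Set (IrrCharacter B)) : mapSet φ (mapSet φ.symm e) = e := by
  ext χ
  show irrEquiv φ.symm (irrEquiv φ χ) ∈ e ↔ χ ∈ e
  rw [show irrEquiv φ.symm (irrEquiv φ χ) = χ from Subtype.ext (funext fun b => by
    rw [irrEquiv_apply, irrEquiv_apply, φ.apply_symm_apply])]

theorem mapSet_symm_mapSet {A B : Type u} [Group A] [Group B] [Fintype A] [Fintype B] (φ : A ≃* B)
    (e : Set (IrrCharacter A)) : mapSet φ.symm (mapSet φ e) = e := by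
  ext χ
  show irrEquiv φ (irrEquiv φ.symm χ) ∈ e ↔ χ ∈ e
  rw [show irrEquiv φ (irrEquiv φ.symm χ) = χ from Subtype.ext (funext fun b => by
    rw [irrEquiv_apply, irrEquiv_apply, φ.symm_apply_apply])]

/-- The count of the characters of degree prime to `p` is that of the normalizer. -/
theorem count_eq_normalizer {M : Ideal AlgInt} [M.IsMaximal] (hpM : (p : AlgInt) ∈ M)
    (hdiv : p ∣ Nat.card G) (hsq : ¬ p ^ 2 ∣ Nat.card G) {x : G} (hx : orderOf x = p)
    {N : Subgroup G} (hN : N = Subgroup.normalizer ((Subgroup.zpowers x : Subgroup G) : Set G)) :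
    Nat.card {χ : IrrCharacter G // ¬ p ∣ charDegree (χ : G → ℂ)} =
      Nat.card {χ : IrrCharacter N // ¬ p ∣ charDegree (χ : N → ℂ)} := by
  classical
  haveI : Fintype N := Fintype.ofFinite N
  have hxN : x ∈ N := hN ▸ Subgroup.le_normalizer (Subgroup.mem_zpowers x)
  set y : N := ⟨x, hxN⟩ with hy
  have hyo : orderOf y = p := by rw [← hx, ← Subgroup.orderOf_coe]
  have hdivN : p ∣ Nat.card N := hyo ▸ orderOf_dvd_natCard y
  have hsqN : ¬ p ^ 2 ∣ Nat.card N := fun h => hsq (h.trans (Subgroup.card_subgroup_dvd_card N))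
  obtain ⟨K, σ, S⟩ := exists_once hpM hdiv hsq hx
  obtain ⟨K', σ', S'⟩ := exists_once hpM hdivN hsqN hyo
  set H := Subgroup.centralizer ({x} : Set G) with hH
  set H' := Subgroup.centralizer ({y} : Set N) with hH'
  haveI : Fintype H := Fintype.ofFinite _
  haveI : Fintype H' := Fintype.ofFinite _
  have hHN : H ≤ N := hN ▸ (by
    rw [← S.centralizer_zpowers]
    exact Subgroup.centralizer_le_normalizer _)
  let φ : H ≃* H' :=
    { toFun := fun h => ⟨⟨h.1, hHN h.2⟩, Subgroup.mem_centralizer_singleton_iff.2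
        (Subtype.ext (Subgroup.mem_centralizer_singleton_iff.1 h.2))⟩
      invFun := fun h => ⟨h.1.1, Subgroup.mem_centralizer_singleton_iff.2
        (congrArg Subtype.val (Subgroup.mem_centralizer_singleton_iff.1 h.2))⟩
      left_inv := fun _ => rfl
      right_inv := fun _ => rfl
      map_mul' := fun _ _ => rfl }
  have htop : ∀ g : N, g ∈ Subgroup.normalizer ((Subgroup.zpowers y : Subgroup N) : Set N) := by
    intro g
    have hg : (g : G) ∈ Subgroup.normalizer ((Subgroup.zpowers x : Subgroup G) : Set G) := hN ▸ g.2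
    have hmem : ∀ z : N, z ∈ Subgroup.zpowers y ↔ (z : G) ∈ Subgroup.zpowers x := fun z => by
      constructor
      · intro hz
        obtain ⟨j, rfl⟩ := Subgroup.mem_zpowers_iff.1 hz
        exact Subgroup.mem_zpowers_iff.2 ⟨j, by rw [Subgroup.coe_zpow]⟩
      · intro hz
        obtain ⟨j, hj⟩ := Subgroup.mem_zpowers_iff.1 hz
        exact Subgroup.mem_zpowers_iff.2 ⟨j, Subtype.ext (by rw [Subgroup.coe_zpow]; exact hj)⟩
    refine Subgroup.mem_normalizer_iff.2 fun z => ?_
    rw [hmem, hmem, Subgroup.coe_mul, Subgroup.coe_mul, Subgroup.coe_inv]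
    exact Subgroup.mem_normalizer_iff.1 hg z
  have horbit : ∀ b : Set (IrrCharacter H),
      (blockOrbit x H b).ncard = (blockOrbit y H' (mapSet φ b)).ncard := by
    intro b
    have himg : ∀ g : N, blockImg H' (mapSet φ b) g = mapSet φ (blockImg H b (g : G)) := by
      intro g
      have hg : (g : G) ∈ Subgroup.normalizer ((Subgroup.zpowers x : Subgroup G) : Set G) := hN ▸ g.2
      rw [blockImg_eq _ (S'.mem_normalizer_H (htop g)), blockImg_eq _ (S.mem_normalizer_H hg)]
      ext χ
      show irrEquiv φ (irrEquiv (normEquiv _) χ) ∈ b ↔ irrEquiv (normEquiv _) (irrEquiv φ χ) ∈ b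
      rw [show irrEquiv φ (irrEquiv (normEquiv (S'.mem_normalizer_H (htop g))) χ) =
        irrEquiv (normEquiv (S.mem_normalizer_H hg)) (irrEquiv φ χ) from Subtype.ext (funext fun c => by
          simp only [irrEquiv_apply]
          exact congrArg (χ : H' → ℂ) (Subtype.ext (Subtype.ext rfl)))]
    have : blockOrbit y H' (mapSet φ b) = mapSet φ '' blockOrbit x H b := by
      ext e
      simp only [blockOrbit, Set.mem_image, SetLike.mem_coe]
      constructor
      · rintro ⟨g, -, rfl⟩
        exact ⟨_, ⟨(g : G), hN ▸ g.2, rfl⟩, (himg g).symm⟩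
      · rintro ⟨e', ⟨g, hg, rfl⟩, rfl⟩
        exact ⟨⟨g, hN ▸ hg⟩, htop _, himg _⟩
    rw [this, Set.ncard_image_of_injective _ (Function.LeftInverse.injective (mapSet_symm_mapSet φ))]
  have hidx : H.relIndex (Subgroup.normalizer ((Subgroup.zpowers x : Subgroup G) : Set G)) =
      H'.relIndex (Subgroup.normalizer ((Subgroup.zpowers y : Subgroup N) : Set N)) := by
    rw [← hN, show Subgroup.normalizer ((Subgroup.zpowers y : Subgroup N) : Set N) = ⊤ from
      (Subgroup.eq_top_iff' _).2 htop, Subgroup.relIndex_top_right, Subgroup.relIndex]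
    congr 1
    ext z
    rw [Subgroup.mem_subgroupOf, Subgroup.mem_centralizer_singleton_iff,
      Subgroup.mem_centralizer_singleton_iff]
    exact ⟨fun h => Subtype.ext h, fun h => congrArg Subtype.val h⟩
  have h1 := S.count_prime_degree
  have h2 := S'.count_prime_degree
  have h3 : ∑ b ∈ blockFinset M H,
        orbitWeight p (H.relIndex (Subgroup.normalizer ((Subgroup.zpowers x : Subgroup G) : Set G)))
          (blockOrbit x H b).ncard =
      ∑ b ∈ blockFinset M H',
        orbitWeight p (H'.relIndex (Subgroup.normalizer ((Subgroup.zpowers y : Subgroup N) : Set N)))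
          (blockOrbit y H' b).ncard := by
    refine Finset.sum_nbij' (mapSet φ) (mapSet φ.symm) (fun b hb => ?_) (fun b hb => ?_)
      (fun b _ => mapSet_symm_mapSet φ b) (fun b _ => mapSet_mapSet φ b) fun b _ => by rw [hidx, horbit]
    · exact mem_blockFinset.2 (isPBlock_mapSet _ (mem_blockFinset.1 hb))
    · exact mem_blockFinset.2 (isPBlock_mapSet _ (mem_blockFinset.1 hb))
  exact_mod_cast h1.trans (h3.trans h2.symm)

end Cfsg.Agent.Chars2.Cyc
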