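import Cfsg.Agent.Chars2.DefectOneApps
import Mathlib.NumberTheory.LegendreSymbol.AddCharacter

/-!
When `p` divides the group order only once: the multiplicities of the eigenvalues at `x`, split by
the blocks of the centralizer of `x`.
-/

set_option autoImplicit false
set_option linter.unusedSectionVars false
set_option linter.style.haveILetI false

namespace Cfsg.Agent.Chars2.Cyc

open Cfsg Cfsg.Agent Cfsg.Agent.Blocks Cfsg.Agent.BlockChar Function
open scoped ComplexConjugate

universe u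

variable {G : Type u} [Group G] [Fintype G] {H : Subgroup G} [Fintype H]

/-- The additive character of `ZMod p` at `zetaP p`. -/
noncomputable def zc (p : ℕ) [Fact p.Prime] : AddChar (ZMod p) ℂ :=
  AddChar.zmodChar p (isPrimitiveRoot_zetaP (p := p)).pow_eq_one

theorem zc_natCast {p : ℕ} [Fact p.Prime] (a : ℕ) : zc p (a : ZMod p) = zetaP p ^ a :=
  AddChar.zmodChar_apply' _ a

theorem zc_sum {p : ℕ} [Fact p.Prime] (b : ZMod p) :
    ∑ j : ZMod p, zc p (j * b) = if b = 0 then (p : ℂ) else 0 := by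
  have h : (zc p).IsPrimitive :=
    AddChar.zmodChar_primitive_of_primitive_root p isPrimitiveRoot_zetaP
  rw [AddChar.sum_mulShift b h]
  simp

theorem zc_injective {p : ℕ} [Fact p.Prime] : Function.Injective (zc p) := by
  intro a b h
  have h' : zetaP p ^ a.val = zetaP p ^ b.val := by
    rw [← zc_natCast, ← zc_natCast, ZMod.natCast_rightInverse a, ZMod.natCast_rightInverse b, h]
  exact ZMod.val_injective p (isPrimitiveRoot_zetaP.pow_inj a.val_lt b.val_lt h')

/-- The multiplicity of `φ` in the restriction of `χ`. -/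
noncomputable def mult (χ : IrrCharacter G) (φ : IrrCharacter H) : ℕ :=
  (Chars.exists_classInner_eq_nat (Chars.isCharacter_restrict (Chars.irr_isCharacter χ) H)
    (Chars.irr_isCharacter φ)).choose

theorem mult_spec (χ : IrrCharacter G) (φ : IrrCharacter H) :
    classInner (fun h : H => (χ : G → ℂ) h) (φ : H → ℂ) = (mult χ φ : ℂ) :=
  (Chars.exists_classInner_eq_nat (Chars.isCharacter_restrict (Chars.irr_isCharacter χ) H)
    (Chars.irr_isCharacter φ)).choose_spec

theorem apply_eq_sum_mult (χ : IrrCharacter G) (h : H) :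
    (χ : G → ℂ) h = ∑ φ : IrrCharacter H, (mult χ φ : ℂ) * (φ : H → ℂ) h := by
  refine (congrFun (Chars.eq_sum_classInner (Chars.isClassFunction_of_isCharacter
    (Chars.isCharacter_restrict (Chars.irr_isCharacter χ) H))) h).trans ?_
  rw [Finset.sum_apply]
  exact Finset.sum_congr rfl fun φ _ => by rw [Pi.smul_apply, smul_eq_mul, mult_spec]

variable {p m K : ℕ} [hp : Fact p.Prime] {M : Ideal AlgInt} [M.IsMaximal] {x : G}
  {σ : ℂ ≃+* ℂ}

namespace Once

theorem exists_expo (S : Once M p m K x σ H) (φ : IrrCharacter H) :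
    ∃ e : ZMod p, ∀ h : H, (φ : H → ℂ) (⟨x, S.mem⟩ * h) = zc p e * (φ : H → ℂ) h := by
  have hc : ∀ c : H, (⟨x, S.mem⟩ : H) * c = c * ⟨x, S.mem⟩ := fun c => Subtype.ext (S.comm c).eq
  obtain ⟨ζ, hζ, hφ⟩ := exists_central_scalar (k := 1) S.hpM (z := (⟨x, S.mem⟩ : H)) (by
    refine Subtype.ext ?_
    show x ^ p ^ 1 = 1
    exact orderOf_dvd_iff_pow_eq_one.1 (by rw [pow_one, S.hx])) hc φ
  rw [pow_one] at hζ
  obtain ⟨a, -, rfl⟩ := isPrimitiveRoot_zetaP.eq_pow_of_pow_eq_one hζ
  exact ⟨(a : ZMod p), fun h => by rw [zc_natCast]; exact hφ h⟩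

/-- The exponent of the central character at `x`. -/
noncomputable def expo (S : Once M p m K x σ H) (φ : IrrCharacter H) : ZMod p :=
  (S.exists_expo φ).choose

theorem expo_spec (S : Once M p m K x σ H) (φ : IrrCharacter H) (h : H) :
    (φ : H → ℂ) (⟨x, S.mem⟩ * h) = zc p (S.expo φ) * (φ : H → ℂ) h :=
  (S.exists_expo φ).choose_spec h

theorem expo_pow (S : Once M p m K x σ H) (φ : IrrCharacter H) (j : ℕ) (h : H) :
    (φ : H → ℂ) ((⟨x, S.mem⟩ : H) ^ j * h) = zc p ((j : ZMod p) * S.expo φ) * (φ : H → ℂ) h := by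
  induction j with
  | zero => simp
  | succ j ih =>
    rw [pow_succ', mul_assoc, S.expo_spec, ih, ← mul_assoc, ← AddChar.map_add_eq_mul,
      Nat.cast_succ, add_mul, one_mul, add_comm]

theorem value_pow (S : Once M p m K x σ H) (χ : IrrCharacter G) (j : ℕ) :
    (χ : G → ℂ) (x ^ j) = ∑ φ : IrrCharacter H,
      ((mult χ φ * charDegree (φ : H → ℂ) : ℕ) : ℂ) * zc p ((j : ZMod p) * S.expo φ) := by
  have h := apply_eq_sum_mult χ ((⟨x, S.mem⟩ : H) ^ j)
  rw [Subgroup.coe_pow] at h
  rw [show (χ : G → ℂ) (x ^ j) = _ from h]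
  refine Finset.sum_congr rfl fun φ _ => ?_
  have h2 := S.expo_pow φ j 1
  rw [mul_one] at h2
  rw [h2, (Blocks.charDegree_eq φ.2).1, Nat.cast_mul]
  ring

/-- The multiplicity of the eigenvalue with exponent `i`. -/
noncomputable def eigMult (S : Once M p m K x σ H) (χ : IrrCharacter G) (i : ZMod p) : ℕ :=
  ∑ φ ∈ Finset.univ.filter (fun φ : IrrCharacter H => S.expo φ = i),
    mult χ φ * charDegree (φ : H → ℂ)

theorem value_eig (S : Once M p m K x σ H) (χ : IrrCharacter G) (j : ℕ) :
    (χ : G → ℂ) (x ^ j) = ∑ i : ZMod p, (S.eigMult χ i : ℂ) * zc p ((j : ZMod p) * i) := by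
  classical
  rw [S.value_pow χ j, ← Finset.sum_fiberwise Finset.univ (fun φ => S.expo φ)]
  refine Finset.sum_congr rfl fun i _ => ?_
  rw [eigMult, Nat.cast_sum, Finset.sum_mul]
  exact Finset.sum_congr rfl fun φ hφ => by rw [(Finset.mem_filter.1 hφ).2]

theorem degree_eig (S : Once M p m K x σ H) (χ : IrrCharacter G) :
    charDegree (χ : G → ℂ) = ∑ i : ZMod p, S.eigMult χ i := by
  have h := S.value_eig χ 0
  simp only [pow_zero, Nat.cast_zero, zero_mul, AddChar.map_zero_eq_one, mul_one] at h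
  rw [(Blocks.charDegree_eq χ.2).1] at h
  exact_mod_cast h

/-- Twice the sum of the values over the powers of `x` counts the eigenvalues equal to one. -/
theorem sum_values_pow (S : Once M p m K x σ H) (χ : IrrCharacter G) :
    ∑ j : ZMod p, (χ : G → ℂ) (x ^ j.val) = (p : ℂ) * S.eigMult χ 0 := by
  classical
  simp only [S.value_eig]
  rw [Finset.sum_comm]
  simp only [← Finset.mul_sum, ZMod.natCast_rightInverse _, zc_sum, mul_ite, mul_zero,
    Finset.sum_ite_eq', Finset.mem_univ, if_true]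
  ring

/-- The inner products along the powers of `x`. -/
theorem sum_values_mul (S : Once M p m K x σ H) (χ : IrrCharacter G) (a : ℕ) :
    ∑ j : ZMod p, (χ : G → ℂ) (x ^ (j.val * a)) * conj ((χ : G → ℂ) (x ^ j.val)) =
      (p : ℂ) * ((∑ i : ZMod p, ∑ i' : ZMod p,
        if (a : ZMod p) * i = i' then S.eigMult χ i * S.eigMult χ i' else 0 : ℕ) : ℂ) := by
  classical
  have hconj : ∀ b : ZMod p, conj (zc p b) = zc p (-b) := fun b => by
    rw [← Complex.inv_eq_conj, AddChar.map_neg_eq_inv]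
    refine Complex.norm_eq_one_of_pow_eq_one (n := p) ?_ hp.out.ne_zero
    rw [← AddChar.map_nsmul_eq_pow, nsmul_eq_mul, ZMod.natCast_self, zero_mul,
      AddChar.map_zero_eq_one]
  simp only [S.value_eig, map_sum, map_mul, map_natCast, hconj, Finset.sum_mul_sum]
  rw [Finset.sum_comm, Nat.cast_sum, Finset.mul_sum]
  refine Finset.sum_congr rfl fun i _ => ?_
  rw [Finset.sum_comm, Nat.cast_sum, Finset.mul_sum]
  refine Finset.sum_congr rfl fun i' _ => ?_
  rw [Finset.sum_congr rfl (g := fun j : ZMod p =>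
    (S.eigMult χ i : ℂ) * (S.eigMult χ i' : ℂ) * zc p (j * ((a : ZMod p) * i - i'))) fun j _ => by
      rw [show j * ((a : ZMod p) * i - i') = j * (a : ZMod p) * i + -(j * i') by ring,
        AddChar.map_add_eq_mul, Nat.cast_mul, ZMod.natCast_rightInverse j]
      ring, ← Finset.mul_sum, zc_sum]
  simp only [sub_eq_zero]
  split_ifs with h
  · push_cast; ring
  · simp

/-- The dimension of the part of `χ` in the block `b`, over the degree of the members of `b`. -/
noncomputable def blockMult (χ : IrrCharacter G) (b : Set (IrrCharacter H)) : ℕ :=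
  ∑ φ ∈ bf b, mult χ φ

/-- Its part with eigenvalue one. -/
noncomputable def blockFix (S : Once M p m K x σ H) (χ : IrrCharacter G)
    (b : Set (IrrCharacter H)) : ℕ :=
  ∑ φ ∈ (bf b).filter (fun φ => S.expo φ = 0), mult χ φ

theorem blockFix_le (S : Once M p m K x σ H) (χ : IrrCharacter G) (b : Set (IrrCharacter H)) :
    S.blockFix χ b ≤ blockMult χ b :=
  Finset.sum_le_sum_of_subset (Finset.filter_subset _ _)

theorem degree_const (S : Once M p m K x σ H) {b : Set (IrrCharacter H)} (hb : IsPBlock M b)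
    {φ ψ : IrrCharacter H} (hφ : φ ∈ b) (hψ : ψ ∈ b) :
    charDegree (φ : H → ℂ) = charDegree (ψ : H → ℂ) := by
  obtain ⟨θ, hθ, hθx⟩ := S.exists_trivial hb
  have h1 : ¬ p ∣ orderOf (1 : H) := by rw [orderOf_one]; exact hp.out.not_dvd_one
  simp only [charDegree, (S.block_loc hb hθ hθx).1 φ hφ 1 h1, (S.block_loc hb hθ hθx).1 ψ hψ 1 h1]

/-- The common degree of a block. -/
noncomputable def blockDeg (b : Set (IrrCharacter H)) : ℕ := by
  classical exact if h : b.Nonempty then charDegree (h.some : H → ℂ) else 0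

theorem blockDeg_eq (S : Once M p m K x σ H) {b : Set (IrrCharacter H)} (hb : IsPBlock M b)
    {φ : IrrCharacter H} (hφ : φ ∈ b) : charDegree (φ : H → ℂ) = blockDeg b := by
  classical
  have h : b.Nonempty := ⟨φ, hφ⟩
  rw [blockDeg, dif_pos h]
  exact S.degree_const hb hφ h.some_mem

theorem blockDeg_pos (S : Once M p m K x σ H) {b : Set (IrrCharacter H)} (hb : IsPBlock M b) :
    0 < blockDeg b := by
  obtain ⟨φ, hφ⟩ := block_nonempty hb
  rw [← S.blockDeg_eq hb hφ]
  exact (Blocks.charDegree_eq φ.2).2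

theorem sum_over_blocks (S : Once M p m K x σ H) (F : IrrCharacter H → ℕ) :
    ∑ φ : IrrCharacter H, F φ * charDegree (φ : H → ℂ) =
      ∑ b ∈ blockFinset M H, blockDeg b * ∑ φ ∈ bf b, F φ := by
  classical
  rw [← Finset.sum_fiberwise_of_maps_to (g := fun φ : IrrCharacter H => blockOf M (φ : H → ℂ))
    (t := blockFinset M H) fun φ _ => mem_blockFinset.2 (isPBlock_blockOf φ)]
  refine Finset.sum_congr rfl fun b hb => ?_
  have hb' := mem_blockFinset.1 hb
  rw [Finset.mul_sum]
  refine Finset.sum_congr ?_ fun φ hφ => ?_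
  · ext φ
    simp only [Finset.mem_filter, Finset.mem_univ, true_and, mem_bf]
    exact ⟨fun h => h ▸ mem_blockOf_self φ, fun h => (block_eq_of_mem hb' h).symm⟩
  · rw [S.blockDeg_eq hb' (mem_bf.1 hφ), mul_comm]

theorem degree_blocks (S : Once M p m K x σ H) (χ : IrrCharacter G) :
    charDegree (χ : G → ℂ) = ∑ b ∈ blockFinset M H, blockDeg b * blockMult χ b := by
  rw [S.degree_eig]
  refine Eq.trans ?_ (S.sum_over_blocks (mult χ))
  simp only [eigMult]
  exact Finset.sum_fiberwise Finset.univ (fun φ => S.expo φ) _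

theorem eig_zero_blocks (S : Once M p m K x σ H) (χ : IrrCharacter G) :
    S.eigMult χ 0 = ∑ b ∈ blockFinset M H, blockDeg b * S.blockFix χ b := by
  classical
  have h := S.sum_over_blocks (fun φ => if S.expo φ = 0 then mult χ φ else 0)
  simp only [ite_mul, zero_mul, ← Finset.sum_filter] at h
  exact h

theorem dB_eq_sum (S : Once M p m K x σ H) (b : Set (IrrCharacter H)) (χ : IrrCharacter G) :
    dB x b χ = ∑ φ ∈ bf b, (mult χ φ : ℂ) * zc p (S.expo φ) := by
  refine Finset.sum_congr rfl fun φ _ => ?_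
  rw [← mult_spec, Chars.classInner_def, Chars.classInner_def, mul_assoc, Finset.sum_mul]
  congr 1
  refine Fintype.sum_equiv (Equiv.mulLeft (⟨x, S.mem⟩ : H)) _ _ fun c => ?_
  show (χ : G → ℂ) (x * (c : G)) * conj ((φ : H → ℂ) c) =
    (χ : G → ℂ) (x * (c : G)) * conj ((φ : H → ℂ) ((⟨x, S.mem⟩ : H) * c)) * zc p (S.expo φ)
  rw [S.expo_spec, map_mul]
  have h1 : conj (zc p (S.expo φ)) * zc p (S.expo φ) = 1 := by
    rw [mul_comm, Complex.mul_conj', Complex.norm_eq_one_of_pow_eq_one (n := p) ?_ hp.out.ne_zero]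
    · simp
    · rw [← AddChar.map_nsmul_eq_pow, nsmul_eq_mul, ZMod.natCast_self, zero_mul,
        AddChar.map_zero_eq_one]
  linear_combination (-((χ : G → ℂ) (x * (c : G)) * conj ((φ : H → ℂ) c))) * h1

/-- The fixed part of a block in terms of the decomposition numbers. -/
theorem fix_eq (S : Once M p m K x σ H) {b : Set (IrrCharacter H)} (hb : IsPBlock M b)
    (χ : IrrCharacter G) :
    ((p * S.blockFix χ b : ℕ) : ℂ) =
      (blockMult χ b : ℂ) + ∑ r ∈ Finset.range (p - 1), dB x b ((gal σ)^[r] χ) := by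
  classical
  have hσzc : ∀ (r : ℕ) (e : ZMod p), (⇑σ)^[r] (zc p e) = zc p (((K : ℕ) : ZMod p) ^ r * e) := by
    intro r e
    rw [← powAut_apply, ← ZMod.natCast_rightInverse e, zc_natCast, map_pow, powAut_zetaP S.hk,
      ← pow_mul, ← zc_natCast, Nat.cast_mul, Nat.cast_pow]
  have horb : ∀ e : ZMod p, ∑ r ∈ Finset.range (p - 1), zc p (((K : ℕ) : ZMod p) ^ r * e) =
      if e = 0 then ((p - 1 : ℕ) : ℂ) else -1 := by
    intro e
    split_ifs with he
    · simp [he]
    · have hsum : ∑ i ∈ Finset.univ.erase (0 : ZMod p), zc p i = -1 := by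
        have h := zc_sum (p := p) 1
        simp only [mul_one, one_ne_zero, if_false] at h
        rw [← Finset.add_sum_erase _ _ (Finset.mem_univ (0 : ZMod p)),
          AddChar.map_zero_eq_one] at h
        linear_combination h
      rw [← hsum]
      refine Finset.sum_bij (fun r _ => ((K : ℕ) : ZMod p) ^ r * e) (fun r _ => ?_)
        (fun r hr r' hr' h => ?_) (fun i hi => ?_) fun r _ => rfl
      · refine Finset.mem_erase.2 ⟨mul_ne_zero (pow_ne_zero r ?_) he, Finset.mem_univ _⟩
        intro h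
        have h1 := S.hKpow
        rw [h, zero_pow (by have := hp.out.two_le; omega)] at h1
        exact zero_ne_one h1
      · refine pow_injOn_Iio_orderOf (x := ((K : ℕ) : ZMod p)) ?_ ?_ (mul_right_cancel₀ he h)
        · rw [S.ord]; exact Set.mem_Iio.2 (Finset.mem_range.1 hr)
        · rw [S.ord]; exact Set.mem_Iio.2 (Finset.mem_range.1 hr')
      · obtain ⟨r, hr, hr'⟩ := S.exists_pow_K (a := i * e⁻¹)
          (mul_ne_zero (Finset.mem_erase.1 hi).1 (inv_ne_zero he))
        exact ⟨r, Finset.mem_range.2 hr, by rw [hr', mul_assoc, inv_mul_cancel₀ he, mul_one]⟩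
  have hrw : ∀ r, dB x b ((gal σ)^[r] χ) =
      ∑ φ ∈ bf b, (mult χ φ : ℂ) * zc p (((K : ℕ) : ZMod p) ^ r * S.expo φ) := fun r => by
    rw [← iterate_dB S hb, S.dB_eq_sum, ← powAut_apply, map_sum]
    refine Finset.sum_congr rfl fun φ _ => ?_
    rw [map_mul, map_natCast, powAut_apply, hσzc]
  simp only [hrw]
  rw [Finset.sum_comm]
  rw [Finset.sum_congr rfl fun φ _ => show ∑ r ∈ Finset.range (p - 1),
      (mult χ φ : ℂ) * zc p (((K : ℕ) : ZMod p) ^ r * S.expo φ) = _ by rw [← Finset.mul_sum, horb]]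
  simp only [blockFix, blockMult, Nat.cast_mul, Nat.cast_sum,
    Finset.sum_filter, Finset.mul_sum, ← Finset.sum_add_distrib]
  refine Finset.sum_congr rfl fun φ _ => ?_
  split_ifs
  · rw [Nat.cast_sub hp.out.one_le]; push_cast; ring
  · push_cast; ring

/-- The block part only sees the regular values. -/
theorem blockMult_eq_sum (S : Once M p m K x σ H) {b : Set (IrrCharacter H)} (hb : IsPBlock M b)
    (χ : IrrCharacter G) :
    (blockDeg b : ℂ) * (blockMult χ b : ℂ) =
      ∑ k ∈ regs p H, blockCoeff b k * (χ : G → ℂ) k := by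
  classical
  have h := blockPart_eq_sum b
    (Chars.isClassFunction_of_isCharacter
      (Chars.isCharacter_restrict (Chars.irr_isCharacter χ) H)) 1
  simp only [mul_one] at h
  rw [Finset.sum_subset (Finset.subset_univ (regs p H)) fun k _ hk => by
      rw [blockCoeff_eq_zero_of_dvd S.hpM hb (not_not.1 fun h => hk (mem_regs.2 h)), zero_mul],
    ← h, blockPart, finsum_mem_bf, blockMult, Nat.cast_sum, Finset.mul_sum]
  refine Finset.sum_congr rfl fun φ hφ => ?_
  rw [Chars.classInner_congr_fintype (Fintype.ofFinite H) inferInstance,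
    mult_spec χ φ,
    (Blocks.charDegree_eq φ.2).1, S.blockDeg_eq hb (mem_bf.1 hφ)]
  ring

theorem blockMult_congr (S : Once M p m K x σ H) {b : Set (IrrCharacter H)} (hb : IsPBlock M b)
    {χ ψ : IrrCharacter G} (h : ∀ g : G, ¬ p ∣ orderOf g → (χ : G → ℂ) g = (ψ : G → ℂ) g) :
    blockMult χ b = blockMult ψ b := by
  have h1 : (blockDeg b : ℂ) * (blockMult χ b : ℂ) = (blockDeg b : ℂ) * (blockMult ψ b : ℂ) := by
    rw [S.blockMult_eq_sum hb, S.blockMult_eq_sum hb]
    exact Finset.sum_congr rfl fun k hk => by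
      rw [h k (by rw [Subgroup.orderOf_coe]; exact mem_regs.1 hk)]
  exact_mod_cast mul_left_cancel₀ (Nat.cast_ne_zero.2 (S.blockDeg_pos hb).ne') h1

/-- Conjugate blocks have equal multiplicities. -/
theorem blockMult_conj (S : Once M p m K x σ H) {n : G}
    (hn : n ∈ Subgroup.normalizer (H : Set G)) {b : Set (IrrCharacter H)} (hb : IsPBlock M b)
    (χ : IrrCharacter G) : blockMult χ (mapSet (normEquiv hn) b) = blockMult χ b := by
  classical
  have hb' := isPBlock_mapSet (normEquiv hn) hb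
  have hdeg : blockDeg (mapSet (normEquiv hn) b) = blockDeg b := by
    obtain ⟨φ, hφ⟩ := block_nonempty hb'
    rw [← S.blockDeg_eq hb' hφ, ← S.blockDeg_eq hb (show irrEquiv (normEquiv hn) φ ∈ b from hφ)]
    simp only [charDegree, irrEquiv_apply, map_one]
  have h1 : (blockDeg b : ℂ) * (blockMult χ (mapSet (normEquiv hn) b) : ℂ) =
      (blockDeg b : ℂ) * (blockMult χ b : ℂ) := by
    conv_lhs => rw [← hdeg, S.blockMult_eq_sum hb']
    rw [S.blockMult_eq_sum hb]
    symm
    refine Finset.sum_equiv (normEquiv hn).toEquiv (fun c => ?_) fun c _ => ?_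
    · simp only [mem_regs]
      rw [show (normEquiv hn).toEquiv c = normEquiv hn c from rfl, MulEquiv.orderOf_eq]
    · show _ = blockCoeff (mapSet (normEquiv hn) b) (normEquiv hn c) *
        (χ : G → ℂ) ((normEquiv hn c : H) : G)
      rw [blockCoeff_mapSet, coe_normEquiv, Chars.isClassFunction_irr χ (c : G) n]
  exact_mod_cast mul_left_cancel₀ (Nat.cast_ne_zero.2 (S.blockDeg_pos hb).ne') h1

theorem expo_gal (S : Once M p m K x σ H) (φ : IrrCharacter H) :
    S.expo (gal σ φ) = ((K : ℕ) : ZMod p) * S.expo φ := by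
  refine zc_injective (mul_right_cancel₀ (Chars.irr_apply_one_ne_zero (gal σ φ).2) ?_)
  rw [← S.expo_spec, gal_apply, S.expo_spec, map_mul, ← gal_apply σ φ]
  congr 1
  conv_lhs => rw [← ZMod.natCast_rightInverse (S.expo φ), zc_natCast, map_pow, S.hk, ← pow_mul,
    ← zc_natCast, Nat.cast_mul, ZMod.natCast_rightInverse (S.expo φ)]

theorem mult_gal (S : Once M p m K x σ H) (χ : IrrCharacter G) (φ : IrrCharacter H) :
    mult (gal σ χ) (gal σ φ) = mult χ φ := by
  have h := OddChar.classInner_map σ (φ := fun h : H => (χ : G → ℂ) h) (Chars.irr_isCharacter φ)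
  rw [mult_spec, map_natCast] at h
  have h' : classInner (fun h : H => (gal σ χ : G → ℂ) h) (gal σ φ : H → ℂ) = (mult χ φ : ℂ) := h
  rw [mult_spec] at h'
  exact_mod_cast h'

theorem expo_conj (S : Once M p m K x σ H) {n : G} (hn : n ∈ Subgroup.normalizer (H : Set G))
    {r : ℕ} (hxr : n⁻¹ * x * n = x ^ K ^ r) (φ : IrrCharacter H) :
    S.expo φ = ((K : ℕ) : ZMod p) ^ r * S.expo (irrEquiv (normEquiv hn) φ) := by
  refine zc_injective (mul_right_cancel₀ (Chars.irr_apply_one_ne_zero φ.2) ?_)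
  rw [← S.expo_spec, mul_one]
  have h := S.expo_pow (irrEquiv (normEquiv hn) φ) (K ^ r) 1
  rw [mul_one, irrEquiv_apply, irrEquiv_apply, map_one, Nat.cast_pow] at h
  rw [← h]
  refine congrArg (φ : H → ℂ) (Subtype.ext ?_)
  rw [coe_normEquiv, Subgroup.coe_pow]
  show x = n * x ^ K ^ r * n⁻¹
  rw [← hxr]
  group

theorem mult_conj (S : Once M p m K x σ H) {n : G} (hn : n ∈ Subgroup.normalizer (H : Set G))
    (χ : IrrCharacter G) (φ : IrrCharacter H) :
    mult χ (irrEquiv (normEquiv hn) φ) = mult χ φ := by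
  have h : classInner (fun h : H => (χ : G → ℂ) h) (irrEquiv (normEquiv hn) φ : H → ℂ) =
      classInner (fun h : H => (χ : G → ℂ) h) (φ : H → ℂ) := by
    rw [Chars.classInner_def, Chars.classInner_def]
    congr 1
    refine Fintype.sum_equiv (normEquiv hn).toEquiv _ _ fun c => ?_
    rw [irrEquiv_apply]
    show _ = (χ : G → ℂ) ((normEquiv hn c : H) : G) * conj ((φ : H → ℂ) (normEquiv hn c))
    rw [coe_normEquiv, Chars.isClassFunction_irr χ (c : G) n]
  rw [mult_spec, mult_spec] at h
  exact_mod_cast h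

end Once

end Cfsg.Agent.Chars2.Cyc
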