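import Cfsg.Agent.Chars2.Fong
import Cfsg.Agent.Chars.Glauberman
import Cfsg.Agent.Chars.Transport
import Cfsg.Agent.Coprime.PxQ

/-!
A block above an invariant character of `O_{p'}` of a `p`-constrained group is of principal type.
-/

set_option autoImplicit false
set_option linter.style.haveILetI false
set_option linter.unusedSectionVars false

namespace Cfsg.Agent.Chars2

open Cfsg Cfsg.Agent
open scoped ComplexConjugate commutatorElement

universe u

variable {G : Type u} [Group G] [Fintype G] {p : ℕ} [Fact p.Prime] {M : Ideal AlgInt} [M.IsMaximal]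

/-- A coset of a normal `p'`-subgroup stable under conjugation by a `p`-group has a fixed point. -/
theorem exists_fixed_in_coset (N : Subgroup G) [N.Normal] (hN : ¬ p ∣ Nat.card N) (Q : Subgroup G)
    (hQ : IsPGroup p Q) (y : G) (hy : ∀ q ∈ Q, q * y * q⁻¹ * y⁻¹ ∈ N) :
    ∃ n ∈ N, n * y ∈ Subgroup.centralizer (Q : Set G) := by
  let S := {z : G // z * y⁻¹ ∈ N}
  letI : SMul Q S := ⟨fun q z => ⟨(q : G) * z.1 * (q : G)⁻¹, by
    have h1 : (q : G) * (z.1 * y⁻¹) * (q : G)⁻¹ ∈ N := ‹N.Normal›.conj_mem _ z.2 q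
    have h2 := N.mul_mem h1 (hy q q.2)
    have e : (q : G) * (z.1 * y⁻¹) * (q : G)⁻¹ * ((q : G) * y * (q : G)⁻¹ * y⁻¹) =
        (q : G) * z.1 * (q : G)⁻¹ * y⁻¹ := by group
    rwa [e] at h2⟩⟩
  letI : MulAction Q S :=
    { one_smul := fun z => Subtype.ext (by
        show ((1 : Q) : G) * z.1 * ((1 : Q) : G)⁻¹ = z.1
        simp)
      mul_smul := fun q r z => Subtype.ext (by
        show ((q * r : Q) : G) * z.1 * ((q * r : Q) : G)⁻¹ =
          (q : G) * ((r : G) * z.1 * (r : G)⁻¹) * (q : G)⁻¹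
        simp only [Subgroup.coe_mul]
        group) }
  have hcard : Nat.card S = Nat.card N :=
    Nat.card_congr ⟨fun z => ⟨z.1 * y⁻¹, z.2⟩, fun n => ⟨(n : G) * y, by simp⟩,
      fun z => Subtype.ext (by simp), fun n => Subtype.ext (by simp)⟩
  obtain ⟨z, hz⟩ := hQ.nonempty_fixed_point_of_prime_not_dvd_card S (by rw [hcard]; exact hN)
  refine ⟨z.1 * y⁻¹, z.2, ?_⟩
  rw [inv_mul_cancel_right, Subgroup.mem_centralizer_iff]
  intro q hq
  have h : q * z.1 * q⁻¹ = z.1 := congrArg Subtype.val (hz ⟨q, hq⟩)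
  calc q * z.1 = q * z.1 * q⁻¹ * q := by group
    _ = z.1 * q := by rw [h]

/-- A `p`-regular element centralizing a `p`-group and the fixed points of a self-centralizing
`p`-section lies in the kernel. -/
theorem mem_of_centralizes (N L Q R : Subgroup G) [N.Normal] [L.Normal] (hN : ¬ p ∣ Nat.card N)
    (hNL : N ≤ L) (hQL : Q ≤ L) (hQ : IsPGroup p Q)
    (hL : IsPGroup p (L.map (QuotientGroup.mk' N)))
    (hC : Subgroup.centralizer (Q : Set G) ≤ L) (hR : IsPGroup p R) (y : G)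
    (hy : ¬ p ∣ orderOf y) (hyR : y ∈ Subgroup.centralizer (R : Set G))
    (hyC : ∀ z ∈ L ⊓ Subgroup.centralizer (R : Set G),
      QuotientGroup.mk' N y * QuotientGroup.mk' N z = QuotientGroup.mk' N z * QuotientGroup.mk' N y) :
    y ∈ N := by
  classical
  set π := QuotientGroup.mk' N with hπ
  set O := L.map π with hO
  haveI hOn : O.Normal := ‹L.Normal›.map π (QuotientGroup.mk'_surjective N)
  set P₀ := R.map π with hP₀
  set Z := Subgroup.zpowers (π y) with hZ
  haveI : IsMulCommutative Z := Subgroup.zpowers_isMulCommutative _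
  haveI : Group.IsSolvable Z := Group.isSolvable_of_comm fun a b => mul_comm' a b
  have hord : ∀ {j : ℕ}, orderOf (π y) = p ^ j → j = 0 := by
    intro j hj
    by_contra h
    exact hy ((dvd_pow_self p h).trans (hj ▸ orderOf_map_dvd π y))
  have hZp : (Nat.card Z).Coprime p := by
    rw [Nat.card_zpowers, Nat.coprime_comm, (Fact.out : p.Prime).coprime_iff_not_dvd]
    exact fun h => hy (h.trans (orderOf_map_dvd π y))
  have hPZ : ⁅P₀, Z⁆ = ⊥ := by
    rw [Subgroup.commutator_eq_bot_iff_le_centralizer]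
    rintro _ ⟨r, hr, rfl⟩
    rw [Subgroup.mem_centralizer_iff]
    rintro _ ⟨k, rfl⟩
    have h : Commute (π y) (π r) := by
      show π y * π r = π r * π y
      rw [← map_mul, ← map_mul, Subgroup.mem_centralizer_iff.1 hyR r hr]
    exact (h.zpow_left k).eq
  have hfix : ⁅O ⊓ Subgroup.centralizer (P₀ : Set (G ⧸ N)), Z⁆ = ⊥ := by
    rw [Subgroup.commutator_eq_bot_iff_le_centralizer]
    rintro v ⟨⟨l, hl, rfl⟩, hvP⟩
    rw [Subgroup.mem_centralizer_iff]
    rintro _ ⟨k, rfl⟩
    obtain ⟨n, hn, hnl⟩ := exists_fixed_in_coset N hN R hR l (fun r hr => by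
      have h := Subgroup.mem_centralizer_iff.1 hvP (π r) ⟨r, hr, rfl⟩
      rw [← QuotientGroup.eq_one_iff, ← QuotientGroup.mk'_apply, ← hπ]
      simp only [map_mul, map_inv, h]
      group)
    have h := hyC (n * l) ⟨L.mul_mem (hNL hn) hl, hnl⟩
    rw [map_mul, show π n = 1 from (QuotientGroup.eq_one_iff n).2 hn, one_mul] at h
    exact (Commute.zpow_left h k).eq
  have hOZ := Coprime.commutator_eq_bot_of_PxQ (hR.map π) hZp hPZ _ O rfl hL
    (by rw [Subgroup.normalizer_eq_top]; exact le_top)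
    (by rw [Subgroup.normalizer_eq_top]; exact le_top) hfix
  rw [Subgroup.commutator_eq_bot_iff_le_centralizer] at hOZ
  obtain ⟨n, hn, hny⟩ := exists_fixed_in_coset N hN Q hQ y (fun q hq => by
    have h := Subgroup.mem_centralizer_iff.1 (hOZ ⟨q, hQL hq, rfl⟩) (π y) (Subgroup.mem_zpowers _)
    rw [← QuotientGroup.eq_one_iff, ← QuotientGroup.mk'_apply, ← hπ]
    simp only [map_mul, map_inv, ← h]
    group)
  have hyL : y ∈ L := by
    have := L.mul_mem (L.inv_mem (hNL hn)) (hC hny)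
    rwa [inv_mul_cancel_left] at this
  have hyO : π y ∈ O := Subgroup.mem_map_of_mem π hyL
  obtain ⟨j, hj⟩ := (IsPGroup.iff_orderOf.1 hL) ⟨π y, hyO⟩
  have hj' : orderOf (π y) = p ^ j := (Subgroup.orderOf_mk _ hyO).symm.trans hj
  rw [hord hj', pow_zero, orderOf_eq_one_iff] at hj'
  exact (QuotientGroup.eq_one_iff y).1 hj'

/-- Vanishing of central characters outside the kernel in the centralizer of a `p`-group. -/
theorem memI_outside_centralizer (hpM : (p : AlgInt) ∈ M) (N L Q R : Subgroup G) [N.Normal]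
    [L.Normal] (hN : ¬ p ∣ Nat.card N) (hNL : N ≤ L) (hQL : Q ≤ L) (hQ : IsPGroup p Q)
    (hL : IsPGroup p (L.map (QuotientGroup.mk' N)))
    (hC : Subgroup.centralizer (Q : Set G) ≤ L) (hR : IsPGroup p R) {C : Subgroup G}
    [Fintype C] (hCR : C = Subgroup.centralizer (R : Set G)) [Fintype (N.subgroupOf C)]
    (η : IrrCharacter (N.subgroupOf C)) (hinv : inertiaSub (η : N.subgroupOf C → ℂ) = ⊤)
    (χ : IrrCharacter C)
    (hcon : classInner (fun m : N.subgroupOf C => (χ : C → ℂ) m) (η : N.subgroupOf C → ℂ) ≠ 0)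
    {x : C} (hx : ¬ p ∣ orderOf x) (hxN : x ∉ N.subgroupOf C) :
    MemLocalIdeal M (centralChar (χ : C → ℂ) x) := by
  classical
  have hpp : p.Prime := Fact.out
  set L' := L.subgroupOf C with hL'
  have hN'p : ¬ p ∣ Nat.card (N.subgroupOf C) := fun h =>
    hN (h.trans ((Subgroup.card_comap_dvd_of_injective N C.subtype C.subtype_injective)))
  have hNL' : (N.subgroupOf C) ≤ L' := fun z hz => hNL hz
  let S : Sylow p L' := default
  set Q' := (S : Subgroup L').map L'.subtype with hQ'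
  have hQ'p : IsPGroup p Q' := S.2.map _
  have hQ'L : Q' ≤ L' := Subgroup.map_subtype_le _
  have hsup : (N.subgroupOf C) ⊔ Q' = L' := by
    refine Subgroup.eq_of_le_of_card_ge (sup_le hNL' hQ'L) ?_
    haveI : ((N.subgroupOf C).subgroupOf L').Normal := Subgroup.normal_subgroupOf
    have hquot : IsPGroup p (L' ⧸ (N.subgroupOf C).subgroupOf L') := by
      intro q
      obtain ⟨l, rfl⟩ := QuotientGroup.mk_surjective q
      obtain ⟨k, hk⟩ := hL ⟨QuotientGroup.mk' N ((l : C) : G), _, l.2, rfl⟩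
      refine ⟨k, ?_⟩
      rw [← QuotientGroup.mk_pow, QuotientGroup.eq_one_iff, Subgroup.mem_subgroupOf,
        Subgroup.mem_subgroupOf]
      have := congrArg Subtype.val hk
      simp only [SubmonoidClass.coe_pow, OneMemClass.coe_one, ← map_pow] at this
      simpa using (QuotientGroup.eq_one_iff _).1 this
    obtain ⟨a, ha⟩ := hquot.exists_card_eq
    have hc : Nat.card L' = Nat.card (N.subgroupOf C) * p ^ a := by
      rw [← ha, ← Nat.card_congr (Subgroup.subgroupOfEquivOfLe hNL').toEquiv,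
        mul_comm, ← Subgroup.card_eq_card_quotient_mul_card_subgroup]
    have hQc : Nat.card Q' = p ^ a := by
      rw [hQ', Subgroup.card_map_of_injective L'.subtype_injective, S.card_eq_multiplicity, hc,
        Nat.factorization_mul Nat.card_pos.ne' (pow_ne_zero _ hpp.ne_zero), Finsupp.add_apply,
        Nat.factorization_eq_zero_of_not_dvd hN'p, hpp.factorization_pow, Finsupp.single_eq_same,
        zero_add]
    rw [hc]
    refine Nat.le_of_dvd Nat.card_pos (Nat.Coprime.mul_dvd_of_dvd_of_dvd ?_ ?_ ?_)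
    · exact (((Nat.Prime.coprime_iff_not_dvd hpp).2 hN'p).pow_left a).symm
    · exact Subgroup.card_dvd_of_le le_sup_left
    · exact hQc ▸ Subgroup.card_dvd_of_le le_sup_right
  refine centralChar_memI_of_no_conj hpM (N.subgroupOf C) hN'p Q' hQ'p (hsup.symm ▸ inferInstance) η hinv χ hcon
    x ?_
  intro y hxy hy
  obtain ⟨c, rfl⟩ := isConj_iff.1 hxy
  set y := c * x * c⁻¹ with hydef
  have hyo : ¬ p ∣ orderOf (y : G) := by
    rw [Subgroup.orderOf_coe, hydef, ← MulAut.conj_apply, MulEquiv.orderOf_eq]; exact hx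
  have hyN : (y : G) ∈ N := by
    refine mem_of_centralizes N L Q R hN hNL hQL hQ hL hC hR (y : G) hyo (hCR ▸ y.2) ?_
    rintro z ⟨hzL, hzC⟩
    have hz : (⟨z, hCR ▸ hzC⟩ : C) ∈ (N.subgroupOf C) ⊔ Q' := by rw [hsup]; exact hzL
    obtain ⟨q, hq, m, hm, hqm⟩ := Subgroup.mem_sup_of_normal_right.1 (sup_comm (N.subgroupOf C) Q' ▸ hz)
    have hzq : QuotientGroup.mk' N z = QuotientGroup.mk' N (q : G) := by
      rw [← show (q : G) * (m : G) = z from congrArg Subtype.val hqm, map_mul,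
        show QuotientGroup.mk' N (m : G) = 1 from (QuotientGroup.eq_one_iff _).2 hm, mul_one]
    rw [hzq, ← map_mul, ← map_mul]
    exact congrArg _ (congrArg Subtype.val (Subgroup.mem_centralizer_iff.1 hy q hq)).symm
  refine hxN ?_
  have := ‹N.Normal›.conj_mem _ hyN (c : G)⁻¹
  rw [Subgroup.mem_subgroupOf]
  simpa [hydef, mul_assoc] using this

/-- Vanishing of central characters outside the kernel. -/
theorem memI_outside_constrained (hpM : (p : AlgInt) ∈ M) (N L Q : Subgroup G) [N.Normal]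
    [L.Normal] [Fintype N] (hN : ¬ p ∣ Nat.card N) (hNL : N ≤ L) (hQL : Q ≤ L)
    (hQ : IsPGroup p Q) (hL : IsPGroup p (L.map (QuotientGroup.mk' N)))
    (hsup : (N ⊔ Q).Normal) (hLQ : L ≤ N ⊔ Q)
    (hC : Subgroup.centralizer (Q : Set G) ≤ L) (θ : IrrCharacter N)
    (hinv : inertiaSub (θ : N → ℂ) = ⊤) (χ : IrrCharacter G)
    (hcon : classInner (fun m : N => (χ : G → ℂ) m) (θ : N → ℂ) ≠ 0) {x : G}
    (hx : ¬ p ∣ orderOf x) (hxN : x ∉ N) : MemLocalIdeal M (centralChar (χ : G → ℂ) x) := by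
  refine centralChar_memI_of_no_conj hpM N hN Q hQ hsup θ hinv χ hcon x fun y hxy hy => hxN ?_
  obtain ⟨c, rfl⟩ := isConj_iff.1 hxy
  have hyo : ¬ p ∣ orderOf (c * x * c⁻¹) := by
    rw [← MulAut.conj_apply, MulEquiv.orderOf_eq]; exact hx
  have hyN := mem_of_centralizes N L Q ⊥ hN hNL hQL hQ hL hC IsPGroup.of_bot (c * x * c⁻¹) hyo
    (Subgroup.mem_centralizer_iff.2 fun r hr => by rw [Subgroup.mem_bot.1 hr]; simp) ?_
  · simpa [mul_assoc] using ‹N.Normal›.conj_mem _ hyN c⁻¹
  rintro z ⟨hzL, -⟩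
  obtain ⟨q, hq, m, hm, rfl⟩ := Subgroup.mem_sup_of_normal_right.1 (sup_comm N Q ▸ hLQ hzL)
  rw [map_mul (QuotientGroup.mk' N) q m,
    show QuotientGroup.mk' N m = 1 from (QuotientGroup.eq_one_iff m).2 hm, mul_one,
    ← map_mul, ← map_mul, Subgroup.mem_centralizer_iff.1 hy q hq]

theorem degree_prime_to {H : Type*} [Group H] [Finite H] (hH : ¬ p ∣ Nat.card H) {θ : H → ℂ}
    (hθ : IsIrrCharacter H θ) : ∃ d : ℕ, θ 1 = d ∧ ¬ p ∣ d := by
  obtain ⟨d, -, hd, hdvd⟩ := Chars.irr_degree_dvd_card hθ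
  exact ⟨d, hd, fun h => hH (h.trans hdvd)⟩

/-- The fixed point correspondent of an invariant character: the only one of multiplicity prime
to `p`. -/
theorem exists_unique_mult (N R : Subgroup G) [N.Normal] [Fintype N] (hN : ¬ p ∣ Nat.card N)
    (hR : IsPGroup p R) (θ : IrrCharacter N) (hinv : inertiaSub (θ : N → ℂ) = ⊤) {C : Subgroup G}
    (hCR : C = Subgroup.centralizer (R : Set G)) [Fintype (N.subgroupOf C)] :
    ∃ (μ : IrrCharacter (N.subgroupOf C) → ℕ) (η₀ : IrrCharacter (N.subgroupOf C)),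
      (∀ η : IrrCharacter (N.subgroupOf C), classInner (fun m : N.subgroupOf C => (θ : N → ℂ) ⟨((m : C) : G), m.2⟩)
        (η : N.subgroupOf C → ℂ) = μ η) ∧ ¬ p ∣ μ η₀ ∧ ∀ η, ¬ p ∣ μ η → η = η₀ := by
  classical
  let φ : R →* MulAut N := Chars.conjHom N R fun s _ g hg => ‹N.Normal›.conj_mem g hg s
  have hiv : Chars.InvFun φ (θ : N → ℂ) := by
    intro r n
    have h := congrFun (mem_inertiaSub.1 (hinv ▸ Subgroup.mem_top (r : G)⁻¹ :
      (r : G)⁻¹ ∈ inertiaSub (θ : N → ℂ))) n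
    rw [conjFun_apply] at h
    refine Eq.trans (congrArg (θ : N → ℂ) (Subtype.ext ?_)) h
    simp [φ]
  haveI : Fintype (Chars.fixSub φ) := Fintype.ofFinite _
  let e : N.subgroupOf C ≃* Chars.fixSub φ :=
    { toFun := fun m => ⟨⟨((m : C) : G), m.2⟩, fun r => Subtype.ext (by
        have hmC : ((m : C) : G) ∈ Subgroup.centralizer (R : Set G) := hCR.le (m : C).2
        have h := Subgroup.mem_centralizer_iff.1 hmC (r : G) r.2
        simp [φ, h])⟩
      invFun := fun n => ⟨⟨((n : N) : G), hCR.ge <| Subgroup.mem_centralizer_iff.2 fun r hr => by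
        have h : r * ((n : N) : G) * r⁻¹ = ((n : N) : G) :=
          congrArg Subtype.val (n.2 ⟨r, hr⟩)
        calc r * ((n : N) : G) = r * ((n : N) : G) * r⁻¹ * r := by group
          _ = ((n : N) : G) * r := by rw [h]⟩, (n : N).2⟩
      left_inv := fun m => rfl
      right_inv := fun n => rfl
      map_mul' := fun a b => rfl }
  obtain ⟨Φ, m, hm⟩ := Chars.glauberman_pgroup (Fact.out : p.Prime) hR φ hN
  let χθ : {χ : IrrCharacter N // Chars.InvFun φ (χ : N → ℂ)} := ⟨θ, hiv⟩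
  let E := Chars.irrEquiv e
  have key : ∀ β : IrrCharacter (Chars.fixSub φ),
      classInner (fun z : N.subgroupOf C => (θ : N → ℂ) ⟨((z : C) : G), z.2⟩)
        (E β : N.subgroupOf C → ℂ) =
      Chars.restrMult (Chars.fixSub φ) (θ : N → ℂ) (β : Chars.fixSub φ → ℂ) := fun β =>
    Chars.classInner_comp_equiv e (fun z : Chars.fixSub φ => (θ : N → ℂ) (z : N))
      (β : Chars.fixSub φ → ℂ)
  choose k hk using fun β : IrrCharacter (Chars.fixSub φ) => Chars.exists_classInner_eq_nat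
    (Chars.isCharacter_restrict (Chars.irr_isCharacter θ) (Chars.fixSub φ))
    (Chars.irr_isCharacter β)
  obtain ⟨h1, h2, h3⟩ := hm χθ
  refine ⟨fun η => k (E.symm η), E (Φ χθ), fun η => ?_, ?_, ?_⟩
  · obtain ⟨β, rfl⟩ := E.surjective η
    simp only [E.symm_apply_apply, key]
    exact hk β
  · simp only [E.symm_apply_apply]
    have h4 : k (Φ χθ) = m χθ := by exact_mod_cast (hk (Φ χθ)).symm.trans h1
    rw [h4]
    intro hd
    have hd' : ((m χθ : ℤ)) ≡ 0 [ZMOD p] :=
      Int.modEq_zero_iff_dvd.2 (Int.natCast_dvd_natCast.2 hd)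
    have h5 : (p : ℤ) ∣ 1 := by
      rcases h2 with h | h
      · exact Int.modEq_zero_iff_dvd.1 (h.symm.trans hd')
      · simpa using Int.modEq_zero_iff_dvd.1 (h.symm.trans hd')
    exact (Fact.out : p.Prime).not_dvd_one (Int.natCast_dvd_natCast.1 h5)
  · intro η hη
    rw [← E.apply_symm_apply η]
    exact congrArg E (h3 _ _ (hk _) hη)

open Classical in
/-- The idempotent of an invariant character of a normal subgroup, and its central characters. -/
theorem eTheta_facts (hpM : (p : AlgInt) ∈ M) (N : Subgroup G) [N.Normal] [Fintype N]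
    (hN : ¬ p ∣ Nat.card N) (θ : IrrCharacter N) (hinv : inertiaSub (θ : N → ℂ) = ⊤) :
    IsClassFunction G (Cfsg.extendByZero N (Blocks.eFun (θ : N → ℂ))) ∧
      Blocks.RFun M (Cfsg.extendByZero N (Blocks.eFun (θ : N → ℂ))) ∧
      ∀ χ : IrrCharacter G,
        Blocks.omega (χ : G → ℂ) (Cfsg.extendByZero N (Blocks.eFun (θ : N → ℂ))) =
          if classInner (fun n : N => (χ : G → ℂ) n) (θ : N → ℂ) = 0 then 0 else 1 := by
  obtain ⟨d, hd, hpd⟩ := degree_prime_to (p := p) hN θ.2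
  refine ⟨?_, ?_, ?_⟩
  · intro g c
    by_cases hg : g ∈ N
    · have hg' := ‹N.Normal›.conj_mem g hg c
      rw [Chars.extendByZero_of_mem N _ hg, Chars.extendByZero_of_mem N _ hg']
      have h := congrFun (mem_inertiaSub.1 (hinv ▸ Subgroup.mem_top c⁻¹ :
        c⁻¹ ∈ inertiaSub (θ : N → ℂ))) ⟨g, hg⟩
      rw [conjFun_apply] at h
      simp only [inv_inv] at h
      simp only [Blocks.eFun, h]
    · have hg' : c * g * c⁻¹ ∉ N := fun h => hg (by
        simpa [mul_assoc] using ‹N.Normal›.conj_mem _ h c⁻¹)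
      rw [Chars.extendByZero_of_not_mem N _ hg, Chars.extendByZero_of_not_mem N _ hg']
  · intro g
    by_cases hg : g ∈ N
    · rw [Chars.extendByZero_of_mem N _ hg, Blocks.eFun, hd,
        ← Chars.char_inv_eq_conj (Chars.irr_isCharacter θ)]
      exact Blocks.memR_mul (Blocks.memR_inv_natCast hpM hN)
        (Blocks.memR_mul (Blocks.memR_natCast d) (Blocks.irr_memR θ _))
    · rw [Chars.extendByZero_of_not_mem N _ hg]; exact Blocks.memR_zero
  · intro χ
    have hω : Blocks.omega (χ : G → ℂ) (Cfsg.extendByZero N (Blocks.eFun (θ : N → ℂ))) =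
        (d : ℂ) * classInner (fun n : N => (χ : G → ℂ) n) (θ : N → ℂ) / (χ : G → ℂ) 1 := by
      rw [Blocks.omega, Chars.sum_extendByZero_mul, Chars.classInner_def, Finset.mul_sum,
        Finset.mul_sum]
      congr 1
      refine Finset.sum_congr rfl fun m _ => ?_
      rw [Blocks.eFun, hd]; ring
    rw [hω]
    split_ifs with h
    · rw [h, mul_zero, zero_div]
    · have h2 := clifford_invariant χ.2 θ.2 hinv h 1
      simp only [Subgroup.coe_one] at h2
      rw [h2, hd, mul_comm (d : ℂ), div_self]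
      refine mul_ne_zero h ?_
      rw [← hd]
      exact Chars.irr_apply_one_ne_zero θ.2

/-- A function class constant on `G`, supported in a normal subgroup, seen on a subgroup. -/
theorem omega_eTheta_centralizer (N : Subgroup G) [N.Normal] [Fintype N] (θ : IrrCharacter N)
    (hinv : inertiaSub (θ : N → ℂ) = ⊤) (C : Subgroup G) [Fintype C] [Fintype (N.subgroupOf C)]
    (ξ : IrrCharacter C) {η : IrrCharacter (N.subgroupOf C)}
    (hη : classInner (fun m : N.subgroupOf C => (ξ : C → ℂ) m) (η : N.subgroupOf C → ℂ) ≠ 0) :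
    Blocks.omega (ξ : C → ℂ) (Blocks.resFun C (Cfsg.extendByZero N (Blocks.eFun (θ : N → ℂ)))) =
      (Nat.card N : ℂ)⁻¹ * (θ : N → ℂ) 1 * (Nat.card (N.subgroupOf C) : ℂ) *
        conj (classInner (fun m : N.subgroupOf C => (θ : N → ℂ) ⟨((m : C) : G), m.2⟩)
          (η : N.subgroupOf C → ℂ)) / (η : N.subgroupOf C → ℂ) 1 := by
  classical
  set T : (N.subgroupOf C) → ℂ := fun m => (θ : N → ℂ) ⟨((m : C) : G), m.2⟩ with hT
  have hres : Blocks.resFun C (Cfsg.extendByZero N (Blocks.eFun (θ : N → ℂ))) =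
      Cfsg.extendByZero (N.subgroupOf C) (fun m => (Nat.card N : ℂ)⁻¹ * ((θ : N → ℂ) 1 * conj (T m))) := by
    funext c
    by_cases hc : (c : G) ∈ N
    · rw [Chars.extendByZero_of_mem (N.subgroupOf C) _ (show c ∈ (N.subgroupOf C) from hc)]
      simp only [Blocks.resFun, Chars.extendByZero_of_mem N _ hc, Blocks.eFun, hT]
    · rw [Chars.extendByZero_of_not_mem (N.subgroupOf C) _ (show c ∉ (N.subgroupOf C) from hc)]
      simp only [Blocks.resFun, Chars.extendByZero_of_not_mem N _ hc]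
  have hclT : ∀ φ ∈ orbitFinset η.2, classInner T (φ : (N.subgroupOf C) → ℂ) = classInner T (η : (N.subgroupOf C) → ℂ) := by
    intro φ hφ
    obtain ⟨g, hg⟩ := (mem_orbitFinset η.2).1 hφ
    rw [← hg, Chars.classInner_def, Chars.classInner_def]
    congr 1
    refine Fintype.sum_equiv (MulAut.conjNormal g⁻¹).toEquiv _ _ fun m => ?_
    simp only [MulEquiv.toEquiv_eq_coe, EquivLike.coe_coe, conjFun]
    congr 1
    have h := congrFun (mem_inertiaSub.1 (hinv ▸ Subgroup.mem_top (g : G) :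
      (g : G) ∈ inertiaSub (θ : N → ℂ))) ⟨((m : C) : G), m.2⟩
    rw [conjFun_apply] at h
    refine Eq.trans h.symm (congrArg (θ : N → ℂ) (Subtype.ext ?_))
    simp [MulAut.conjNormal_apply]
  have hξ1 := clifford_restrict ξ.2 η.2 hη 1
  simp only [Subgroup.coe_one] at hξ1
  have horb1 : ∑ φ ∈ orbitFinset η.2, (φ : (N.subgroupOf C) → ℂ) 1 =
      ((orbitFinset η.2).card : ℂ) * (η : (N.subgroupOf C) → ℂ) 1 := by
    rw [← nsmul_eq_mul]
    refine Finset.sum_eq_card_nsmul fun φ hφ => ?_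
    obtain ⟨g, hg⟩ := (mem_orbitFinset η.2).1 hφ
    rw [← hg, conjFun, map_one]
  rw [horb1] at hξ1
  have hξne := Chars.irr_apply_one_ne_zero ξ.2
  have hη1 := Chars.irr_apply_one_ne_zero η.2
  rw [Blocks.omega, hres, Chars.sum_extendByZero_mul]
  set κ := classInner (fun m : (N.subgroupOf C) => (ξ : C → ℂ) m) (η : (N.subgroupOf C) → ℂ) with hκ
  have hS : ∑ m : (N.subgroupOf C), conj (T m) * (ξ : C → ℂ) m =
      κ * ((orbitFinset η.2).card : ℂ) * ((Nat.card (N.subgroupOf C) : ℂ) * conj (classInner T (η : (N.subgroupOf C) → ℂ))) := by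
    have hone : ∀ φ : IrrCharacter (N.subgroupOf C), ∑ m : (N.subgroupOf C), conj (T m) * (φ : (N.subgroupOf C) → ℂ) m =
        (Nat.card (N.subgroupOf C) : ℂ) * conj (classInner T (φ : (N.subgroupOf C) → ℂ)) := fun φ => by
      rw [Chars.classInner_def, map_mul, map_inv₀, map_natCast, mul_inv_cancel_left₀
        Chars.card_ne_zero, map_sum]
      exact Finset.sum_congr rfl fun m _ => by rw [map_mul, Complex.conj_conj]
    rw [Finset.sum_congr rfl fun m _ => by
      rw [clifford_restrict ξ.2 η.2 hη m, ← hκ, Finset.mul_sum, Finset.mul_sum]]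
    rw [Finset.sum_comm, mul_assoc, ← nsmul_eq_mul, ← Finset.sum_const, Finset.mul_sum]
    refine Finset.sum_congr rfl fun φ hφ => ?_
    rw [← hclT φ hφ, ← hone φ, Finset.mul_sum]
    exact Finset.sum_congr rfl fun m _ => by ring
  have hsum : ∑ m : (N.subgroupOf C), (Nat.card N : ℂ)⁻¹ * ((θ : N → ℂ) 1 * conj (T m)) * (ξ : C → ℂ) m =
      (Nat.card N : ℂ)⁻¹ * (θ : N → ℂ) 1 * ∑ m : (N.subgroupOf C), conj (T m) * (ξ : C → ℂ) m := by
    rw [Finset.mul_sum]
    exact Finset.sum_congr rfl fun m _ => by ring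
  rw [hsum, hS, hξ1]
  rw [hξ1] at hξne
  obtain ⟨hκ0, hcard⟩ := mul_ne_zero_iff.1 hξne
  obtain ⟨hc0, -⟩ := mul_ne_zero_iff.1 hcard
  field_simp

/-- Blocks above an invariant character of a `p`-constrained group. -/
theorem principal_type (hpM : (p : AlgInt) ∈ M) (N L Q : Subgroup G) [N.Normal]
    [L.Normal] [Fintype N] (hN : ¬ p ∣ Nat.card N) (hNL : N ≤ L) (hQL : Q ≤ L)
    (hQ : IsPGroup p Q) (hL : IsPGroup p (L.map (QuotientGroup.mk' N))) (hLQ : L ≤ N ⊔ Q)
    (hC : Subgroup.centralizer (Q : Set G) ≤ L) (θ : IrrCharacter N)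
    (hinv : inertiaSub (θ : N → ℂ) = ⊤) :
    ∃ B : Set (IrrCharacter G), IsPBlock M B ∧
      (∀ χ : IrrCharacter G, χ ∈ B ↔ classInner (fun n : N => (χ : G → ℂ) n) (θ : N → ℂ) ≠ 0) ∧
      (∀ P : Sylow p G, IsDefectGroup p M B (P : Subgroup G)) ∧
      ∀ R : Subgroup G, IsPGroup p R →
        ∃! f : Set (IrrCharacter (Subgroup.centralizer (R : Set G))),
          IsInducedBlock M (Subgroup.centralizer (R : Set G)) f B := by
  classical
  have hsup : (N ⊔ Q).Normal := by
    rw [le_antisymm (sup_le hNL hQL) hLQ]; infer_instance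
  obtain ⟨B, hB, hover, hsyl, -⟩ := fong_block_of_outside hpM N hN θ hinv
    fun χ hχ _ hx hxN => memI_outside_constrained hpM N L Q hN hNL hQL hQ hL hsup hLQ hC θ hinv χ
      hχ hx hxN
  refine ⟨B, hB, hover, hsyl, fun R hR => ?_⟩
  set C := Subgroup.centralizer (R : Set G) with hCdef
  haveI : Fintype C := Fintype.ofFinite _
  haveI : Fintype (N.subgroupOf C) := Fintype.ofFinite _
  have hN'p : ¬ p ∣ Nat.card (N.subgroupOf C) := fun h =>
    hN (h.trans ((Subgroup.card_comap_dvd_of_injective N C.subtype C.subtype_injective)))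
  obtain ⟨μ, η₀, hμ, hμ₀, huniq⟩ := exists_unique_mult N R hN hR θ hinv hCdef
  obtain ⟨d, hd, hpd⟩ := degree_prime_to (p := p) hN θ.2
  obtain ⟨hfc, hfR, hfω⟩ := eTheta_facts hpM N hN θ hinv
  set f₀ := Cfsg.extendByZero N (Blocks.eFun (θ : N → ℂ)) with hf₀
  -- the value on the centralizer
  have hval : ∀ (ξ : IrrCharacter C) (η : IrrCharacter (N.subgroupOf C)),
      classInner (fun m : N.subgroupOf C => (ξ : C → ℂ) m) (η : N.subgroupOf C → ℂ) ≠ 0 →
      (MemLocalIdeal M (Blocks.omega (ξ : C → ℂ) (Blocks.resFun C f₀)) ↔ p ∣ μ η) := by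
    intro ξ η hη
    obtain ⟨e, he, hpe⟩ := degree_prime_to (p := p) hN'p η.2
    rw [omega_eTheta_centralizer N θ hinv C ξ hη, hμ, hd, he, map_natCast]
    have e1 : (Nat.card N : ℂ)⁻¹ * (d : ℂ) * (Nat.card (N.subgroupOf C) : ℂ) * (μ η : ℂ) / (e : ℂ) =
        ((Nat.card N : ℂ)⁻¹ * (e : ℂ)⁻¹) * ((d * Nat.card (N.subgroupOf C) * μ η : ℕ) : ℂ) := by
      push_cast; ring
    rw [e1]
    have hp : p.Prime := Fact.out
    constructor
    · intro hI
      have h := Blocks.memI_mul_left (Blocks.memR_mul (Blocks.memR_natCast (Nat.card N))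
        (Blocks.memR_natCast e)) hI
      have hN0 : (Nat.card N : ℂ) ≠ 0 := Chars.card_ne_zero
      have he0 : (e : ℂ) ≠ 0 := Nat.cast_ne_zero.2 fun h0 => hpe (h0 ▸ dvd_zero p)
      rw [← mul_assoc, show (Nat.card N : ℂ) * (e : ℂ) * ((Nat.card N : ℂ)⁻¹ * (e : ℂ)⁻¹) = 1 by
        field_simp, one_mul, Blocks.memI_natCast_iff hpM] at h
      rcases hp.dvd_mul.1 h with h | h
      · exact absurd h (hp.not_dvd_mul hpd hN'p)
      · exact h
    · intro h
      exact Blocks.memI_mul_left (Blocks.memR_mul (Blocks.memR_inv_natCast hpM hN)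
        (Blocks.memR_inv_natCast hpM hpe)) ((Blocks.memI_natCast_iff hpM _).2 (h.mul_left _))
  have hind : ∀ ξ : IrrCharacter C, ∃ B' : Set (IrrCharacter G),
      IsInducedBlock M C (blockOf M (ξ : C → ℂ)) B' := by
    intro ξ
    obtain ⟨χ, hχ⟩ := Blocks.exists_omega_br C hpM hR hCdef.ge
      (hCdef ▸ BlockChar.centralizer_le_normalizer R) ξ
    refine ⟨blockOf M (χ : G → ℂ), Blocks.isInducedBlock_of_omega C (Blocks.isPBlock_blockOf ξ)
      (Blocks.isPBlock_blockOf χ) (Blocks.mem_blockOf_self ξ) (Blocks.mem_blockOf_self χ)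
      fun g => ?_⟩
    convert hχ _ (Blocks.isClassFunction_clsFun g) (Blocks.rFun_clsFun g) using 3
    funext c
    rw [Blocks.brRes_of_mem C R _ (hCdef ▸ c.2)]
    rfl
  have hcrit : ∀ ξ : IrrCharacter C, IsInducedBlock M C (blockOf M (ξ : C → ℂ)) B ↔
      ¬ MemLocalIdeal M (Blocks.omega (ξ : C → ℂ) (Blocks.resFun C f₀)) := by
    intro ξ
    constructor
    · intro h hI
      obtain ⟨χ, hχ⟩ := Blocks.block_nonempty hB
      have h1 := Blocks.isInducedBlock_apply C hpM h (Blocks.mem_blockOf_self ξ) hχ hfc hfR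
      rw [hfω, if_neg ((hover χ).1 hχ)] at h1
      exact Blocks.not_memI_one ((Blocks.memI_iff_of_sub h1).1 hI)
    · intro h
      obtain ⟨B', hB'⟩ := hind ξ
      obtain ⟨χ, hχ⟩ := Blocks.block_nonempty hB'.2.1
      have h1 := Blocks.isInducedBlock_apply C hpM hB' (Blocks.mem_blockOf_self ξ) hχ hfc hfR
      rw [hfω] at h1
      split_ifs at h1 with h2
      · rw [sub_zero] at h1; exact absurd h1 h
      · rwa [Blocks.blocks_eq_of_inter hB hB'.2.1 ((hover χ).2 h2) hχ]
  have hηinv : inertiaSub (η₀ : N.subgroupOf C → ℂ) = ⊤ := by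
    refine top_unique fun g _ => ?_
    rw [mem_inertiaSub]
    have h : μ ⟨conjFun (η₀ : N.subgroupOf C → ℂ) g, conjFun_isIrr η₀.2 g⟩ = μ η₀ := by
      apply Nat.cast_injective (R := ℂ)
      rw [← hμ, ← hμ, Chars.classInner_def, Chars.classInner_def]
      congr 1
      refine Fintype.sum_equiv (MulAut.conjNormal g⁻¹).toEquiv _ _ fun m => ?_
      simp only [MulEquiv.toEquiv_eq_coe, EquivLike.coe_coe, conjFun]
      congr 1
      have h := congrFun (mem_inertiaSub.1 (hinv ▸ Subgroup.mem_top (g : G) :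
        (g : G) ∈ inertiaSub (θ : N → ℂ))) ⟨((m : C) : G), m.2⟩
      rw [conjFun_apply] at h
      refine Eq.trans h.symm (congrArg (θ : N → ℂ) (Subtype.ext ?_))
      simp [MulAut.conjNormal_apply]
    exact congrArg Subtype.val (huniq _ (h ▸ hμ₀))
  obtain ⟨Bc, hBc, hBcover, -, -⟩ := fong_block_of_outside (G := C) hpM (N.subgroupOf C) hN'p η₀
    hηinv fun χ hχ _ hx hxN =>
      memI_outside_centralizer hpM N L Q R hN hNL hQL hQ hL hC hR hCdef η₀ hηinv χ hχ hx hxN
  refine ⟨Bc, ?_, ?_⟩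
  · obtain ⟨ξ, hξ⟩ := Blocks.block_nonempty hBc
    rw [Blocks.block_eq_of_mem hBc hξ, hcrit, hval ξ η₀ ((hBcover ξ).1 hξ)]
    exact hμ₀
  · intro f hf
    obtain ⟨ξ, hξ⟩ := Blocks.block_nonempty hf.1
    have hf1 := hf.1
    rw [Blocks.block_eq_of_mem hf.1 hξ, hcrit] at hf
    obtain ⟨η, hη⟩ : ∃ η : IrrCharacter (N.subgroupOf C),
        classInner (fun m : N.subgroupOf C => (ξ : C → ℂ) m) (η : N.subgroupOf C → ℂ) ≠ 0 := by
      by_contra hall
      push Not at hall
      have h := apply_eq_sum (Chars.isClassFunction_of_isCharacter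
        (Chars.isCharacter_restrict (Chars.irr_isCharacter ξ) (N.subgroupOf C))) 1
      simp only [hall, zero_mul, Finset.sum_const_zero, OneMemClass.coe_one] at h
      exact Chars.irr_apply_one_ne_zero ξ.2 h
    have hη0 : η = η₀ := huniq η (by rwa [hval ξ η hη] at hf)
    rw [hη0] at hη
    exact Blocks.blocks_eq_of_inter hf1 hBc hξ ((hBcover ξ).2 hη)

end Cfsg.Agent.Chars2
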