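import Cfsg.Agent.Chars2.QLocal

/-!
The number of characters in the principal 2-block when the Sylow subgroup is quaternion of order 8
and the involution is central.
-/

set_option autoImplicit false
set_option linter.style.haveILetI false
set_option linter.unusedSectionVars false

namespace Cfsg.Agent.Chars2

open Cfsg Cfsg.Agent
open scoped ComplexConjugate

universe u

namespace QSetting

variable {G : Type u} [Group G] [Fintype G] {i : G} (h : QSetting i)
  (hz : ∀ g : G, Commute g (i ^ 2))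

include h hz

open Classical in
/-- The elements with 2-part of order 4 make up a quarter of the group. -/
theorem card_section_four :
    (Nat.card G : ℂ)⁻¹ *
      ((Finset.univ.filter fun x : G => orderOf (Blocks.ppart 2 x) = 4).card : ℂ) = 1 / 4 := by
  obtain ⟨-, -, hinner⟩ := h.exists_phi_data
  have e := hinner (fun _ => 1) 1 (fun _ _ => rfl) (fun _ _ => rfl)
  rw [Chars.classInner_def] at e
  simp only [phi, map_one, mul_one, ← Finset.sum_filter, Finset.sum_const, nsmul_eq_mul] at e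
  linear_combination e / 4

/-- The principal block has seven characters. -/
theorem card_principalBlock {M : Ideal AlgInt} [M.IsMaximal] (hpM : ((2 : ℕ) : AlgInt) ∈ M) :
    Nat.card (principalBlock M G) = 7 := by
  classical
  haveI : Fact (Nat.Prime 2) := ⟨Nat.prime_two⟩
  obtain ⟨n, T, hcard, hunit, honeT, hone, hmem, hTz, hval, -, hvan, hneg⟩ :=
    h.exists_block_split hz hpM
  set R : IrrCharacter G → IrrCharacter G → ℂ :=
    fun χ ψ => Blocks.regInner 2 (χ : G → ℂ) (ψ : G → ℂ) with hR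
  set B := Finset.univ.filter fun χ : IrrCharacter G => χ ∈ principalBlock M G with hBdef
  set U := insert (Blocks.oneChar G) T with hUdef
  have hUB : U ⊆ B := by
    intro χ hχ
    refine Finset.mem_filter.2 ⟨Finset.mem_univ _, ?_⟩
    rcases Finset.mem_insert.1 hχ with rfl | hχ'
    exacts [Blocks.one_mem_principal, hmem χ hχ']
  set J := B \ U with hJdef
  have hJ : ∀ χ ∈ J, χ ∈ principalBlock M G ∧ χ ∉ T ∧ χ ≠ Blocks.oneChar G := fun χ hχ => by
    simp only [hJdef, hBdef, hUdef, Finset.mem_sdiff, Finset.mem_filter, Finset.mem_univ, true_and,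
      Finset.mem_insert, not_or] at hχ
    exact ⟨hχ.1, hχ.2.2, hχ.2.1⟩
  have hUval : ∀ χ ∈ U, (∀ x, (χ : G → ℂ) (i ^ 2 * x) = (χ : G → ℂ) x) ∧
      (∀ x, orderOf (Blocks.ppart 2 x) = 4 → (χ : G → ℂ) x = n χ) ∧ (n χ = 1 ∨ n χ = -1) := by
    intro χ hχ
    rcases Finset.mem_insert.1 hχ with rfl | hχ'
    · exact ⟨fun x => by simp [Blocks.coe_oneChar], fun x _ => by simp [Blocks.coe_oneChar, hone],
        Or.inl hone⟩
    · exact ⟨hTz χ hχ', hval χ hχ', hunit χ hχ'⟩
  have hJR : ∀ χ ∈ J, ∀ ψ ∈ J, R χ ψ = if χ = ψ then 1 / 2 else 0 := by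
    intro χ hχ ψ hψ
    obtain ⟨c1, c2, c3⟩ := hJ χ hχ
    obtain ⟨d1, d2, d3⟩ := hJ ψ hψ
    have e := h.inner_eq_two_regInner hz (χ := (χ : G → ℂ)) (ψ := (ψ : G → ℂ)) (-1) (by simp)
      (fun x => by rw [hneg χ c1 c2 c3 x]; ring) (fun x => by rw [hneg ψ d1 d2 d3 x]; ring)
      (fun x hx => by rw [hvan χ c1 c2 c3 x hx, zero_mul])
    rw [Chars.classInner_irrCharacter] at e
    simp only [hR]
    split_ifs at e ⊢ <;> linear_combination -e / 2
  have hUR : ∀ χ ∈ U, ∀ ψ ∈ U,
      R χ ψ = ((if χ = ψ then 1 else 0) - (n χ : ℂ) * n ψ / 4) / 2 := by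
    intro χ hχ ψ hψ
    obtain ⟨a1, a2, -⟩ := hUval χ hχ
    obtain ⟨b1, b2, -⟩ := hUval ψ hψ
    have e := Chars.classInner_irrCharacter χ ψ
    rw [Chars.classInner_def, h.sum_split hz] at e
    have e2 : ∑ y ∈ Blocks.regs 2 G, (χ : G → ℂ) (i ^ 2 * y) * conj ((ψ : G → ℂ) (i ^ 2 * y)) =
        ∑ y ∈ Blocks.regs 2 G, (χ : G → ℂ) y * conj ((ψ : G → ℂ) y) :=
      Finset.sum_congr rfl fun y _ => by rw [a1, b1]
    have e3 : ∑ x ∈ Finset.univ.filter (fun x => orderOf (Blocks.ppart 2 x) = 4),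
        (χ : G → ℂ) x * conj ((ψ : G → ℂ) x) =
        ((Finset.univ.filter fun x : G => orderOf (Blocks.ppart 2 x) = 4).card : ℂ) *
          ((n χ : ℂ) * n ψ) := by
      rw [← nsmul_eq_mul, ← Finset.sum_const]
      refine Finset.sum_congr rfl fun x hx => ?_
      rw [a2 x (Finset.mem_filter.1 hx).2, b2 x (Finset.mem_filter.1 hx).2, map_intCast]
    rw [e2, e3] at e
    simp only [hR, Blocks.regInner]
    linear_combination e / 2 - (n χ : ℂ) * n ψ / 2 * h.card_section_four hz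
  have hproj : ∀ χ ∈ B, ∑ ψ ∈ B, R χ ψ * R ψ χ = R χ χ := by
    intro χ hχ
    simp only [hR, Blocks.regInner]
    simp only [Finset.mul_sum, Finset.sum_comm (s := B)]
    refine Finset.sum_congr rfl fun y hy => ?_
    have e := Blocks.sum_regInner_mul hpM (B := principalBlock M G) Blocks.isPBlock_principal χ
      (Blocks.mem_regs.1 hy)
    rw [if_pos (Finset.mem_filter.1 hχ).2] at e
    rw [← e, Finset.sum_mul, Finset.mul_sum]
    refine Finset.sum_congr rfl fun ψ _ => ?_
    simp only [Blocks.regInner, Finset.mul_sum, Finset.sum_mul]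
    exact Finset.sum_congr rfl fun z _ => by ring
  have hsplit : ∀ χ, ∑ ψ ∈ B, R χ ψ * R ψ χ =
      ∑ ψ ∈ J, R χ ψ * R ψ χ + ∑ ψ ∈ U, R χ ψ * R ψ χ :=
    fun χ => (Finset.sum_sdiff hUB).symm
  have hJU : ∀ χ ∈ J, ∑ ψ ∈ U, R χ ψ * R ψ χ = 1 / 4 := by
    intro χ hχ
    have e := hproj χ (Finset.mem_sdiff.1 hχ).1
    rw [hsplit, hJR χ hχ χ hχ, if_pos rfl, Finset.sum_eq_single χ
      (fun ψ hψ hne => by rw [hJR χ hχ ψ hψ, if_neg hne.symm, zero_mul])
      (fun hc => absurd hχ hc), hJR χ hχ χ hχ, if_pos rfl] at e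
    linear_combination e
  have hUcard : U.card = 4 := by rw [hUdef, Finset.card_insert_of_notMem honeT, hcard]
  have hUJ : ∀ χ ∈ U, ∑ ψ ∈ J, R χ ψ * R ψ χ = 3 / 16 := by
    intro χ hχ
    have e := hproj χ (hUB hχ)
    have hsum : ∑ ψ ∈ U, R χ ψ * R ψ χ = 3 / 16 := by
      have hterm : ∀ ψ ∈ U, R χ ψ * R ψ χ = 1 / 64 + if χ = ψ then 1 / 8 else 0 := by
        intro ψ hψ
        have hn1 : (n χ : ℂ) * n χ = 1 := by
          rcases (hUval χ hχ).2.2 with e | e <;> simp [e]
        have hn2 : (n ψ : ℂ) * n ψ = 1 := by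
          rcases (hUval ψ hψ).2.2 with e | e <;> simp [e]
        rw [hUR χ hχ ψ hψ, hUR ψ hψ χ hχ]
        by_cases hc : χ = ψ
        · subst hc; rw [if_pos rfl, if_pos rfl, hn1]; norm_num
        · rw [if_neg hc, if_neg hc, if_neg (Ne.symm hc)]
          linear_combination ((n ψ : ℂ) * n ψ / 64) * hn1 + hn2 / 64
      rw [Finset.sum_congr rfl hterm, Finset.sum_add_distrib, Finset.sum_ite_eq, if_pos hχ,
        Finset.sum_const, hUcard, nsmul_eq_mul]
      norm_num
    have hn1 : (n χ : ℂ) * n χ = 1 := by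
      rcases (hUval χ hχ).2.2 with e | e <;> simp [e]
    rw [hsplit, hsum, hUR χ hχ χ hχ, if_pos rfl, hn1] at e
    linear_combination e
  have hJcard : J.card = 3 := by
    have e1 : ∑ χ ∈ J, ∑ ψ ∈ U, R χ ψ * R ψ χ = (J.card : ℂ) / 4 := by
      rw [Finset.sum_congr rfl hJU, Finset.sum_const, nsmul_eq_mul]; ring
    have e2 : ∑ χ ∈ J, ∑ ψ ∈ U, R χ ψ * R ψ χ = 3 / 4 := by
      rw [Finset.sum_comm, Finset.sum_congr rfl (fun ψ hψ => (Finset.sum_congr rfl
        fun χ _ => mul_comm (R χ ψ) (R ψ χ)).trans (hUJ ψ hψ)),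
        Finset.sum_const, hUcard, nsmul_eq_mul]
      norm_num
    have : (J.card : ℂ) = 3 := by linear_combination 4 * e2 - 4 * e1
    exact_mod_cast this
  have hle : B.card = J.card + U.card := by
    rw [hJdef, Finset.card_sdiff_add_card_eq_card hUB]
  rw [Nat.card_eq_fintype_card, Fintype.card_subtype, ← hBdef, hle, hJcard, hUcard]

end QSetting

end Cfsg.Agent.Chars2
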