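import Mathlib.LinearAlgebra.Matrix.Rank
import Mathlib.LinearAlgebra.FiniteDimensional.Basic
import Mathlib.LinearAlgebra.Basis.VectorSpace

/-!
The rank of a matrix does not change under a homomorphism of fields, and is read off from a
factorization through invertible factors.
-/

set_option autoImplicit false

namespace Cfsg.Agent.Chars2

open Matrix

theorem rank_eq_of_sandwich {K : Type*} [Field K] {m n r : Type*} [Fintype m] [Fintype n]
    [Fintype r] [DecidableEq r] (U : Matrix m r K) (W : Matrix r n K) (F : Matrix r m K)
    (E : Matrix n r K) (hF : F * U = 1) (hE : W * E = 1) : (U * W).rank = Fintype.card r := by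
  refine le_antisymm ((rank_mul_le_right U W).trans (rank_le_card_height W)) ?_
  have h : F * (U * W) * E = 1 := by
    rw [← Matrix.mul_assoc, hF, Matrix.one_mul, hE]
  calc Fintype.card r = (F * (U * W) * E).rank := by rw [h, rank_one]
    _ ≤ (F * (U * W)).rank := rank_mul_le_left _ _
    _ ≤ (U * W).rank := rank_mul_le_right _ _

theorem exists_sandwich {K : Type*} [Field K] {m n : Type*} [Fintype m] [Fintype n]
    (A : Matrix m n K) : ∃ (U : Matrix m (Fin A.rank) K) (W : Matrix (Fin A.rank) n K)
      (F : Matrix (Fin A.rank) m K) (E : Matrix n (Fin A.rank) K),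
      A = U * W ∧ F * U = 1 ∧ W * E = 1 := by
  classical
  let b : Module.Basis (Fin A.rank) K (LinearMap.range A.mulVecLin) :=
    Module.finBasisOfFinrankEq K _ rfl
  choose e he using fun k => LinearMap.mem_range.1 (b k).2
  let inc : (Fin A.rank → K) →ₗ[K] (m → K) :=
    (LinearMap.range A.mulVecLin).subtype.comp b.equivFun.symm.toLinearMap
  obtain ⟨g, hg⟩ := inc.exists_leftInverse_of_injective
    (LinearMap.ker_eq_bot.2 ((Submodule.injective_subtype _).comp b.equivFun.symm.injective))
  refine ⟨LinearMap.toMatrix' inc,
    LinearMap.toMatrix' (b.equivFun.toLinearMap.comp A.mulVecLin.rangeRestrict),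
    LinearMap.toMatrix' g, Matrix.of fun j k => e k j, ?_, ?_, ?_⟩
  · rw [← LinearMap.toMatrix'_comp]
    have : inc.comp (b.equivFun.toLinearMap.comp A.mulVecLin.rangeRestrict) = Matrix.toLin' A := by
      refine LinearMap.ext fun v => ?_
      simp [inc, LinearMap.rangeRestrict, Matrix.toLin'_apply]
    rw [this, LinearMap.toMatrix'_toLin']
  · rw [← LinearMap.toMatrix'_comp, hg, LinearMap.toMatrix'_id]
  · refine Matrix.ext fun i k => ?_
    have h1 : A.mulVecLin.rangeRestrict (e k) = b k := Subtype.ext (he k)
    have h2 : (LinearMap.toMatrix' (b.equivFun.toLinearMap.comp A.mulVecLin.rangeRestrict)) *ᵥ (e k)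
        = Pi.single k 1 := by
      rw [LinearMap.toMatrix'_mulVec, LinearMap.comp_apply, h1]
      exact funext fun j => by simp [Pi.single_apply, Finsupp.single_apply, eq_comm]
    have h3 := congrFun h2 i
    rw [Matrix.one_apply, show (if i = k then (1 : K) else 0) = (Pi.single k 1 : Fin A.rank → K) i
      from by simp [Pi.single_apply], ← h3]
    rfl

/-- Extension of the field of coefficients preserves the rank. -/
theorem rank_map_field {K L : Type*} [Field K] [Field L] (f : K →+* L) {m n : Type*} [Fintype m]
    [Fintype n] (A : Matrix m n K) : (A.map f).rank = A.rank := by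
  obtain ⟨U, W, F, E, hA, hF, hE⟩ := exists_sandwich A
  have hA' : A.map f = U.map f * W.map f := by rw [← Matrix.map_mul, ← hA]
  rw [hA', rank_eq_of_sandwich _ _ (F.map f) (E.map f) (by rw [← Matrix.map_mul, hF]; simp)
    (by rw [← Matrix.map_mul, hE]; simp), Fintype.card_fin]

end Cfsg.Agent.Chars2
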