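import Cfsg.Agent.BlockChar.Reduce
import Cfsg.Agent.BlockChar.CharCount
import Cfsg.Agent.Blocks.Induce
import Cfsg.Agent.Chars2.BlockBound
import Cfsg.Agent.Chars2.BlockSquares
import Cfsg.Agent.Chars2.RankMap
import Cfsg.Agent.Chars2.Clifford

/-!
Robinson's count of the blocks with a given normal defect group.
-/

set_option autoImplicit false
set_option linter.unusedSectionVars false
set_option linter.style.haveILetI false

namespace Cfsg.Agent.Chars2

open Cfsg Cfsg.Agent Cfsg.Agent.Blocks Cfsg.Agent.BlockChar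
open scoped ComplexConjugate

universe u

variable {G : Type u} [Group G] [Fintype G] {p : ℕ} [Fact p.Prime] {M : Ideal AlgInt}
  [M.IsMaximal]

/-- The sum of a function over the quotients of the members of two classes. -/
noncomputable def pairSum (g h : G) (F : G → ℂ) : ℂ :=
  ∑ y : G, clsFun g y * ∑ z : G, clsFun h z * F (z * y⁻¹)

theorem pairSum_irr (φ : IrrCharacter G) (g h : G) :
    pairSum g h (φ : G → ℂ) =
      (φ : G → ℂ) 1 * centralChar (φ : G → ℂ) h * centralChar (φ : G → ℂ) g⁻¹ := by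
  have h1 : ∀ y : G, ∑ c : G, (φ : G → ℂ) (c⁻¹ * h * c * y⁻¹) =
      (Nat.card G : ℂ) * (φ : G → ℂ) h * (φ : G → ℂ) y⁻¹ / (φ : G → ℂ) 1 := fun y => by
    rw [← sum_conj_mul φ.2 h y⁻¹]
    exact Fintype.sum_equiv (Equiv.inv G) _ _ fun c => by simp
  have h2 : ∀ y : G, (Nat.card (Subgroup.centralizer ({h} : Set G)) : ℂ) *
      ∑ z : G, clsFun h z * (φ : G → ℂ) (z * y⁻¹) =
      (Nat.card G : ℂ) * (φ : G → ℂ) h * (φ : G → ℂ) y⁻¹ / (φ : G → ℂ) 1 := fun y => by
    rw [← Blocks.sum_conj_eq h fun z => (φ : G → ℂ) (z * y⁻¹), h1 y]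
  have h3 := Blocks.sum_conj_eq g fun y => (φ : G → ℂ) y⁻¹
  have h4 : ∑ c : G, (φ : G → ℂ) (c⁻¹ * g * c)⁻¹ = (Nat.card G : ℂ) * (φ : G → ℂ) g⁻¹ := by
    have : ∀ c : G, (φ : G → ℂ) (c⁻¹ * g * c)⁻¹ = (φ : G → ℂ) g⁻¹ := fun c => by
      rw [← Chars.isClassFunction_irr φ g⁻¹ c⁻¹]
      congr 1
      group
    rw [Finset.sum_congr rfl fun c _ => this c, Finset.sum_const, Finset.card_univ, nsmul_eq_mul,
      ← Nat.card_eq_fintype_card]
  rw [h4] at h3
  have hg : (Nat.card (Subgroup.centralizer ({g} : Set G)) : ℂ) ≠ 0 :=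
    Nat.cast_ne_zero.2 Nat.card_pos.ne'
  have hh : (Nat.card (Subgroup.centralizer ({h} : Set G)) : ℂ) ≠ 0 :=
    Nat.cast_ne_zero.2 Nat.card_pos.ne'
  have h1' := Chars.irr_apply_one_ne_zero φ.2
  have hig : (Nat.card G : ℂ) = ((Subgroup.centralizer ({g} : Set G)).index : ℂ) *
      (Nat.card (Subgroup.centralizer ({g} : Set G)) : ℂ) := by
    rw [← Nat.cast_mul, Subgroup.index_mul_card]
  have hih : (Nat.card G : ℂ) = ((Subgroup.centralizer ({h} : Set G)).index : ℂ) *
      (Nat.card (Subgroup.centralizer ({h} : Set G)) : ℂ) := by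
    rw [← Nat.cast_mul, Subgroup.index_mul_card]
  apply mul_left_cancel₀ (mul_ne_zero hg hh)
  rw [pairSum, mul_assoc, Finset.mul_sum, Finset.mul_sum]
  calc ∑ y : G, (Nat.card (Subgroup.centralizer ({g} : Set G)) : ℂ) *
        ((Nat.card (Subgroup.centralizer ({h} : Set G)) : ℂ) *
          (clsFun g y * ∑ z : G, clsFun h z * (φ : G → ℂ) (z * y⁻¹)))
      = (Nat.card G : ℂ) * (φ : G → ℂ) h / (φ : G → ℂ) 1 *
          ((Nat.card (Subgroup.centralizer ({g} : Set G)) : ℂ) *
            ∑ y : G, clsFun g y * (φ : G → ℂ) y⁻¹) := by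
        rw [Finset.mul_sum, Finset.mul_sum]
        refine Finset.sum_congr rfl fun y _ => ?_
        rw [mul_left_comm (Nat.card (Subgroup.centralizer ({h} : Set G)) : ℂ), h2 y]
        ring
    _ = _ := by
        rw [← h3, centralChar, centralChar, centralizer_inv_singleton]
        conv_lhs => arg 1; rw [hih]
        rw [hig]
        field_simp

/-- The permutation character on the cosets of a subgroup counts pairs. -/
theorem pairSum_indFun (S : Subgroup G) [Fintype S] (g h : G) :
    pairSum g h (indFun S fun _ => (1 : ℂ)) = (S.index : ℂ) *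
      (Nat.card {yz : G × G // IsConj g yz.1 ∧ IsConj h yz.2 ∧ yz.2 * yz.1⁻¹ ∈ S} : ℂ) := by
  classical
  have hN : (Nat.card {yz : G × G // IsConj g yz.1 ∧ IsConj h yz.2 ∧ yz.2 * yz.1⁻¹ ∈ S} : ℂ) =
      pairSum g h (extendByZero S fun _ => (1 : ℂ)) := by
    rw [Nat.card_eq_fintype_card, Fintype.card_subtype, pairSum, Finset.card_filter,
      Fintype.sum_prod_type]
    push_cast
    refine Finset.sum_congr rfl fun y _ => ?_
    rw [Finset.mul_sum]
    refine Finset.sum_congr rfl fun z _ => ?_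
    by_cases hs : z * y⁻¹ ∈ S
    · rw [Chars.extendByZero_of_mem _ _ hs, mul_one]
      by_cases hy : IsConj g y
      · by_cases hz : IsConj h z
        · rw [if_pos ⟨hy, hz, hs⟩, clsFun_of_conj hy, clsFun_of_conj hz, mul_one]
        · rw [if_neg fun h' => hz h'.2.1, clsFun_of_not hz, mul_zero]
      · rw [if_neg fun h' => hy h'.1, clsFun_of_not hy, zero_mul]
    · rw [Chars.extendByZero_of_not_mem _ _ hs, if_neg fun h' => hs h'.2.2, mul_zero, mul_zero]
  have hinv : ∀ a : G, pairSum g h (fun v => extendByZero S (fun _ => (1 : ℂ)) (a⁻¹ * v * a)) =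
      pairSum g h (extendByZero S fun _ => (1 : ℂ)) := by
    intro a
    have hc : ∀ u y : G, clsFun u (a * y * a⁻¹) = clsFun u y := fun u y =>
      isClassFunction_clsFun u y a
    refine (Fintype.sum_equiv (MulAut.conj a).toEquiv _ _ fun y => ?_).symm
    simp only [MulEquiv.toEquiv_eq_coe, EquivLike.coe_coe, MulAut.conj_apply, hc]
    congr 1
    refine Fintype.sum_equiv (MulAut.conj a).toEquiv _ _ fun z => ?_
    simp only [MulEquiv.toEquiv_eq_coe, EquivLike.coe_coe, MulAut.conj_apply, hc]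
    congr 2
    group
  have hexp : pairSum g h (indFun S fun _ => (1 : ℂ)) = (Nat.card S : ℂ)⁻¹ *
      ∑ a : G, pairSum g h (fun v => extendByZero S (fun _ => (1 : ℂ)) (a⁻¹ * v * a)) := by
    simp only [pairSum, Chars.indFun_apply, Finset.mul_sum]
    rw [Finset.sum_comm (γ := G) (s := (Finset.univ : Finset G))]
    conv_rhs => rw [Finset.sum_comm]
    rw [Finset.sum_comm]
    refine Finset.sum_congr rfl fun y _ => ?_
    rw [Finset.sum_comm]
    exact Finset.sum_congr rfl fun z _ => Finset.sum_congr rfl fun a _ => by ring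
  rw [hexp, Finset.sum_congr rfl fun a _ => hinv a, hN, Finset.sum_const, Finset.card_univ,
    nsmul_eq_mul, ← Nat.card_eq_fintype_card, ← S.index_mul_card, Nat.cast_mul]
  have : (Nat.card S : ℂ) ≠ 0 := Chars.card_ne_zero
  field_simp

theorem res_natCast (n : ℕ) : res M (n : ℂ) = (n : Res M) := by
  rw [res_of_mem (memR_natCast n)]
  exact map_natCast (residue M) n

/-- A class carrying a unit of an idempotent and of a central character has the defect group as
a Sylow group of the centralizer, when that group is normal. -/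
theorem sylow_of_unit (hpM : (p : AlgInt) ∈ M) {B : Set (IrrCharacter G)} (hB : IsPBlock M B)
    {D : Subgroup G} [D.Normal] (hBD : IsDefectGroup p M B D) {χ : IrrCharacter G} (hχ : χ ∈ B)
    {g : G} (hω : ¬ MemLocalIdeal M (centralChar (χ : G → ℂ) g))
    {B' : Set (IrrCharacter G)} (hB' : IsPBlock M B') (hBD' : IsDefectGroup p M B' D)
    (he : ¬ MemLocalIdeal M (blockCoeff B' g)) :
    IsSylowIn p (Subgroup.centralizer ({g} : Set G)) D := by
  obtain ⟨y, hy, hyD⟩ := defect_centralizes hpM hB hBD hχ hω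
  obtain ⟨c, hc⟩ := isConj_iff.1 hy
  have hgD : g ∈ Subgroup.centralizer (D : Set G) := by
    have := conj_mem_centralizer (x := y) (c := c⁻¹) (P := D) (by
      rw [Subgroup.normalizer_eq_top]; exact Subgroup.mem_top _) hyD
    rw [← hc] at this
    simpa [mul_assoc] using this
  obtain ⟨T, hT, hDT⟩ := exists_isSylowIn_ge (le_centralizer_singleton_iff.2 hgD)
    (isPGroup_defect hBD)
  obtain ⟨x, hx⟩ := le_defect_of_coeff hpM hB' hBD' he hT.2.1
    (le_centralizer_singleton_iff.1 hT.1)
  have : D = T := Subgroup.eq_of_le_of_card_ge hDT (by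
    rw [← card_conjSub x T]
    exact Nat.card_le_card_of_injective _ (Subgroup.inclusion_injective hx))
  exact this ▸ hT

/-- A unit central character at such a class puts the block among those with this defect group. -/
theorem defectGroup_of_unit (hpM : (p : AlgInt) ∈ M) {D : Subgroup G} [D.Normal] {g : G}
    (hg : IsSylowIn p (Subgroup.centralizer ({g} : Set G)) D) {φ : IrrCharacter G}
    (hω : ¬ MemLocalIdeal M (centralChar (φ : G → ℂ) g)) :
    IsDefectGroup p M (blockOf M (φ : G → ℂ)) D := by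
  have hB : IsPBlock M (blockOf M (φ : G → ℂ)) := isPBlock_blockOf φ
  obtain ⟨E, hE⟩ := exists_isDefectGroup hpM hB
  obtain ⟨y, hy, hyE⟩ := defect_centralizes hpM hB hE (mem_blockOf_self φ) hω
  obtain ⟨c, hc⟩ := isConj_iff.1 hy
  have hle : conjSub c⁻¹ E ≤ Subgroup.centralizer ({g} : Set G) := by
    have h := conjSub_mono c⁻¹ (le_centralizer_singleton_iff.2 hyE)
    rw [conjSub_centralizer, ← hc] at h
    simpa [mul_assoc] using h
  obtain ⟨b, -, hb⟩ := pgroup_le_isSylowIn hg hle ((isPGroup_defect hE).map _)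
  have hDE := le_defect_of_normal hpM hB hE inferInstance hg.2.1
  have : D = E := Subgroup.eq_of_le_of_card_ge hDE (by
    rw [← card_conjSub c⁻¹ E, ← card_conjSub b (conjSub c⁻¹ E)]
    exact Nat.card_le_card_of_injective _ (Subgroup.inclusion_injective hb))
  rw [this]
  exact hE

/-- The degree weighted multiplicities in the permutation character on a Sylow group. -/
theorem sum_block_perm (hpM : (p : AlgInt) ∈ M) {B : Set (IrrCharacter G)} (hB : IsPBlock M B)
    (S : Sylow p G) [Fintype (S : Subgroup G)] (n : IrrCharacter G → ℕ)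
    (hn : ∀ φ : IrrCharacter G,
      classInner (indFun (S : Subgroup G) fun _ => (1 : ℂ)) (φ : G → ℂ) = n φ) :
    (∑ φ ∈ bf B, n φ * charDegree (φ : G → ℂ)) * p ^ (Nat.card G).factorization p =
      ∑ φ ∈ bf B, charDegree (φ : G → ℂ) ^ 2 := by
  classical
  have hbf : bf B = Finset.univ.filter (· ∈ B) := by ext; simp
  set ρ : G → ℂ := ∑ φ ∈ bf B, (φ : G → ℂ) 1 • (φ : G → ℂ) with hρ
  have hρc : IsClassFunction G ρ := fun x c => by
    simp only [hρ, Finset.sum_apply, Pi.smul_apply, fun φ : IrrCharacter G =>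
      Chars.isClassFunction_irr φ x c]
  have h := Chars.classInner_indFun (S : Subgroup G) (fun _ => (1 : ℂ)) hρc
  rw [hρ, Chars.classInner_sum_right] at h
  simp only [Chars.classInner_smul_right, hn] at h
  rw [Chars.classInner_def, Finset.sum_eq_single (1 : (S : Subgroup G))] at h
  · rw [← S.card_eq_multiplicity]
    apply Nat.cast_injective (R := ℂ)
    push_cast
    rw [Finset.sum_apply] at h
    simp only [Pi.smul_apply, smul_eq_mul, OneMemClass.coe_one, map_sum, map_mul,
      Chars.irr_apply_one_conj (Chars.irr_isCharacter _), one_mul,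
      fun φ : IrrCharacter G => (Blocks.charDegree_eq φ.2).1, map_natCast] at h
    rw [Finset.sum_congr rfl fun φ _ => mul_comm (n φ : ℂ) _, h, mul_comm,
      mul_inv_cancel_left₀ Chars.card_ne_zero]
    exact Finset.sum_congr rfl fun φ _ => (sq _).symm
  · intro y _ hy
    obtain ⟨k, hk⟩ := IsPGroup.iff_orderOf.1 S.isPGroup' y
    have hd : p ∣ orderOf (y : G) := by
      rw [Subgroup.orderOf_coe, hk]
      refine dvd_pow_self p fun h => hy ?_
      rwa [h, pow_zero, orderOf_eq_one_iff] at hk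
    have h2 := block_orth_weak hpM hB (x := 1)
      (by rw [orderOf_one]; exact (Fact.out : p.Prime).not_dvd_one) hd
    refine mul_eq_zero_of_right _ ?_
    rw [← h2, Finset.sum_apply, map_sum, hbf]
    refine Finset.sum_congr rfl fun φ _ => ?_
    rw [Pi.smul_apply, smul_eq_mul, map_mul, Chars.irr_apply_one_conj (Chars.irr_isCharacter φ)]
  · exact fun h => absurd (Finset.mem_univ _) h

/-- Robinson's count. -/
theorem robinson_count (hpM : (p : AlgInt) ∈ M) (D : Subgroup G) [D.Normal] (S : Sylow p G)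
    {ι : Type*} [Fintype ι] [DecidableEq ι] (K : ι → ConjClasses G) (hKinj : Function.Injective K)
    (hK : ∀ C : ConjClasses G, (∃ i, K i = C) ↔ ∃ x ∈ C.carrier, ¬ p ∣ orderOf x ∧
      ∃ Q : Sylow p (Subgroup.centralizer ({x} : Set G)),
        (Q : Subgroup (Subgroup.centralizer ({x} : Set G))).map
          (Subgroup.centralizer ({x} : Set G)).subtype = D) :
    Nat.card {B : Set (IrrCharacter G) // IsPBlock M B ∧ IsDefectGroup p M B D} =
      (Matrix.of fun i j : ι => ((Nat.card {yz : G × G // yz.1 ∈ (K i).carrier ∧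
        yz.2 ∈ (K j).carrier ∧ yz.2 * yz.1⁻¹ ∈ (S : Subgroup G)} /
          p ^ ((Nat.card G).factorization p - (Nat.card D).factorization p) : ℕ) : ZMod p)).rank := by
  classical
  have hp : p.Prime := Fact.out
  letI : Fintype (ConjClasses G) := Blocks.instFintypeClasses
  set a := (Nat.card G).factorization p with ha
  set d := (Nat.card D).factorization p with hd
  choose x hxK hxr hxD using fun i => (hK (K i)).1 ⟨i, rfl⟩
  have hxD' : ∀ i, IsSylowIn p (Subgroup.centralizer ({x i} : Set G)) D :=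
    fun i => isSylowIn_iff.2 (hxD i)
  have hmk : ∀ i, ConjClasses.mk (x i) = K i := fun i => ConjClasses.mem_carrier_iff_mk_eq.1 (hxK i)
  have hmem : ∀ (i : ι) (y : G), y ∈ (K i).carrier ↔ IsConj (x i) y := fun i y => by
    rw [ConjClasses.mem_carrier_iff_mk_eq, ← hmk i, ConjClasses.mk_eq_mk_iff_isConj]
    exact ⟨IsConj.symm, IsConj.symm⟩
  have hcc : ∀ (φ : IrrCharacter G) {g g' : G}, IsConj g g' →
      centralChar (φ : G → ℂ) g = centralChar (φ : G → ℂ) g' := by
    intro φ g g' hgg
    rw [← omega_clsFun (Chars.isClassFunction_irr φ), ← omega_clsFun (Chars.isClassFunction_irr φ)]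
    congr 1
    funext y
    by_cases h : IsConj g y
    · rw [clsFun_of_conj h, clsFun_of_conj (hgg.symm.trans h)]
    · rw [clsFun_of_not h, clsFun_of_not fun hc => h (hgg.trans hc)]
  -- inversion of the classes
  have hsig : ∀ i, ∃ j, IsConj (x i)⁻¹ (x j) := by
    intro i
    obtain ⟨j, hj⟩ := (hK (ConjClasses.mk (x i)⁻¹)).2 ⟨(x i)⁻¹, ConjClasses.mem_carrier_mk,
      by rw [orderOf_inv]; exact hxr i,
      isSylowIn_iff.1 (by rw [centralizer_inv_singleton]; exact hxD' i)⟩
    exact ⟨j, ConjClasses.mk_eq_mk_iff_isConj.1 ((hmk j).trans hj).symm⟩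
  choose σ hσ using hsig
  have hσinj : Function.Injective σ := fun i j h => hKinj <| by
    have h1 : IsConj (x i)⁻¹ (x j)⁻¹ := (h ▸ hσ i).trans (hσ j).symm
    obtain ⟨c, hc⟩ := isConj_iff.1 h1
    rw [← hmk i, ← hmk j, ConjClasses.mk_eq_mk_iff_isConj, isConj_iff]
    exact ⟨c, inv_injective (by rw [← hc]; group)⟩
  have hσb : Function.Bijective σ := hσinj.bijective_of_finite
  -- the blocks
  let Bk := {B : Set (IrrCharacter G) // IsPBlock M B ∧ IsDefectGroup p M B D}
  haveI : Fintype Bk := Fintype.ofFinite _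
  have hdef : ∀ B : Bk, blockDefect p B.1 = d := fun B => by
    rw [hd, card_defectGroup hpM B.2.1 B.2.2, hp.factorization_pow, Finsupp.single_eq_same]
  have hda : d ≤ a := by
    rw [ha, ← D.card_mul_index, Nat.factorization_mul Nat.card_pos.ne'
      Subgroup.index_ne_zero_of_finite, Finsupp.add_apply]
    exact Nat.le_add_right _ _
  have hidx : ∀ i, (Subgroup.centralizer ({x i} : Set G)).index.factorization p = a - d := by
    intro i
    have h := index_factorization (p := p) (x i)
    have h2 : (Nat.card (Subgroup.centralizer ({x i} : Set G))).factorization p = d := by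
      rw [hd, (hxD' i).2.2, hp.factorization_pow, Finsupp.single_eq_same]
    omega
  choose χ₀ hχ₀ using fun B : Bk => Blocks.block_nonempty B.2.1
  let Λ : Matrix Bk ι (Res M) := Matrix.of fun B i => res M (centralChar (χ₀ B : G → ℂ) (x i))
  let E : Matrix ι Bk (Res M) := Matrix.of fun i B => res M (blockCoeff B.1 (x i))
  have horth : Λ * E = 1 := by
    refine Matrix.ext fun B B' => ?_
    have hR : ∀ g, MemLocalRing M (centralChar (χ₀ B : G → ℂ) g) := centralChar_memR hpM _
    have heR := rFun_blockCoeff hpM B'.2.1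
    have hone : omega (χ₀ B : G → ℂ) (blockCoeff B'.1) = if B = B' then 1 else 0 := by
      split_ifs with h
      · exact h ▸ omega_blockCoeff_mem (hχ₀ B)
      · exact omega_blockCoeff_not_mem fun hm =>
          h (Subtype.ext (blocks_eq_of_inter B.2.1 B'.2.1 (hχ₀ B) hm))
    have h := congrArg (res M) hone
    rw [omega_eq_sum_clsFun (Chars.isClassFunction_irr _) (isClassFunction_blockCoeff _),
      res_sum _ _ fun C _ => memR_mul (heR _) (hR _), apply_ite (res M), res_zero, res_one] at h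
    rw [Matrix.one_apply, ← h, Matrix.mul_apply]
    have hterm : ∀ i, Λ B i * E i B' =
        res M (blockCoeff B'.1 (clsRep (K i)) * centralChar (χ₀ B : G → ℂ) (clsRep (K i))) := by
      intro i
      have hc : IsConj (x i) (clsRep (K i)) :=
        ConjClasses.mk_eq_mk_iff_isConj.1 ((hmk i).trans (mk_clsRep _).symm)
      obtain ⟨c, hce⟩ := isConj_iff.1 hc
      rw [← hcc _ hc, ← hce, isClassFunction_blockCoeff B'.1 (x i) c, res_mul (heR _) (hR _)]
      exact mul_comm _ _
    rw [Finset.sum_congr rfl fun i _ => hterm i]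
    rw [← Finset.sum_image (g := K) (f := fun C => res M (blockCoeff B'.1 (clsRep C) *
      centralChar (χ₀ B : G → ℂ) (clsRep C))) fun i _ j _ hij => hKinj hij]
    refine Finset.sum_subset (Finset.subset_univ _) fun C _ hC => ?_
    rw [res_eq_zero_iff (memR_mul (heR _) (hR _))]
    by_contra hu
    have he : ¬ MemLocalIdeal M (blockCoeff B'.1 (clsRep C)) := fun h => hu (memI_mul_right h (hR _))
    have hω : ¬ MemLocalIdeal M (centralChar (χ₀ B : G → ℂ) (clsRep C)) := fun h =>
      hu (memI_mul_left (heR _) h)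
    obtain ⟨i, hi⟩ := (hK C).2 ⟨clsRep C, ConjClasses.mem_carrier_iff_mk_eq.2 (mk_clsRep C),
      fun hdv => he (by rw [blockCoeff_eq_zero_of_dvd hpM B'.2.1 hdv]; exact memI_zero),
      isSylowIn_iff.1 (sylow_of_unit hpM B.2.1 B.2.2 (hχ₀ B) hω B'.2.1 B'.2.2 he)⟩
    exact hC (Finset.mem_image.2 ⟨i, Finset.mem_univ _, hi⟩)
  -- the permutation character
  haveI : Fintype (S : Subgroup G) := Fintype.ofFinite _
  have hchar : IsCharacter G (indFun (S : Subgroup G) fun _ => (1 : ℂ)) :=
    Chars.isCharacter_indFun _ Chars.isCharacter_one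
  choose n hn using fun φ : IrrCharacter G =>
    Chars.exists_classInner_eq_nat hchar (Chars.irr_isCharacter φ)
  set g' := Nat.card G / p ^ a with hg'
  have hg'p : ¬ p ∣ g' := Nat.not_dvd_ordCompl hp Nat.card_pos.ne'
  have hSi : (S : Subgroup G).index = g' := by
    rw [hg', ha, ← S.card_eq_multiplicity, ← (S : Subgroup G).card_mul_index,
      Nat.mul_div_cancel_left _ Nat.card_pos]
  let N : ι → ι → ℕ := fun i j => Nat.card {yz : G × G // yz.1 ∈ (K i).carrier ∧
    yz.2 ∈ (K j).carrier ∧ yz.2 * yz.1⁻¹ ∈ (S : Subgroup G)}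
  have hN : ∀ i j, (g' : ℂ) * (N i j : ℂ) = ∑ φ : IrrCharacter G,
      (n φ : ℂ) * ((charDegree (φ : G → ℂ) : ℂ) * centralChar (φ : G → ℂ) (x j) *
        centralChar (φ : G → ℂ) (x (σ i))) := by
    intro i j
    have h1 : pairSum (x i) (x j) (indFun (S : Subgroup G) fun _ => (1 : ℂ)) =
        ∑ φ : IrrCharacter G, (n φ : ℂ) * pairSum (x i) (x j) (φ : G → ℂ) := by
      simp only [pairSum, Finset.mul_sum]
      conv_rhs => rw [Finset.sum_comm]
      refine Finset.sum_congr rfl fun y _ => ?_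
      conv_rhs => rw [Finset.sum_comm]
      refine Finset.sum_congr rfl fun z _ => ?_
      rw [apply_eq_sum (Chars.isClassFunction_indFun _ _) (z * y⁻¹), Finset.mul_sum, Finset.mul_sum]
      refine Finset.sum_congr rfl fun φ _ => ?_
      rw [hn φ]; ring
    rw [pairSum_indFun, hSi] at h1
    simp only [pairSum_irr, fun φ : IrrCharacter G => (Blocks.charDegree_eq φ.2).1] at h1
    simp only [N, hmem]
    rw [h1]
    exact Finset.sum_congr rfl fun φ _ => by rw [hcc φ (hσ i)]
  have hpC : ((p : ℂ) ^ (a - d)) ≠ 0 := pow_ne_zero _ (Nat.cast_ne_zero.2 hp.ne_zero)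
  -- the reduced terms
  let c : IrrCharacter G → Res M := fun φ =>
    res M ((n φ : ℂ) * ((charDegree (φ : G → ℂ) : ℂ) / (p ^ (a - d) : ℕ)))
  have hRR := fun (φ : IrrCharacter G) (g : G) => centralChar_memR hpM φ g
  have hlow : ∀ (φ : IrrCharacter G), (charDegree (φ : G → ℂ)).factorization p < a - d →
      ∀ j, MemLocalIdeal M (centralChar (φ : G → ℂ) (x j)) := by
    intro φ hv j
    by_contra hu
    have := factorization_index_le hpM φ hu
    rw [hidx j] at this
    omega
  have hfp : (p ^ (a - d) : ℕ).factorization p = a - d := by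
    rw [hp.factorization_pow, Finsupp.single_eq_same]
  have hscale : ∀ (φ : IrrCharacter G) (j k : ι),
      ∃ t : ℂ, MemLocalRing M t ∧ (charDegree (φ : G → ℂ) : ℂ) * centralChar (φ : G → ℂ) (x j) *
        centralChar (φ : G → ℂ) (x k) = (p : ℂ) ^ (a - d) * t ∧
      (n φ : Res M) * res M t = c φ * (res M (centralChar (φ : G → ℂ) (x j)) *
        res M (centralChar (φ : G → ℂ) (x k))) := by
    intro φ j k
    obtain ⟨e1, e2⟩ := Blocks.charDegree_eq φ.2
    rcases le_or_gt (a - d) ((charDegree (φ : G → ℂ)).factorization p) with hv | hv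
    · have hu := natRatio_memR (M := M) hpM e2.ne' (pow_ne_zero (a - d) hp.ne_zero) (by rwa [hfp])
      refine ⟨(charDegree (φ : G → ℂ) : ℂ) / (p ^ (a - d) : ℕ) *
        (centralChar (φ : G → ℂ) (x j) * centralChar (φ : G → ℂ) (x k)),
        memR_mul hu (memR_mul (hRR _ _) (hRR _ _)), ?_, ?_⟩
      · push_cast; field_simp
      · simp only [c]
        rw [res_mul hu (memR_mul (hRR _ _) (hRR _ _)), res_mul (hRR _ _) (hRR _ _),
          res_mul (memR_natCast _) hu, res_natCast, mul_assoc]
    · have hI := hlow φ hv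
      have hu := natRatio_memR (M := M) hpM (a := (Subgroup.centralizer ({x j} : Set G)).index)
        Subgroup.index_ne_zero_of_finite (pow_ne_zero (a - d) hp.ne_zero)
        (by rw [hfp, hidx j])
      refine ⟨((Subgroup.centralizer ({x j} : Set G)).index : ℂ) / (p ^ (a - d) : ℕ) *
        (φ : G → ℂ) (x j) * centralChar (φ : G → ℂ) (x k),
        memR_mul (memR_mul hu (irr_memR _ _)) (hRR _ _), ?_, ?_⟩
      · have : (charDegree (φ : G → ℂ) : ℂ) ≠ 0 := Nat.cast_ne_zero.2 e2.ne'
        rw [show centralChar (φ : G → ℂ) (x j) = ((Subgroup.centralizer ({x j} : Set G)).index : ℂ) *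
          (φ : G → ℂ) (x j) / (φ : G → ℂ) 1 from rfl, e1]
        push_cast; field_simp
      · rw [(res_eq_zero_iff (hRR _ _)).2 (hI k), (res_eq_zero_iff
          (memR_mul (memR_mul hu (irr_memR _ _)) (hRR _ _))).2
          (memI_mul_left (memR_mul hu (irr_memR _ _)) (hI k))]
        simp
  choose t htR hte htres using hscale
  -- the matrix over the residue field
  haveI : CharP (Res M) p := (CharP.charP_iff_prime_eq_zero hp).2 (by
    have h1 := residue_algInt (M := M) (p : AlgInt)
    rw [Ideal.Quotient.eq_zero_iff_mem.2 hpM] at h1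
    have h2 : ((p : ℕ) : Res M) = residue M ((p : ℕ) : loc M) := (map_natCast _ p).symm
    rw [h2, ← h1]
    exact congrArg _ (Subtype.ext (by simp)))
  let f : ZMod p →+* Res M := ZMod.castHom dvd_rfl (Res M)
  have hentry : ∀ i j, f ((N i j / p ^ (a - d) : ℕ) : ZMod p) =
      (g' : Res M)⁻¹ * ∑ φ : IrrCharacter G, c φ *
        (res M (centralChar (φ : G → ℂ) (x j)) * res M (centralChar (φ : G → ℂ) (x (σ i)))) := by
    intro i j
    have hsum : (g' : ℂ) * (N i j : ℂ) =
        (p : ℂ) ^ (a - d) * ∑ φ : IrrCharacter G, (n φ : ℂ) * t φ j (σ i) := by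
      rw [hN, Finset.mul_sum]
      refine Finset.sum_congr rfl fun φ _ => ?_
      rw [hte]; ring
    have hTR : MemLocalRing M (∑ φ : IrrCharacter G, (n φ : ℂ) * t φ j (σ i)) :=
      memR_sum _ _ fun φ _ => memR_mul (memR_natCast _) (htR _ _ _)
    have hdvd : (p : ℤ) ^ (a - d) ∣ (N i j : ℤ) := by
      refine BlockBound.dvd_of_memR hpM _ _ ?_
      have h2 := memR_mul (memR_inv_natCast (M := M) hpM hg'p) hTR
      convert h2 using 1
      have hg0 : (g' : ℂ) ≠ 0 := Nat.cast_ne_zero.2 fun h => hg'p (h ▸ dvd_zero p)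
      rw [Int.cast_natCast, eq_comm, eq_div_iff hpC]
      rw [mul_assoc, mul_comm _ ((p : ℂ) ^ (a - d)), ← hsum, inv_mul_cancel_left₀ hg0]
    obtain ⟨m, hm⟩ : p ^ (a - d) ∣ N i j := by exact_mod_cast hdvd
    rw [hm, Nat.mul_div_cancel_left _ (pow_pos hp.pos _), map_natCast]
    have hgm : (g' : ℂ) * (m : ℂ) = ∑ φ : IrrCharacter G, (n φ : ℂ) * t φ j (σ i) := by
      apply mul_left_cancel₀ hpC
      rw [← hsum, hm]; push_cast; ring
    have hres := congrArg (res M) hgm
    rw [res_mul (memR_natCast _) (memR_natCast _), res_natCast, res_natCast,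
      res_sum _ _ fun φ _ => memR_mul (memR_natCast _) (htR _ _ _)] at hres
    have hgne : (g' : Res M) ≠ 0 := by
      rw [← res_natCast, Ne, res_eq_zero_iff (memR_natCast _), memI_natCast_iff hpM]
      exact hg'p
    rw [eq_inv_mul_iff_mul_eq₀ hgne, hres]
    refine Finset.sum_congr rfl fun φ _ => ?_
    rw [res_mul (memR_natCast _) (htR _ _ _), res_natCast, htres]
  -- grouping by blocks
  let cB : Bk → Res M := fun B => (g' : Res M)⁻¹ * ∑ φ ∈ bf B.1, c φ
  have hgroup : ∀ i j, (∑ φ : IrrCharacter G, c φ *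
      (res M (centralChar (φ : G → ℂ) (x j)) * res M (centralChar (φ : G → ℂ) (x (σ i))))) =
      ∑ B : Bk, (∑ φ ∈ bf B.1, c φ) * (Λ B j * Λ B (σ i)) := by
    intro i j
    have hdisj : ((Finset.univ : Finset Bk) : Set Bk).PairwiseDisjoint fun B => bf B.1 := by
      intro B _ B' _ hne
      rw [Function.onFun, Finset.disjoint_left]
      intro φ h h'
      exact hne (Subtype.ext (blocks_eq_of_inter B.2.1 B'.2.1 (mem_bf.1 h) (mem_bf.1 h')))
    rw [← Finset.sum_subset (Finset.subset_univ (Finset.univ.biUnion fun B : Bk => bf B.1))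
      fun φ _ hφ => ?_, Finset.sum_biUnion hdisj]
    · refine Finset.sum_congr rfl fun B _ => ?_
      rw [Finset.sum_mul]
      refine Finset.sum_congr rfl fun φ hφ => ?_
      have hs := sameBlock_of_mem B.2.1 (mem_bf.1 hφ) (hχ₀ B)
      simp only [Λ, Matrix.of_apply]
      rw [(res_eq_iff (hRR _ _) (hRR _ _)).2 (hs (x j)),
        (res_eq_iff (hRR _ _) (hRR _ _)).2 (hs (x (σ i)))]
    · rw [(res_eq_zero_iff (hRR φ (x j))).2 ?_, zero_mul, mul_zero]
      by_contra hu
      refine hφ (Finset.mem_biUnion.2 ⟨⟨_, isPBlock_blockOf φ,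
        defectGroup_of_unit hpM (hxD' j) hu⟩, Finset.mem_univ _, mem_bf.2 (mem_blockOf_self φ)⟩)
  have hcB : ∀ B : Bk, cB B ≠ 0 := by
    intro B
    refine mul_ne_zero (inv_ne_zero ?_) ?_
    · rw [← res_natCast, Ne, res_eq_zero_iff (memR_natCast _), memI_natCast_iff hpM]
      exact hg'p
    have hR : ∀ φ ∈ bf B.1, MemLocalRing M
        ((n φ : ℂ) * ((charDegree (φ : G → ℂ) : ℂ) / (p ^ (a - d) : ℕ))) := fun φ hφ => by
      refine memR_mul (memR_natCast _) (natRatio_memR hpM (Blocks.charDegree_eq φ.2).2.ne'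
        (pow_ne_zero _ hp.ne_zero) ?_)
      have := degree_eq_height hpM B.2.1 (mem_bf.1 hφ)
      rw [hdef B] at this
      rw [hfp]
      omega
    simp only [c]
    rw [← res_sum _ _ hR, Ne, res_eq_zero_iff (memR_sum _ _ hR)]
    set Q := ∑ φ ∈ bf B.1, n φ * charDegree (φ : G → ℂ) with hQ
    have e : ∑ φ ∈ bf B.1, (n φ : ℂ) * ((charDegree (φ : G → ℂ) : ℂ) / (p ^ (a - d) : ℕ)) =
        (Q : ℂ) / (p ^ (a - d) : ℕ) := by
      rw [hQ, Nat.cast_sum, Finset.sum_div]
      exact Finset.sum_congr rfl fun φ _ => by push_cast; ring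
    have hsq := sum_block_perm hpM B.2.1 S n hn
    have hQ0 : Q ≠ 0 := by
      intro h0
      rw [← hQ, h0, zero_mul] at hsq
      exact (Finset.sum_pos (fun φ _ => pow_pos (Blocks.charDegree_eq φ.2).2 2)
        ⟨χ₀ B, mem_bf.2 (hχ₀ B)⟩).ne hsq
    have hvQ : Q.factorization p = a - d := by
      have h2 := factorization_sum_sq hpM B.2.1
      rw [← hsq, ← hQ, ← ha, Nat.factorization_mul hQ0 (pow_ne_zero _ hp.ne_zero),
        Finsupp.add_apply, hp.factorization_pow, Finsupp.single_eq_same, hdef B] at h2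
      omega
    intro hI
    rw [e] at hI
    have h6 := natRatio_memR (M := M) hpM (pow_ne_zero (a - d) hp.ne_zero) hQ0 (by rw [hvQ, hfp])
    refine not_memI_one (M := M) ?_
    convert memI_mul_right hI h6 using 1
    have : (Q : ℂ) ≠ 0 := Nat.cast_ne_zero.2 hQ0
    push_cast
    field_simp
  let U : Matrix ι Bk (Res M) := Matrix.of fun i B => cB B * Λ B (σ i)
  let F : Matrix Bk ι (Res M) := Matrix.of fun B i => (cB B)⁻¹ * E (σ i) B
  have hFU : F * U = 1 := by
    refine Matrix.ext fun B B' => ?_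
    have h := congrFun (congrFun horth B') B
    rw [Matrix.mul_apply, ← hσb.sum_comp fun i => Λ B' i * E i B] at h
    rw [Matrix.mul_apply]
    have e : ∑ i, F B i * U i B' = (cB B)⁻¹ * cB B' * ∑ i, Λ B' (σ i) * E (σ i) B := by
      rw [Finset.mul_sum]
      exact Finset.sum_congr rfl fun i _ => by simp only [F, U, Matrix.of_apply]; ring
    rw [e, h, Matrix.one_apply, Matrix.one_apply]
    by_cases hBB : B = B'
    · subst hBB; simp [hcB B]
    · rw [if_neg hBB, if_neg (Ne.symm hBB), mul_zero]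
  have hmain : (Matrix.of fun i j : ι => ((N i j / p ^ (a - d) : ℕ) : ZMod p)).map f = U * Λ := by
    refine Matrix.ext fun i j => ?_
    rw [Matrix.map_apply, Matrix.of_apply, hentry, hgroup, Matrix.mul_apply, Finset.mul_sum]
    refine Finset.sum_congr rfl fun B _ => ?_
    simp only [U, cB, Matrix.of_apply]
    ring
  change Nat.card Bk = _
  rw [← rank_map_field f, hmain, rank_eq_of_sandwich U Λ F E hFU horth, Nat.card_eq_fintype_card]

end Cfsg.Agent.Chars2
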