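import Cfsg.Agent.DegreeGraph.AbelianNormal
import Cfsg.Agent.OddChar.GaloisAut
import Cfsg.Agent.Blocks.Local
import Cfsg.Agent.Chars.Eigen
import Mathlib.NumberTheory.Padics.PadicVal.Basic

/-!
Schur's bound for the order of a `p`-group with a faithful rational valued character.
-/

set_option autoImplicit false
set_option linter.style.haveILetI false
set_option linter.unusedSectionVars false

namespace Cfsg.Agent.Chars2

open Cfsg Cfsg.Agent
open scoped ComplexConjugate

universe u

variable {G : Type u} [Group G] [Finite G] {p : ℕ} [hp : Fact p.Prime]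

/-- A `p`-rational character takes integer values at `p`-elements, constant on generators. -/
theorem pRational_value {χ : G → ℂ} (hχ : IsCharacter G χ) {r : ℕ} (hr0 : r ≠ 0) (hr : ¬ p ∣ r)
    (hrat : ∀ g : G,
      χ g ∈ IntermediateField.adjoin ℚ ({Complex.exp (2 * Real.pi * Complex.I / r)} : Set ℂ))
    {x : G} {b : ℕ} (hx : orderOf x = p ^ b) :
    ∃ a : ℤ, ∀ k : ℕ, ¬ p ∣ k → χ (x ^ k) = a := by
  haveI := Fintype.ofFinite G
  set ζ : ℂ := Complex.exp (2 * Real.pi * Complex.I / r)
  have hζ : ζ ^ r = 1 := (Complex.isPrimitiveRoot_exp r hr0).pow_eq_one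
  have hfix : ∀ σ : ℂ ≃+* ℂ, (∀ z : ℂ, z ^ r = 1 → σ z = z) → ∀ g, σ (χ g) = χ g := by
    intro σ hσ g
    refine IntermediateField.adjoin_induction ℚ (p := fun z _ => σ z = z) ?_ ?_ ?_ ?_ ?_ (hrat g)
    · intro z hz
      rw [Set.mem_singleton_iff.1 hz]
      exact hσ ζ hζ
    · intro q
      exact map_ratCast σ.toRingHom q
    · intro y z _ _ hy hz
      rw [map_add, hy, hz]
    · intro y _ hy
      rw [map_inv₀, hy]
    · intro y z _ _ hy hz
      rw [map_mul, hy, hz]
  have hcop : (p ^ b).Coprime r := (hp.out.coprime_iff_not_dvd.2 hr).pow_left b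
  obtain ⟨a, ha⟩ := OddChar.char_value_int_of_fixed hχ (g := x) hr0 (hx ▸ hcop)
    (fun σ hσ => hfix σ hσ x)
  refine ⟨a, fun k hk => ?_⟩
  obtain ⟨k', hk1, hk2⟩ := Nat.chineseRemainder hcop k 1
  have hkp : k'.Coprime (p ^ b) := by
    rw [Nat.coprime_iff_gcd_eq_one, Nat.gcd_comm, Nat.gcd_rec, hk1, ← Nat.gcd_rec,
      ← Nat.coprime_iff_gcd_eq_one]
    exact (hp.out.coprime_iff_not_dvd.2 hk).pow_left b
  have hkr : k'.Coprime r := by
    rw [Nat.coprime_iff_gcd_eq_one, Nat.gcd_comm, Nat.gcd_rec, hk2, ← Nat.gcd_rec]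
    exact Nat.gcd_one_right _
  have hpow : ∀ (y : ℂ) (n i j : ℕ), y ^ n = 1 → i ≡ j [MOD n] → y ^ i = y ^ j := by
    intro y n i j hy h
    rw [pow_eq_pow_mod i hy, pow_eq_pow_mod j hy, h]
  obtain ⟨σ, hσ⟩ := OddChar.exists_aut_pow (mul_ne_zero (pow_ne_zero b hp.out.ne_zero) hr0)
    (Nat.Coprime.mul_right hkp hkr)
  obtain ⟨d, ρ, rfl⟩ := hχ
  obtain ⟨z, hz, hc, -, -⟩ := Chars.exists_eigenvalues ρ x
  rw [hx] at hz
  have h1 : σ (ρ.character x) = ρ.character (x ^ k) := by
    rw [hc k, show ρ.character x = ∑ i, z i by simpa using hc 1, map_sum]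
    refine Finset.sum_congr rfl fun i _ => ?_
    rw [hσ _ (by rw [pow_mul, hz i, one_pow]), hpow _ _ _ _ (hz i) hk1]
  rw [← h1, ha, map_intCast]

variable (P : Subgroup G)

/-- The Schur bound. -/
theorem schur_bound (hP : IsPGroup p P) {χ : G → ℂ} (hχ : IsCharacter G χ)
    (hfaith : ∀ g, χ g = χ 1 → g = 1) {n : ℕ} (hn : χ 1 = n) {r : ℕ} (hr0 : r ≠ 0)
    (hr : ¬ p ∣ r) (hrat : ∀ g : G,
      χ g ∈ IntermediateField.adjoin ℚ ({Complex.exp (2 * Real.pi * Complex.I / r)} : Set ℂ)) :
    Nat.card P ∣ p ^ (n / (p - 1)) * Nat.factorial (n / (p - 1)) := by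
  classical
  haveI : Fintype P := Fintype.ofFinite _
  set N := n / (p - 1) with hN
  have hp2 := hp.out.two_le
  -- the values are n - p k
  have hval : ∀ x : P, x ≠ 1 → ∃ k : ℕ, 1 ≤ k ∧ k ≤ N ∧
      χ x = ((n : ℤ) - p * k : ℤ) := by
    intro x hx
    obtain ⟨b, hb⟩ := IsPGroup.iff_orderOf.1 hP x
    have hb' : orderOf (x : G) = p ^ b := by rw [Subgroup.orderOf_coe, hb]
    obtain ⟨a, ha⟩ := pRational_value hχ hr0 hr hrat hb'
    have hax : χ x = a := by
      have := ha 1 hp.out.not_dvd_one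
      rwa [pow_one] at this
    -- congruence
    have hdvd : (p : ℤ) ∣ (n : ℤ) - a := by
      obtain ⟨M, hM, hpM⟩ := DegreeGraph.exists_isMaximal_mem p
      obtain ⟨v, hv, hv'⟩ := DegreeGraph.exists_congr_degree M hpM hχ hb'
      rw [hax, hn] at hv'
      rw [show (n : ℤ) - a = -((a : ℤ) - n) by ring, dvd_neg, ← Blocks.intCast_mem_iff hpM]
      have e : v = ((a - n : ℤ) : AlgInt) := Subtype.ext (by rw [hv']; push_cast; rfl)
      rwa [← e]
    obtain ⟨c, hc⟩ := hdvd
    -- the lower bound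
    obtain ⟨b, rfl⟩ : ∃ b', b = b' + 1 := by
      rcases b with _ | b
      · rw [pow_zero, orderOf_eq_one_iff] at hb; exact absurd hb hx
      · exact ⟨b, rfl⟩
    have hpos : (0 : ℝ) ≤ (∑ i ∈ Finset.range (p ^ (b + 1)), χ ((x : G) ^ i)).re := by
      set H := Subgroup.zpowers (x : G) with hH
      haveI : Fintype H := Fintype.ofFinite _
      obtain ⟨m, hm⟩ := Chars.exists_classInner_eq_nat (Chars.isCharacter_restrict hχ H)
        Chars.isCharacter_one
      rw [Chars.classInner_def] at hm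
      simp only [map_one, mul_one] at hm
      have e : ∑ i ∈ Finset.range (p ^ (b + 1)), χ ((x : G) ^ i) = ∑ y : H, χ y := by
        rw [Finset.sum_range]
        refine Fintype.sum_equiv ((finCongr hb'.symm).trans (finEquivZPowers (isOfFinOrder_of_finite _))) _ _
          fun i => ?_
        simp [finEquivZPowers_apply]
      rw [e, show ∑ y : H, χ y = (Nat.card H : ℂ) * m by
        rw [← hm, mul_inv_cancel_left₀ Chars.card_ne_zero], ← Nat.cast_mul, Complex.natCast_re]
      exact Nat.cast_nonneg _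
    rw [← Finset.sum_filter_not_add_sum_filter _ (fun i => p ∣ i)] at hpos
    have hgen : ∑ i ∈ (Finset.range (p ^ (b + 1))).filter (fun i => ¬ p ∣ i), χ ((x : G) ^ i) =
        ((p ^ (b + 1) - p ^ b : ℕ) : ℂ) * a := by
      rw [Finset.sum_congr rfl fun i hi => ha i (Finset.mem_filter.1 hi).2, Finset.sum_const,
        nsmul_eq_mul]
      congr 2
      have e : Nat.totient (p ^ (b + 1)) =
          ((Finset.range (p ^ (b + 1))).filter (fun i => ¬ p ∣ i)).card := by
        rw [Nat.totient_eq_card_coprime]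
        congr 1
        refine Finset.filter_congr fun i _ => ?_
        rw [Nat.coprime_pow_left_iff (Nat.succ_pos b), hp.out.coprime_iff_not_dvd]
      rw [← e, Nat.totient_prime_pow_succ hp.out, Nat.mul_sub_one, pow_succ]
    have hrest : (∑ i ∈ (Finset.range (p ^ (b + 1))).filter (fun i => p ∣ i),
        χ ((x : G) ^ i)).re ≤ ((p ^ b : ℕ) : ℝ) * n := by
      have hc' : ((Finset.range (p ^ (b + 1))).filter (fun i => p ∣ i)).card ≤ p ^ b := by
        have h1 := Finset.card_le_card_of_injOn (fun i => i / p)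
          (s := (Finset.range (p ^ (b + 1))).filter (fun i => p ∣ i)) (t := Finset.range (p ^ b))
          (fun i hi => Finset.mem_coe.2 (Finset.mem_range.2 ((Nat.div_lt_iff_lt_mul hp.out.pos).2 (by
            rw [← pow_succ]; exact Finset.mem_range.1 (Finset.mem_filter.1 hi).1))))
          (fun i hi j hj h => by
            have h' : i / p = j / p := h
            rw [← Nat.div_mul_cancel (Finset.mem_filter.1 hi).2, h',
              Nat.div_mul_cancel (Finset.mem_filter.1 hj).2])
        simpa using h1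
      obtain ⟨d, ρ, hρ⟩ := id hχ
      have hd : d = n := Nat.cast_injective (R := ℂ) (by
        rw [← hn, ← hρ, Representation.char_one, Module.finrank_fin_fun])
      rw [Complex.re_sum]
      refine (Finset.sum_le_sum fun i _ => ?_).trans (b := ∑ _i ∈ (Finset.range (p ^ (b + 1))).filter
        (fun i => p ∣ i), (n : ℝ)) ?_
      · refine (Complex.re_le_norm _).trans ?_
        rw [← hρ, ← hd]
        exact (Chars.rep_norm_char_le ρ _).trans_eq (by rw [Module.finrank_fin_fun])
      · rw [Finset.sum_const, nsmul_eq_mul]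
        exact mul_le_mul_of_nonneg_right (Nat.cast_le.2 hc') (Nat.cast_nonneg n)
    rw [hgen, Complex.add_re, Complex.mul_re] at hpos
    simp only [Complex.natCast_re, Complex.intCast_re, Complex.natCast_im, zero_mul, sub_zero]
      at hpos
    have hlow : -(n : ℤ) ≤ ((p : ℤ) - 1) * a := by
      have h2 : ((p ^ (b + 1) - p ^ b : ℕ) : ℝ) = (p : ℝ) ^ b * ((p : ℝ) - 1) := by
        rw [Nat.cast_sub (Nat.pow_le_pow_right hp.out.pos (Nat.le_add_right b 1))]
        push_cast
        ring
      rw [h2] at hpos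
      push_cast at hrest
      have hpb : (0 : ℝ) < (p : ℝ) ^ b := pow_pos (Nat.cast_pos.2 hp.out.pos) b
      have h3 : 0 ≤ (p : ℝ) ^ b * (((p : ℝ) - 1) * (a : ℝ) + n) := by nlinarith
      have h4 := nonneg_of_mul_nonneg_right h3 hpb
      have h5 : ((-(n : ℤ) : ℤ) : ℝ) ≤ (((p : ℤ) - 1) * a : ℤ) := by push_cast; linarith
      exact_mod_cast h5
    -- the upper bound
    have hup : (a : ℤ) < n := by
      obtain ⟨d, ρ, hρ⟩ := id hχ
      have hd : d = n := Nat.cast_injective (R := ℂ) (by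
        rw [← hn, ← hρ, Representation.char_one, Module.finrank_fin_fun])
      have h1 : ‖χ x‖ ≤ (n : ℝ) := by
        rw [← hρ, ← hd]
        exact (Chars.rep_norm_char_le ρ _).trans_eq (by rw [Module.finrank_fin_fun])
      rw [hax, Complex.norm_intCast] at h1
      have h2 : a ≤ (n : ℤ) := by exact_mod_cast (le_abs_self (a : ℝ)).trans h1
      refine lt_of_le_of_ne h2 fun he => hx (Subtype.ext (hfaith _ ?_))
      rw [hax, he, hn, Int.cast_natCast]
    have hc1 : 1 ≤ c := by
      by_contra h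
      rw [not_le] at h
      nlinarith [mul_nonneg (Int.natCast_nonneg p) (show (0 : ℤ) ≤ -c by omega)]
    refine ⟨c.toNat, by omega, ?_, ?_⟩
    · rw [hN, Nat.le_div_iff_mul_le (by omega)]
      have hcc : ((c.toNat : ℕ) : ℤ) = c := Int.toNat_of_nonneg (by omega)
      have h1 : c * ((p : ℤ) - 1) ≤ n := by
        have e : a = (n : ℤ) - p * c := by linarith
        rw [e] at hlow
        by_contra hlt
        rw [not_le] at hlt
        nlinarith [mul_le_mul_of_nonneg_left (Int.add_one_le_iff.2 hlt) (Int.natCast_nonneg p)]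
      zify [show 1 ≤ p by omega]
      rw [hcc]; exact h1
    · rw [hax, Int.toNat_of_nonneg (by omega), ← hc]
      congr 1
      ring
  -- the polynomial
  set f : P → ℤ := fun x => if x = 1 then ∏ k ∈ Finset.Icc 1 N, ((p : ℤ) * k) else 0
  have hf : ∀ x : P, (f x : ℂ) = ∏ k ∈ Finset.Icc 1 N, (χ x - ((n : ℤ) - p * k : ℤ)) := by
    intro x
    simp only [f]
    split_ifs with h
    · subst h
      push_cast
      refine Finset.prod_congr rfl fun k _ => ?_
      rw [hn]
      ring
    · obtain ⟨k, hk1, hk2, hk⟩ := hval x h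
      rw [Int.cast_zero]
      exact (Finset.prod_eq_zero (Finset.mem_Icc.2 ⟨hk1, hk2⟩) (by rw [hk, sub_self])).symm
  have key : ∀ s : Finset ℕ, ∀ ψ : P → ℂ, IsCharacter P ψ →
      ∃ m : ℤ, ∑ x : P, ψ x * ∏ k ∈ s, (χ x - ((n : ℤ) - p * k : ℤ)) = (Nat.card P : ℂ) * m := by
    intro s
    induction s using Finset.induction_on with
    | empty =>
      intro ψ hψ
      obtain ⟨m, hm⟩ := Chars.exists_classInner_eq_nat hψ Chars.isCharacter_one
      rw [Chars.classInner_def] at hm
      simp only [map_one, mul_one] at hm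
      exact ⟨m, by simp only [Finset.prod_empty, mul_one]; rw [Int.cast_natCast, ← hm,
        mul_inv_cancel_left₀ Chars.card_ne_zero]⟩
    | insert i s hi ih =>
      intro ψ hψ
      obtain ⟨m₁, h₁⟩ := ih _ (Chars.isCharacter_mul hψ (Chars.isCharacter_restrict hχ P))
      obtain ⟨m₂, h₂⟩ := ih ψ hψ
      refine ⟨m₁ - ((n : ℤ) - p * i) * m₂, ?_⟩
      simp only [Finset.prod_insert hi, Pi.mul_apply] at h₁ ⊢
      push_cast at h₁ h₂ ⊢
      rw [mul_sub, ← h₁, mul_left_comm (Nat.card P : ℂ), ← h₂, Finset.mul_sum,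
        ← Finset.sum_sub_distrib]
      refine Finset.sum_congr rfl fun x _ => ?_
      ring
  obtain ⟨m, hm⟩ := key (Finset.Icc 1 N) _ Chars.isCharacter_one
  simp only [one_mul, ← hf] at hm
  rw [← Int.cast_sum, ← Int.cast_natCast, ← Int.cast_mul, Int.cast_inj] at hm
  simp only [f, Finset.sum_ite_eq', Finset.mem_univ, if_true] at hm
  have h2 : ∏ k ∈ Finset.Icc 1 N, ((p : ℤ) * k) = ((p ^ N * N.factorial : ℕ) : ℤ) := by
    rw [← Finset.prod_Ico_id_eq_factorial, Finset.Ico_add_one_right_eq_Icc,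
      Finset.prod_mul_distrib, Finset.prod_const, Nat.card_Icc, Nat.add_sub_cancel]
    push_cast
    rfl
  rw [h2] at hm
  exact Int.natCast_dvd_natCast.1 ⟨m, hm⟩

end Cfsg.Agent.Chars2
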