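import Cfsg.Agent.Chars2.Intertwiner
import Cfsg.Agent.Chars.Induced

/-!
The algebra spanned by a normal subgroup in an irreducible representation with homogeneous
restriction: it is a full matrix algebra.
-/

set_option autoImplicit false
set_option linter.unusedSectionVars false
set_option linter.style.haveILetI false

namespace Cfsg.Agent.Chars2

open Cfsg Cfsg.Agent Representation

section reconstruct

variable {N : Type*} [Group N] [Fintype N] {U : Type*} [AddCommGroup U] [Module ℂ U]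
  [FiniteDimensional ℂ U]

theorem trace_smulRight' (f : U →ₗ[ℂ] ℂ) (u : U) :
    LinearMap.trace ℂ U (f.smulRight u) = f u := by
  rw [LinearMap.trace_eq_matrix_trace ℂ (Module.finBasis ℂ U), Matrix.trace]
  simp only [Matrix.diag_apply, LinearMap.toMatrix_apply, LinearMap.smulRight_apply, map_smul,
    Finsupp.smul_apply, smul_eq_mul]
  conv_rhs => rw [← (Module.finBasis ℂ U).sum_repr u, map_sum]
  simp only [map_smul, smul_eq_mul]
  exact Finset.sum_congr rfl fun i _ => mul_comm _ _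

/-- An irreducible representation spans all endomorphisms, with explicit coefficients. -/
theorem sum_trace_smul (σ : Representation ℂ N U) [σ.IsIrreducible] (T : Module.End ℂ U) :
    ((Module.finrank ℂ U : ℂ) * (Nat.card N : ℂ)⁻¹) •
      ∑ n : N, LinearMap.trace ℂ U (T * σ n⁻¹) • σ n = T := by
  haveI := nontrivial_of_irreducible σ
  have hd : (Module.finrank ℂ U : ℂ) ≠ 0 := by
    exact_mod_cast (Module.finrank_pos (R := ℂ) (M := U)).ne'
  set k := (Module.finrank ℂ U : ℂ) * (Nat.card N : ℂ)⁻¹ with hk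
  have havg : ∀ S : Module.End ℂ U,
      k • ∑ n : N, σ n * S * σ n⁻¹ = LinearMap.trace ℂ U S • 1 := by
    intro S
    have hc : ∀ m : N, (∑ n : N, σ n * S * σ n⁻¹) * σ m = σ m * ∑ n : N, σ n * S * σ n⁻¹ := by
      intro m
      rw [Finset.sum_mul, Finset.mul_sum]
      refine (Fintype.sum_equiv (Equiv.mulLeft m) _ _ fun n => ?_).symm
      simp only [Equiv.coe_mulLeft, mul_inv_rev, map_mul, mul_assoc]
      rw [← map_mul σ m⁻¹ m, inv_mul_cancel, map_one, mul_one]
    obtain ⟨c, hc⟩ := Chars.scalar_of_commute σ _ hc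
    rw [hc, smul_smul]
    congr 1
    have htr := congrArg (LinearMap.trace ℂ U) hc
    rw [map_sum, map_smul, LinearMap.trace_one, smul_eq_mul,
      Finset.sum_congr rfl (g := fun _ => LinearMap.trace ℂ U S) fun n _ => by
        rw [LinearMap.trace_mul_cycle, ← map_mul, inv_mul_cancel, map_one, one_mul],
      Finset.sum_const, Finset.card_univ, nsmul_eq_mul, ← Nat.card_eq_fintype_card] at htr
    have hN : (Nat.card N : ℂ) ≠ 0 := Chars.card_ne_zero
    rw [hk]
    field_simp
    linear_combination -htr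
  refine LinearMap.ext fun u => ?_
  let b := Module.finBasis ℂ U
  have h := fun i => LinearMap.congr_fun (havg (((b.coord i).comp T).smulRight u)) (b i)
  have h2 := Finset.sum_congr (rfl : (Finset.univ : Finset (Fin (Module.finrank ℂ U))) = Finset.univ)
    fun i _ => h i
  simp only [trace_smulRight', LinearMap.smul_apply, LinearMap.sum_apply, Module.End.mul_apply,
    Module.End.one_apply, LinearMap.smulRight_apply, LinearMap.comp_apply, map_smul,
    Module.Basis.coord_apply, b.sum_repr] at h2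
  conv_rhs => rw [← h2]
  rw [LinearMap.smul_apply, LinearMap.sum_apply, ← Finset.smul_sum, Finset.sum_comm]
  congr 1
  refine Finset.sum_congr rfl fun n _ => ?_
  rw [LinearMap.smul_apply, ← Finset.sum_smul, LinearMap.trace_eq_matrix_trace ℂ b, Matrix.trace]
  congr 1
  exact Finset.sum_congr rfl fun i _ => by
    rw [Matrix.diag_apply, LinearMap.toMatrix_apply]; rfl

/-- The convolution identity of an irreducible character. -/
theorem sum_char_mul_translate (σ : Representation ℂ N U) [σ.IsIrreducible] (h : N) :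
    ((Module.finrank ℂ U : ℂ) * (Nat.card N : ℂ)⁻¹) *
      ∑ n : N, σ.character n⁻¹ * σ.character (n * h) = σ.character h := by
  have := congrArg (fun T => LinearMap.trace ℂ U (T * σ h)) (sum_trace_smul σ 1)
  simpa only [one_mul, smul_mul_assoc, Finset.sum_mul, map_smul, map_sum, smul_eq_mul, ← map_mul,
    Representation.character] using this

end reconstruct

section spanAlg

variable {G : Type*} [Group G] {V : Type*} [AddCommGroup V] [Module ℂ V]

/-- The algebra spanned by the image of a subgroup. -/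
def spanAlg (ρ : Representation ℂ G V) (N : Subgroup G) : Subalgebra ℂ (Module.End ℂ V) :=
  Algebra.adjoin ℂ (ρ '' (N : Set G))

variable {ρ : Representation ℂ G V} {N : Subgroup G}

theorem rho_mem_spanAlg {n : G} (hn : n ∈ N) : ρ n ∈ spanAlg ρ N :=
  Algebra.subset_adjoin ⟨n, hn, rfl⟩

theorem spanAlg_mono {M : Subgroup G} (h : N ≤ M) : spanAlg ρ N ≤ spanAlg ρ M :=
  Algebra.adjoin_mono (Set.image_mono h)

theorem commute_spanAlg {z : Module.End ℂ V} (h : ∀ n ∈ N, Commute z (ρ n))
    {y : Module.End ℂ V} (hy : y ∈ spanAlg ρ N) : Commute z y := by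
  have hle : spanAlg ρ N ≤ Subalgebra.centralizer ℂ {z} := Algebra.adjoin_le (by
    rintro _ ⟨n, hn, rfl⟩
    rw [SetLike.mem_coe, Subalgebra.mem_centralizer_iff]
    rintro _ rfl
    exact h n hn)
  exact Subalgebra.mem_centralizer_iff ℂ |>.1 (hle hy) z rfl

theorem spanAlg_toSubmodule (ρ : Representation ℂ G V) (N : Subgroup G) :
    Subalgebra.toSubmodule (spanAlg ρ N) = Submodule.span ℂ (ρ '' (N : Set G)) := by
  rw [spanAlg, Algebra.adjoin_eq_span]
  congr 1
  have h : (ρ '' (N : Set G)) = ((N.toSubmonoid.map ρ : Submonoid (Module.End ℂ V)) : Set _) := rfl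
  rw [h, Submonoid.closure_eq]

/-- Conjugation by a group element. -/
noncomputable def cj (ρ : Representation ℂ G V) (g : G) :
    Module.End ℂ V →ₐ[ℂ] Module.End ℂ V where
  toFun y := ρ g * y * ρ g⁻¹
  map_one' := by rw [mul_one, ← map_mul, mul_inv_cancel, map_one]
  map_mul' x y := by
    rw [show ρ g * x * ρ g⁻¹ * (ρ g * y * ρ g⁻¹) = ρ g * x * (ρ g⁻¹ * ρ g) * y * ρ g⁻¹ by
      simp only [mul_assoc], ← map_mul, inv_mul_cancel, map_one, mul_one]
    simp only [mul_assoc]
  map_zero' := by simp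
  map_add' x y := by rw [mul_add, add_mul]
  commutes' c := by
    rw [← Algebra.commutes, mul_assoc, ← map_mul, mul_inv_cancel, map_one, mul_one]

theorem cj_apply (g : G) (y : Module.End ℂ V) : cj ρ g y = ρ g * y * ρ g⁻¹ := rfl

theorem cj_cj (g h : G) (y : Module.End ℂ V) : cj ρ g (cj ρ h y) = cj ρ (g * h) y := by
  rw [cj_apply, cj_apply, cj_apply, mul_inv_rev, map_mul, map_mul]
  simp only [mul_assoc]

theorem cj_one (y : Module.End ℂ V) : cj ρ 1 y = y := by simp [cj_apply]

theorem cj_rho (g n : G) : cj ρ g (ρ n) = ρ (g * n * g⁻¹) := by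
  simp only [cj_apply, map_mul]

theorem cj_eq_self {g : G} {y : Module.End ℂ V} (h : Commute y (ρ g)) : cj ρ g y = y := by
  rw [cj_apply, ← h.eq, mul_assoc, ← map_mul, mul_inv_cancel, map_one, mul_one]

theorem commute_of_cj_eq {g : G} {y : Module.End ℂ V} (h : cj ρ g y = y) : Commute y (ρ g) := by
  show y * ρ g = ρ g * y
  conv_lhs => rw [← h, cj_apply]
  rw [mul_assoc, ← map_mul, inv_mul_cancel, map_one, mul_one]

theorem cj_mem_spanAlg [hN : N.Normal] (g : G) {y : Module.End ℂ V} (hy : y ∈ spanAlg ρ N) :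
    cj ρ g y ∈ spanAlg ρ N := by
  have hle : (spanAlg ρ N).map (cj ρ g) ≤ spanAlg ρ N := by
    rw [spanAlg, AlgHom.map_adjoin]
    refine Algebra.adjoin_mono ?_
    rintro _ ⟨_, ⟨n, hn, rfl⟩, rfl⟩
    exact ⟨_, hN.conj_mem n hn g, (cj_rho g n).symm⟩
  exact hle ⟨y, hy, rfl⟩

end spanAlg

section homogeneous

variable {G : Type*} [Group G] [Fintype G] {V : Type*} [AddCommGroup V] [Module ℂ V]
  [FiniteDimensional ℂ V]

/-- The restriction of an irreducible representation, homogeneous on a normal subgroup, factors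
through a full matrix algebra. -/
theorem exists_spanHom (ρ : Representation ℂ G V) [ρ.IsIrreducible] (N : Subgroup G) [N.Normal]
    (h : ∃ (θ : N → ℂ) (c : ℕ), IsIrrCharacter N θ ∧
      (fun n : N => ρ.character n) = (c : ℂ) • θ) :
    ∃ (d : ℕ) (σ : Representation ℂ N (Fin d → ℂ))
      (Φ : Module.End ℂ (Fin d → ℂ) →ₐ[ℂ] Module.End ℂ V), σ.IsIrreducible ∧
      (∀ n : N, Φ (σ n) = ρ n) ∧
      ∀ (g : G) (n : N), σ.character (MulAut.conjNormal g n) = σ.character n := by
  haveI := Fintype.ofFinite N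
  obtain ⟨θ, c, ⟨d, σ, hσ, rfl⟩, hc⟩ := h
  haveI := hσ
  have hc' : ∀ n : N, ρ.character n = (c : ℂ) * σ.character n := fun n => congrFun hc n
  haveI := nontrivial_of_irreducible ρ
  have hV : (Module.finrank ℂ V : ℂ) ≠ 0 := by
    exact_mod_cast (Module.finrank_pos (R := ℂ) (M := V)).ne'
  have hdim : (Module.finrank ℂ V : ℂ) = c * Module.finrank ℂ (Fin d → ℂ) := by
    have := hc' 1
    rwa [OneMemClass.coe_one, char_one, char_one] at this
  have hc0 : (c : ℂ) ≠ 0 := fun h0 => hV (by rw [hdim, h0, zero_mul])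
  have hinv : ∀ (g : G) (n : N), σ.character (MulAut.conjNormal g n) = σ.character n := by
    intro g n
    refine mul_left_cancel₀ hc0 ?_
    rw [← hc', ← hc', MulAut.conjNormal_apply, char_conj]
  let Φ₀ : Module.End ℂ (Fin d → ℂ) →ₗ[ℂ] Module.End ℂ V :=
    ((Module.finrank ℂ (Fin d → ℂ) : ℂ) * (Nat.card N : ℂ)⁻¹) • ∑ n : N,
      ((LinearMap.trace ℂ (Fin d → ℂ)).comp (LinearMap.mulRight ℂ (σ n⁻¹))).smulRight
        (ρ (n : G))
  have happ : ∀ T, Φ₀ T = ((Module.finrank ℂ (Fin d → ℂ) : ℂ) * (Nat.card N : ℂ)⁻¹) •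
      ∑ n : N, LinearMap.trace ℂ _ (T * σ n⁻¹) • ρ (n : G) := fun T => by
    simp [Φ₀, LinearMap.sum_apply]
  have h1 : Φ₀ 1 = 1 := by
    have hcomm : ∀ g, Φ₀ 1 * ρ g = ρ g * Φ₀ 1 := by
      intro g
      rw [happ, smul_mul_assoc, mul_smul_comm, Finset.sum_mul, Finset.mul_sum]
      congr 1
      refine Fintype.sum_equiv (MulAut.conjNormal g⁻¹).toEquiv _ _ fun n => ?_
      have he : ((MulAut.conjNormal g⁻¹ n : N) : G) = g⁻¹ * n * g := by
        rw [MulAut.conjNormal_apply, inv_inv]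
      simp only [MulEquiv.toEquiv_eq_coe, EquivLike.coe_coe, one_mul, smul_mul_assoc,
        mul_smul_comm]
      congr 1
      · rw [← map_inv]
        exact (hinv g⁻¹ n⁻¹).symm
      · rw [← map_mul, ← map_mul, he]
        congr 1
        group
    obtain ⟨a, ha⟩ := Chars.scalar_of_commute ρ _ hcomm
    have htr := congrArg (LinearMap.trace ℂ V) ha
    rw [map_smul, LinearMap.trace_one, smul_eq_mul, happ, map_smul, map_sum, smul_eq_mul] at htr
    have hs : ∑ n : N, σ.character n⁻¹ * σ.character (n * 1) =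
        (Nat.card N : ℂ) := by
      have hh := sum_char_mul_translate σ 1
      rw [char_one] at hh
      have hd : (Module.finrank ℂ (Fin d → ℂ) : ℂ) ≠ 0 := fun h0 => hV (by rw [hdim, h0, mul_zero])
      have hN : (Nat.card N : ℂ) ≠ 0 := Chars.card_ne_zero
      field_simp at hh
      linear_combination hh
    rw [Finset.sum_congr rfl (g := fun n : N => (c : ℂ) * (σ.character n⁻¹ * σ.character (n * 1)))
      (fun n _ => by
        rw [map_smul, smul_eq_mul, one_mul, mul_one]
        show σ.character n⁻¹ * ρ.character n = _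
        rw [hc']; ring), ← Finset.mul_sum, hs] at htr
    have hN : (Nat.card N : ℂ) ≠ 0 := Chars.card_ne_zero
    have ha1 : a = 1 := by
      refine mul_right_cancel₀ hV ?_
      rw [← htr, hdim]
      field_simp
    rw [ha, ha1, one_smul]
  have hσρ : ∀ m : N, Φ₀ (σ m) = ρ m := by
    intro m
    rw [show ρ (m : G) = Φ₀ 1 * ρ (m : G) by rw [h1, one_mul], happ, happ, smul_mul_assoc,
      Finset.sum_mul]
    congr 1
    refine Fintype.sum_equiv (Equiv.mulRight m⁻¹) _ _ fun n => ?_
    simp only [Equiv.coe_mulRight, smul_mul_assoc, ← map_mul, one_mul, Subgroup.coe_mul,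
      InvMemClass.coe_inv, inv_mul_cancel_right, mul_inv_rev, inv_inv]
  have hmul : ∀ T S, Φ₀ (T * S) = Φ₀ T * Φ₀ S := by
    intro T S
    conv_lhs => rw [← sum_trace_smul σ T, ← sum_trace_smul σ S]
    conv_rhs => rw [← sum_trace_smul σ T, ← sum_trace_smul σ S]
    simp only [smul_mul_assoc, mul_smul_comm, map_smul, Finset.sum_mul, Finset.mul_sum, map_sum,
      ← map_mul, hσρ, Subgroup.coe_mul]
  exact ⟨d, σ, AlgHom.ofLinearMap Φ₀ h1 hmul, hσ, hσρ, hinv⟩

theorem spanHom_mem {ρ : Representation ℂ G V} {N : Subgroup G} {d : ℕ}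
    (σ : Representation ℂ N (Fin d → ℂ)) [σ.IsIrreducible]
    (Φ : Module.End ℂ (Fin d → ℂ) →ₐ[ℂ] Module.End ℂ V) (hΦ : ∀ n : N, Φ (σ n) = ρ n)
    (T : Module.End ℂ (Fin d → ℂ)) : Φ T ∈ spanAlg ρ N := by
  haveI := Fintype.ofFinite N
  rw [← sum_trace_smul σ T, map_smul, map_sum]
  refine Subalgebra.smul_mem _ (Subalgebra.sum_mem _ fun n _ => ?_) _
  rw [map_smul, hΦ]
  exact Subalgebra.smul_mem _ (rho_mem_spanAlg n.2) _

/-- An element killing a nonzero commuting operator comes from zero. -/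
theorem spanHom_eq_zero {ρ : Representation ℂ G V} {N : Subgroup G} {d : ℕ}
    (σ : Representation ℂ N (Fin d → ℂ)) [σ.IsIrreducible]
    (Φ : Module.End ℂ (Fin d → ℂ) →ₐ[ℂ] Module.End ℂ V) (hΦ : ∀ n : N, Φ (σ n) = ρ n)
    {Q : Module.End ℂ V} (hQ : ∀ n ∈ N, Commute Q (ρ n)) (hQ0 : Q ≠ 0)
    {T : Module.End ℂ (Fin d → ℂ)} (h0 : Φ T * Q = 0) : T = 0 := by
  haveI := Fintype.ofFinite N
  by_contra hT
  obtain ⟨u, hu⟩ : ∃ u, T u ≠ 0 := by
    by_contra hc
    push Not at hc
    exact hT (LinearMap.ext hc)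
  obtain ⟨i, hi⟩ : ∃ i, T u i ≠ 0 := by
    by_contra hc
    push Not at hc
    exact hu (funext hc)
  let b := Pi.basisFun ℂ (Fin d)
  let f : (Fin d → ℂ) →ₗ[ℂ] ℂ := (T u i)⁻¹ • LinearMap.proj i
  have hsum : ∑ j, f.smulRight (b j) * T * (b.coord j).smulRight u = 1 := by
    refine LinearMap.ext fun v => ?_
    simp only [LinearMap.sum_apply, Module.End.mul_apply, LinearMap.smulRight_apply, map_smul,
      Module.End.one_apply, smul_eq_mul]
    conv_rhs => rw [← b.sum_repr v]
    refine Finset.sum_congr rfl fun j _ => ?_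
    simp [f, inv_mul_cancel₀ hi]
  refine hQ0 ?_
  calc Q = Φ 1 * Q := by rw [map_one, one_mul]
    _ = 0 := by
      rw [← hsum, map_sum, Finset.sum_mul]
      refine Finset.sum_eq_zero fun j _ => ?_
      rw [map_mul, map_mul, mul_assoc, ← (commute_spanAlg hQ (spanHom_mem σ Φ hΦ _)).eq,
        ← mul_assoc, mul_assoc (Φ (f.smulRight (b j))), h0, mul_zero, zero_mul]

variable (ρ : Representation ℂ G V) [ρ.IsIrreducible] (N : Subgroup G) [N.Normal]
  (h : ∃ (θ : N → ℂ) (c : ℕ), IsIrrCharacter N θ ∧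
      (fun n : N => ρ.character n) = (c : ℂ) • θ)

include h

/-- An element of the span annihilated by a commuting operator is zero. -/
theorem eq_zero_of_mul_eq_zero {z Q : Module.End ℂ V} (hz : z ∈ spanAlg ρ N)
    (hQ : ∀ n ∈ N, Commute Q (ρ n)) (hQ0 : Q ≠ 0) (h0 : z * Q = 0) : z = 0 := by
  haveI := Fintype.ofFinite N
  obtain ⟨d, σ, Φ, hσ, hΦ, -⟩ := exists_spanHom ρ N h
  haveI := hσ
  have hle : spanAlg ρ N ≤ Φ.range := Algebra.adjoin_le (by
    rintro _ ⟨n, hn, rfl⟩
    exact ⟨σ ⟨n, hn⟩, hΦ ⟨n, hn⟩⟩)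
  obtain ⟨T, rfl⟩ := hle hz
  rw [spanHom_eq_zero σ Φ hΦ hQ hQ0 h0]
  exact map_zero Φ

/-- The centre of the span consists of scalars. -/
theorem eq_smul_one_of_central {z : Module.End ℂ V} (hz : z ∈ spanAlg ρ N)
    (hc : ∀ n ∈ N, Commute z (ρ n)) : ∃ a : ℂ, z = a • 1 := by
  haveI := Fintype.ofFinite N
  haveI := nontrivial_of_irreducible ρ
  obtain ⟨d, σ, Φ, hσ, hΦ, -⟩ := exists_spanHom ρ N h
  haveI := hσ
  have hle : spanAlg ρ N ≤ Φ.range := Algebra.adjoin_le (by
    rintro _ ⟨n, hn, rfl⟩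
    exact ⟨σ ⟨n, hn⟩, hΦ ⟨n, hn⟩⟩)
  obtain ⟨T, rfl⟩ := hle hz
  have hinj : Function.Injective Φ := fun a b hab => sub_eq_zero.1
    (spanHom_eq_zero σ Φ hΦ (Q := 1) (fun n _ => Commute.one_left _) one_ne_zero
      (by rw [map_sub, hab, sub_self, zero_mul]))
  obtain ⟨a, rfl⟩ := Chars.scalar_of_commute σ T fun n => hinj (by
    rw [map_mul, map_mul, hΦ]
    exact (hc n n.2).eq)
  exact ⟨a, by simp⟩

/-- Conjugation by any group element is inner on the span. -/
theorem exists_inner (g : G) : ∃ X ∈ spanAlg ρ N, ∃ Y ∈ spanAlg ρ N, X * Y = 1 ∧ Y * X = 1 ∧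
    ∀ y ∈ spanAlg ρ N, X * y = cj ρ g y * X := by
  haveI := Fintype.ofFinite N
  obtain ⟨d, σ, Φ, hσ, hΦ, hinv⟩ := exists_spanHom ρ N h
  haveI := hσ
  have hmem := spanHom_mem σ Φ hΦ
  obtain ⟨e⟩ := Chars2.equiv_of_character_eq σ
    (σ.comp (MulAut.conjNormal g : N ≃* N).toMonoidHom) (funext fun n => (hinv g n).symm)
  set X := Φ e.toLinearEquiv.toLinearMap
  set Y := Φ e.toLinearEquiv.symm.toLinearMap
  have hXY : X * Y = 1 := by
    rw [← map_mul, ← map_one Φ]; congr 1
    exact LinearMap.ext fun v => e.toLinearEquiv.apply_symm_apply v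
  have hYX : Y * X = 1 := by
    rw [← map_mul, ← map_one Φ]; congr 1
    exact LinearMap.ext fun v => e.toLinearEquiv.symm_apply_apply v
  refine ⟨X, hmem _, Y, hmem _, hXY, hYX, fun y hy => ?_⟩
  have hle : spanAlg ρ N ≤ AlgHom.equalizer ((cj ρ g))
      { toFun := fun z => X * z * Y
        map_one' := by rw [mul_one, hXY]
        map_mul' := fun a b => by
          rw [show X * a * Y * (X * b * Y) = X * a * (Y * X) * b * Y by simp only [mul_assoc],
            hYX, mul_one]
          simp only [mul_assoc]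
        map_zero' := by simp
        map_add' := fun a b => by rw [mul_add, add_mul]
        commutes' := fun c => by rw [← Algebra.commutes, mul_assoc, hXY, mul_one] } :=
    Algebra.adjoin_le (by
      rintro _ ⟨n, hn, rfl⟩
      show cj ρ g (ρ n) = X * ρ n * Y
      have he : Φ (σ (MulAut.conjNormal g ⟨n, hn⟩)) * X = X * Φ (σ ⟨n, hn⟩) := by
        rw [← map_mul, ← map_mul]; congr 1
        exact (e.isIntertwining' ⟨n, hn⟩).symm
      rw [hΦ, hΦ, MulAut.conjNormal_apply] at he
      rw [← he, mul_assoc, hXY, mul_one, cj_rho])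
  have h1 : cj ρ g y = X * y * Y := hle hy
  rw [h1, mul_assoc, hYX, mul_one]

end homogeneous

end Cfsg.Agent.Chars2
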