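import Cfsg.Agent.Chars2.TIMult
import Cfsg.Agent.OddChar.Coherence
import Cfsg.Agent.Chars.Eigen
import Mathlib.GroupTheory.Transfer
import Mathlib.Data.Nat.ChineseRemainder

/-!
Small degrees force a trivial action of the normalizer on a trivial intersection Sylow group.
-/

set_option autoImplicit false
set_option linter.style.haveILetI false
set_option linter.unusedSectionVars false
set_option linter.unusedVariables false

namespace Cfsg.Agent.Chars2

open Cfsg Cfsg.Agent
open scoped ComplexConjugate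

universe u

namespace TIData

variable {G : Type u} [Group G] [Fintype G] (D : TIData G)

/-- The principal character. -/
noncomputable def oneG : IrrCharacter G := ⟨fun _ => 1, Chars.isIrrCharacter_one⟩

open Classical in
theorem mult_oneG (i : D.Pair) :
    D.mult (oneG : IrrCharacter G) i = if (D.oneP, D.oneK) = i then 1 else 0 := by
  apply Nat.cast_injective (R := ℂ)
  rw [← D.mult_spec, Nat.cast_ite, Nat.cast_one, Nat.cast_zero, ← D.classInner_mu_eq]
  congr 1
  exact funext fun c => (D.mu_oneP c).symm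

/-- A degree, as a natural number. -/
noncomputable def deg {H : Type u} [Group H] (φ : IrrCharacter H) : ℕ :=
  (Chars.exists_irr_apply_one_eq φ.2).choose

theorem deg_pos {H : Type u} [Group H] (φ : IrrCharacter H) : 0 < deg φ :=
  (Chars.exists_irr_apply_one_eq φ.2).choose_spec.1

theorem deg_spec {H : Type u} [Group H] (φ : IrrCharacter H) : (φ : H → ℂ) 1 = deg φ :=
  (Chars.exists_irr_apply_one_eq φ.2).choose_spec.2

theorem deg_oneK : deg D.oneK = 1 := Nat.cast_injective (R := ℂ) (by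
  rw [← deg_spec D.oneK, Nat.cast_one]; rfl)

theorem deg_eq_sum (ψ : IrrCharacter G) : deg ψ = ∑ i : D.Pair, D.mult ψ i * deg i.2 := by
  apply Nat.cast_injective (R := ℂ)
  push_cast
  rw [← deg_spec ψ]
  have h := D.restrict_eq ψ 1
  rw [OneMemClass.coe_one] at h
  rw [h]
  exact Finset.sum_congr rfl fun i _ => by rw [D.mu_one, deg_spec]

open Classical in
theorem supp_filter_card (ψ : IrrCharacter G) :
    ((Finset.univ : Finset D.Pair).filter fun i => i.1 ≠ D.oneP ∧ D.mult ψ i ≠ 0).card ≤ deg ψ := by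
  rw [D.deg_eq_sum ψ, Finset.card_filter]
  refine Finset.sum_le_sum fun i _ => ?_
  split_ifs with h
  · exact Nat.one_le_iff_ne_zero.2 (mul_ne_zero h.2 (deg_pos _).ne')
  · exact Nat.zero_le _

theorem supp_card_le (ψ : IrrCharacter G) : (D.supp ψ).card ≤ deg ψ := by
  classical
  exact Finset.card_image_le.trans (D.supp_filter_card ψ)

theorem ee_le (ψ : IrrCharacter G) (h : (D.supp ψ).Nonempty) : D.ee ≤ deg ψ := by
  classical
  obtain ⟨α, hα⟩ := h
  obtain ⟨hα, φ, hφ⟩ := D.mem_supp.1 hα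
  rw [← D.card_orb (i := (α, φ)) hα]
  refine le_trans (Finset.card_le_card fun j hj => ?_) (D.supp_filter_card ψ)
  obtain ⟨a, rfl⟩ := D.mem_orb.1 hj
  exact Finset.mem_filter.2 ⟨Finset.mem_univ _, D.act_fst_ne a (i := (α, φ)) hα,
    by rw [D.mult_act]; exact hφ⟩

open Classical in
/-- The shape of a character of small degree. -/
theorem shape (ψ : IrrCharacter G) (hne : (D.supp ψ).Nonempty)
    (hsmall : (D.supp ψ).card + D.ee + 1 < Nat.card D.P) :
    ∃ i : D.Pair, i.1 ≠ D.oneP ∧
      (∀ j : D.Pair, j.1 ≠ D.oneP → D.mult ψ j = if D.Rel i j then 1 else 0) ∧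
      deg ψ = (∑ φ, D.m0 ψ φ * deg φ) + D.ee * deg i.2 := by
  obtain ⟨α, hα⟩ := hne
  obtain ⟨hα, φ, hφ⟩ := D.mem_supp.1 hα
  have hm := D.mult_single_orbit ψ hsmall (i := (α, φ)) hα hφ
  refine ⟨(α, φ), hα, hm, ?_⟩
  apply Nat.cast_injective (R := ℂ)
  push_cast
  rw [← deg_spec ψ, D.apply_one_eq ψ (i := (α, φ)) hα (fun j _ hj => by convert hm j hj)]
  simp only [deg_spec]

open Classical in
/-- A unique character of `K` above the trivial character of `P`, inside the orbit's labels. -/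
theorem unique_m0 (he : 2 ≤ D.ee) (hh : Nat.card D.P = D.ee * (D.ee + 1) + 1) (ψ : IrrCharacter G)
    {i : D.Pair} (hi : i.1 ≠ D.oneP)
    (hm : ∀ j : D.Pair, j.1 ≠ D.oneP → D.mult ψ j = if D.Rel i j then 1 else 0)
    {φ₁ : IrrCharacter D.K} (hφ₁ : D.m0 ψ φ₁ ≠ 0) :
    (∀ φ, D.m0 ψ φ = if φ = φ₁ then 1 else 0) ∧ ∃ j, D.Rel i j ∧ j.2 = φ₁ := by
  have hb := D.bound_m0 ψ hi (fun j _ hj => by convert hm j hj)
  set S := ∑ φ, (D.m0 ψ φ : ℤ) ^ 2 with hS
  have hS1 : S ≤ 1 := by
    by_contra hlt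
    have he' : (2 : ℤ) ≤ D.ee := by exact_mod_cast he
    rw [hh] at hb
    push_cast at hb
    rw [not_le] at hlt
    have h2 : (2 : ℤ) ≤ S := hlt
    nlinarith [mul_le_mul_of_nonneg_left h2 (mul_nonneg (Int.natCast_nonneg D.ee)
      (Int.natCast_nonneg D.ee))]
  have hval : ∀ φ, D.m0 ψ φ = if φ = φ₁ then 1 else 0 := by
    rw [hS, ← Finset.add_sum_erase _ _ (Finset.mem_univ φ₁)] at hS1
    have hrest : 0 ≤ ∑ φ ∈ Finset.univ.erase φ₁, (D.m0 ψ φ : ℤ) ^ 2 :=
      Finset.sum_nonneg fun φ _ => sq_nonneg _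
    have h1 : (1 : ℤ) ≤ D.m0 ψ φ₁ := by exact_mod_cast Nat.one_le_iff_ne_zero.2 hφ₁
    intro φ
    split_ifs with h
    · subst h
      have : (D.m0 ψ φ : ℤ) ≤ 1 := by nlinarith
      omega
    · have h0 : ∑ φ ∈ Finset.univ.erase φ₁, (D.m0 ψ φ : ℤ) ^ 2 = 0 := by nlinarith
      have h2 := (Finset.sum_eq_zero_iff_of_nonneg fun φ _ => sq_nonneg _).1 h0 φ
        (Finset.mem_erase.2 ⟨h, Finset.mem_univ _⟩)
      exact_mod_cast (pow_eq_zero_iff two_ne_zero).1 h2
  refine ⟨hval, ?_⟩
  by_contra hnone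
  push Not at hnone
  have hr0 : D.rr i φ₁ = 0 := by
    rw [rr, Finset.card_eq_zero, Finset.filter_eq_empty_iff]
    exact fun j hj e => hnone j (D.mem_orb.1 hj) e
  have h := D.norm_bound ψ hi hm
  have h1 : ∑ φ, D.m0 ψ φ ^ 2 = 1 := by simp [hval]
  have h2 : ∑ φ, (D.m0 ψ φ + D.rr i φ) ^ 2 ≤ 1 + D.ee ^ 2 := by
    rw [← h1, ← D.sum_rr hi]
    refine le_trans ?_ (Nat.add_le_add_left (Finset.sum_sq_le_sq_sum_of_nonneg
      (s := Finset.univ) (f := fun φ => D.rr i φ) fun φ _ => Nat.zero_le _) _)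
    rw [← Finset.sum_add_distrib]
    refine Finset.sum_le_sum fun φ _ => ?_
    rw [hval φ]
    split_ifs with hφ
    · rw [hφ, hr0]; simp
    · simp
  rw [h1, hh] at h
  nlinarith

open Classical in
/-- The residual configuration does not occur. -/
theorem no_tight (he : 2 ≤ D.ee) (hh : Nat.card D.P = D.ee * (D.ee + 1) + 1)
    (ψ : IrrCharacter G) (hψ : deg ψ = D.ee + 1) {i : D.Pair} (hi : i.1 ≠ D.oneP)
    (hi2 : i.2 = D.oneK)
    (hm : ∀ j : D.Pair, j.1 ≠ D.oneP → D.mult ψ j = if D.Rel i j then 1 else 0) : False := by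
  set e := D.ee with hedef
  set Y := (Finset.univ : Finset D.Pair).filter fun j => j.1 ≠ D.oneP ∧ j.2 = D.oneK ∧ ¬ D.Rel i j
    with hY
  have hsnd : ∀ {j l : D.Pair}, D.Rel j l → j.2 = D.oneK → l.2 = D.oneK := by
    rintro j _ ⟨a, rfl⟩ hj
    exact Subtype.ext (D.act_snd_one a (by rw [hj]; rfl))
  have horbY : ∀ j ∈ Y, D.orb j ⊆ Y := by
    intro j hj l hl
    obtain ⟨hj1, hj2, hj3⟩ := (Finset.mem_filter.1 hj).2
    refine Finset.mem_filter.2 ⟨Finset.mem_univ _, ?_, hsnd (D.mem_orb.1 hl) hj2,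
      fun h => hj3 (D.rel_trans h (D.rel_symm (D.mem_orb.1 hl)))⟩
    obtain ⟨a, rfl⟩ := D.mem_orb.1 hl
    exact D.act_fst_ne a hj1
  have hYcard : Y.card + e + 1 = Nat.card D.P := by
    rw [← D.card_irrP, ← Finset.card_univ, ← Finset.card_erase_add_one (Finset.mem_univ D.oneP),
      add_left_inj, hedef, ← D.card_orb hi, ← Finset.card_union_of_disjoint]
    · refine Finset.card_bij (fun j _ => j.1) (fun j hj => ?_) (fun j hj l hl e => ?_)
        (fun α hα => ⟨(α, D.oneK), ?_, rfl⟩)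
      · rw [Finset.mem_erase]
        refine ⟨?_, Finset.mem_univ _⟩
        rcases Finset.mem_union.1 hj with hj | hj
        · exact (Finset.mem_filter.1 hj).2.1
        · obtain ⟨a, rfl⟩ := D.mem_orb.1 hj; exact D.act_fst_ne a hi
      · have h2 : ∀ j ∈ Y ∪ D.orb i, j.2 = D.oneK := fun j hj => by
          rcases Finset.mem_union.1 hj with hj | hj
          · exact (Finset.mem_filter.1 hj).2.2.1
          · exact hsnd (D.mem_orb.1 hj) hi2
        exact Prod.ext e ((h2 j hj).trans (h2 l hl).symm)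
      · rw [Finset.mem_union]
        by_cases h : D.Rel i (α, D.oneK)
        · exact Or.inr (D.mem_orb.2 h)
        · exact Or.inl (Finset.mem_filter.2 ⟨Finset.mem_univ _, (Finset.mem_erase.1 hα).1, rfl, h⟩)
    · exact Finset.disjoint_left.2 fun j hj hj' =>
        (Finset.mem_filter.1 hj).2.2.2 (D.mem_orb.1 hj')
  have hfib : ∀ O ∈ Y.image D.orb, (Y.filter fun j => D.orb j = O).card = e := by
    intro O hO
    obtain ⟨j, hj, rfl⟩ := Finset.mem_image.1 hO
    rw [hedef, ← D.card_orb (Finset.mem_filter.1 hj).2.1]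
    congr 1
    ext l
    rw [Finset.mem_filter]
    exact ⟨fun h => h.2 ▸ D.mem_orb.2 (D.rel_refl l), fun h => ⟨horbY j hj h,
      (D.orb_eq_of_rel (D.mem_orb.1 h)).symm⟩⟩
  have hnum : (Y.image D.orb).card = e := by
    have h := Finset.card_eq_sum_card_image D.orb Y
    rw [Finset.sum_congr rfl hfib, Finset.sum_const, smul_eq_mul] at h
    rw [hh] at hYcard
    nlinarith
  -- the characters `X`
  have hX : ∀ O : (Y.image D.orb : Finset (Finset D.Pair)), ∃ (X : IrrCharacter G) (k : D.Pair),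
      D.orb k = O.1 ∧ deg X = e + 1 ∧ k.1 ≠ D.oneP ∧ ¬ D.Rel i k ∧
      (∀ j : D.Pair, j.1 ≠ D.oneP → D.mult X j = if D.Rel k j then 1 else 0) ∧
      D.mult X (D.oneP, D.oneK) = 1 := by
    rintro ⟨O, hO⟩
    obtain ⟨k, hk, rfl⟩ := Finset.mem_image.1 hO
    obtain ⟨hk1, hk2, hk3⟩ := (Finset.mem_filter.1 hk).2
    have hmi : D.mult ψ i = 1 := by rw [hm i hi, if_pos (D.rel_refl i)]
    have hmk : D.mult ψ k = 0 := by rw [hm k hk1, if_neg hk3]
    obtain ⟨-, X, hXne, hX, hX1⟩ :=
      D.diff_shape ψ (i := i) (j := k) (hi2.trans hk2.symm) hi hk1 (by omega)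
    have hdX : deg X = e + 1 := by
      rw [← hψ]; apply Nat.cast_injective (R := ℂ); rw [← deg_spec, ← deg_spec]; exact hX1
    have h2 := D.inner_ind_diff X i k
    rw [hX, Chars.classInner_sub_left, Chars.classInner_self_irr X.2,
      Chars.classInner_irrCharacter, if_neg (Ne.symm hXne), zero_sub] at h2
    have hXk : D.mult X k ≠ 0 := by
      intro h0
      rw [h0, Nat.cast_zero, sub_zero] at h2
      have h3 : ((D.mult X i + 1 : ℕ) : ℂ) = ((0 : ℕ) : ℂ) := by push_cast; linear_combination -h2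
      exact Nat.succ_ne_zero _ (Nat.cast_injective h3)
    have hsm : (D.supp X).card + D.ee + 1 < Nat.card D.P := by
      have := D.supp_card_le X
      rw [hh]; nlinarith
    have hmX := D.mult_single_orbit X hsm hk1 hXk
    refine ⟨X, k, rfl, hdX, hk1, hk3, hmX, ?_⟩
    obtain ⟨φ₁, hφ₁⟩ : ∃ φ, D.m0 X φ ≠ 0 := by
      by_contra hall
      push Not at hall
      have h := D.apply_one_eq X hk1 (fun j _ hj => by convert hmX j hj)
      rw [deg_spec X, hdX] at h
      simp only [hall, Nat.cast_zero, zero_mul, Finset.sum_const_zero, zero_add] at h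
      rw [hk2, deg_spec D.oneK, D.deg_oneK, Nat.cast_one, mul_one, Nat.cast_inj] at h
      omega
    obtain ⟨hval, j, hj, hj2⟩ := D.unique_m0 he hh X hk1 hmX hφ₁
    have : φ₁ = D.oneK := hj2 ▸ hsnd hj hk2
    show D.m0 X D.oneK = 1
    rw [hval, if_pos this.symm]
  choose X kX hkX hdX hk1 hk3 hmX hX0 using hX
  -- the induced difference
  let o : D.Pair := (D.oneP, D.oneK)
  have hv : D.Van ((D.mu o : D.C → ℂ) - (D.mu i : D.C → ℂ)) := D.van_diff hi2.symm
  set F := indFun D.C ((D.mu o : D.C → ℂ) - (D.mu i : D.C → ℂ)) with hF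
  have hFF : classInner F F = (e : ℂ) + 1 := by
    rw [hF, D.inner_diff o i o i hv hv]
    have hi' : o ≠ i := fun h => hi (by rw [← h])
    have e1 : (Finset.univ.filter fun a : D.N => D.act a o = o) = Finset.univ :=
      Finset.filter_true_of_mem fun a _ => D.act_one_pair a
    have e2 : (Finset.univ.filter fun a : D.N => D.act a o = i) = ∅ :=
      Finset.filter_false_of_mem fun a _ h => hi' ((D.act_one_pair a).symm.trans h)
    rw [e1, e2, D.card_act_eq hi o, D.card_act_eq hi i, if_pos (D.rel_refl i), if_neg,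
      Finset.card_empty, Finset.card_univ, ← Nat.card_eq_fintype_card, D.card_N]
    · have : (Nat.card D.C : ℂ) ≠ 0 := Chars.card_ne_zero
      push_cast
      field_simp
      rw [hedef]; ring
    · rintro ⟨a, ha⟩
      exact D.act_fst_ne a hi (by rw [ha])
  set T : Finset (IrrCharacter G) := insert oneG (Finset.univ.image X) with hT
  have hinj : Function.Injective X := by
    intro O O' h
    refine Subtype.ext ((hkX O).symm.trans ((D.orb_eq_of_rel ?_).trans (hkX O')))
    have h1 := hmX O' (kX O') (hk1 O')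
    rw [if_pos (D.rel_refl _), ← h, hmX O (kX O') (hk1 O')] at h1
    by_contra hn
    rw [if_neg hn] at h1
    exact zero_ne_one h1
  have hnot : oneG ∉ Finset.univ.image X := by
    intro h
    obtain ⟨O, -, hO⟩ := Finset.mem_image.1 h
    have := hdX O
    rw [hO] at this
    have h1 : deg (oneG : IrrCharacter G) = 1 :=
      Nat.cast_injective (R := ℂ) (by rw [← deg_spec, Nat.cast_one]; rfl)
    omega
  have hTc : T.card = e + 1 := by
    rw [hT, Finset.card_insert_of_notMem hnot, Finset.card_image_of_injective _ hinj,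
      Finset.card_univ, Fintype.card_coe, hnum]
  have hTin : ∀ ψ' ∈ T, classInner F (ψ' : G → ℂ) = 1 := by
    intro ψ' hψ'
    rw [hF, D.inner_ind_diff]
    rcases Finset.mem_insert.1 hψ' with rfl | hψ'
    · rw [D.mult_oneG, D.mult_oneG, if_pos rfl, if_neg fun h => hi (by rw [← h])]
      simp
    · obtain ⟨O, -, rfl⟩ := Finset.mem_image.1 hψ'
      rw [hX0, hmX O i hi, if_neg fun h => hk3 O (D.rel_symm h)]
      simp
  have hzero : F - ∑ ψ' ∈ T, (ψ' : G → ℂ) = 0 := by
    refine OddChar.eq_zero_of_classInner_self_re ?_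
    have h1 : classInner (∑ ψ' ∈ T, (ψ' : G → ℂ)) (∑ ψ' ∈ T, (ψ' : G → ℂ)) = (T.card : ℂ) := by
      rw [Chars.classInner_sum_left, Finset.card_eq_sum_ones, Nat.cast_sum]
      refine Finset.sum_congr rfl fun a ha => ?_
      rw [Chars.classInner_sum_right]
      simp [Chars.classInner_irrCharacter, ha]
    have h2 : classInner F (∑ ψ' ∈ T, (ψ' : G → ℂ)) = (T.card : ℂ) := by
      rw [Chars.classInner_sum_right, Finset.sum_congr rfl hTin]
      simp
    have h3 : classInner (∑ ψ' ∈ T, (ψ' : G → ℂ)) F = (T.card : ℂ) := by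
      rw [← Chars.classInner_conj_symm F, h2, map_natCast]
    rw [Chars.classInner_sub_left, Chars.classInner_sub_right, Chars.classInner_sub_right, hFF, h1,
      h2, h3, hTc]
    push_cast
    simp
  have hone := congrFun hzero 1
  rw [Pi.sub_apply, hF, D.ind_diff_apply_one o i hi2.symm, zero_sub, Pi.zero_apply,
    neg_eq_zero, Finset.sum_apply] at hone
  simp only [deg_spec, ← Nat.cast_sum, Nat.cast_eq_zero] at hone
  exact (Finset.sum_pos (fun ψ' _ => deg_pos ψ') ⟨oneG, Finset.mem_insert_self _ _⟩).ne' hone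

/-- The product of a linear character of `P` with a conjugate one. -/
noncomputable def prodP (j l : D.Pair) : IrrCharacter D.P :=
  ⟨(j.1 : D.P → ℂ) * fun u => conj ((l.1 : D.P → ℂ) u),
    Chars.isIrrCharacter_of_degree_one
      (Chars.isCharacter_mul (Chars.irr_isCharacter j.1)
        (Chars.isCharacter_star (Chars.irr_isCharacter l.1)))
      (by simp [D.irrP_one])⟩

theorem prodP_eq_one {j l : D.Pair} : D.prodP j l = D.oneP ↔ j.1 = l.1 := by
  classical
  have h : classInner (D.prodP j l : D.P → ℂ) (D.oneP : D.P → ℂ) =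
      classInner (j.1 : D.P → ℂ) (l.1 : D.P → ℂ) := by
    simp [Chars.classInner_def, prodP, oneP]
  rw [Chars.classInner_irrCharacter, Chars.classInner_irrCharacter] at h
  split_ifs at h with h1 h2 h3
  · exact iff_of_true h1 h2
  · exact absurd h one_ne_zero
  · exact absurd h.symm one_ne_zero
  · exact iff_of_false h1 h3

open Classical in
/-- No nonlinear character of degree below the root of the order of `P`, when every nonprincipal
character is nontrivial on `P`. -/
theorem no_small_degree (hno : ∀ ψ : IrrCharacter G, ψ ≠ oneG → (D.supp ψ).Nonempty)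
    (χ : IrrCharacter G) (hn : 1 < deg χ) (hx : deg χ ^ 2 + 1 < Nat.card D.P) : False := by
  set e := D.ee with hedef
  set h := Nat.card D.P with hhdef
  have hχne : χ ≠ oneG := fun he => by
    have h1 : deg (oneG : IrrCharacter G) = 1 :=
      Nat.cast_injective (R := ℂ) (by rw [← deg_spec, Nat.cast_one]; rfl)
    rw [he, h1] at hn; omega
  have hen : e ≤ deg χ := D.ee_le χ (hno χ hχne)
  have hepos : 0 < e := D.ee_pos
  obtain ⟨i₀, hi₀, hmχ, hdχ⟩ := D.shape χ (hno χ hχne) (by
    have := D.supp_card_le χ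
    rw [← hedef, ← hhdef]; nlinarith)
  set f := deg i₀.2
  have hf : 0 < f := deg_pos _
  have hbig : ∀ (ψ : IrrCharacter G) {i : D.Pair}, i.1 ≠ D.oneP →
      (∀ j : D.Pair, j.1 ≠ D.oneP → D.mult ψ j = if D.Rel i j then 1 else 0) →
      (∃ φ, D.m0 ψ φ ≠ 0) → h ≤ e * e + 2 * e := by
    rintro ψ i hi hm ⟨φ, hφ⟩
    have hb := D.bound_m0 ψ hi (fun j _ hj => by convert hm j hj)
    set S := ∑ φ, (D.m0 ψ φ : ℤ) ^ 2
    have hS : (1 : ℤ) ≤ S := le_trans (by
      have : (1 : ℤ) ≤ D.m0 ψ φ := by exact_mod_cast Nat.one_le_iff_ne_zero.2 hφ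
      nlinarith) (Finset.single_le_sum (f := fun φ => (D.m0 ψ φ : ℤ) ^ 2)
        (fun _ _ => sq_nonneg _) (Finset.mem_univ φ))
    rw [← hedef, ← hhdef] at hb
    by_contra hlt
    rw [not_le] at hlt
    have h1 : ((e * e + 2 * e + 1 : ℕ) : ℤ) ≤ (h : ℤ) := by exact_mod_cast hlt
    push_cast at h1
    nlinarith [mul_le_mul_of_nonneg_right h1 (le_trans zero_le_one hS),
      mul_nonneg (mul_nonneg (Int.natCast_nonneg e) (by positivity : (0 : ℤ) ≤ 1 + (e : ℤ)))
        (sub_nonneg.2 hS)]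
  -- no part trivial on `P`
  have hm0χ : ∀ φ, D.m0 χ φ = 0 := by
    by_contra hex
    push Not at hex
    obtain ⟨φ, hφ⟩ := hex
    have h1 := hbig χ hi₀ hmχ ⟨φ, hφ⟩
    have h2 : 1 ≤ ∑ φ, D.m0 χ φ * deg φ :=
      le_trans (Nat.one_le_iff_ne_zero.2 (mul_ne_zero hφ (deg_pos φ).ne'))
        (Finset.single_le_sum (f := fun φ => D.m0 χ φ * deg φ) (fun _ _ => Nat.zero_le _)
          (Finset.mem_univ φ))
    have h3 : e + 1 ≤ deg χ := by
      rw [hdχ]; nlinarith
    nlinarith
  have hdχ' : deg χ = e * f := by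
    rw [hdχ, Finset.sum_eq_zero fun φ _ => by rw [hm0χ, zero_mul], zero_add]
  set O := D.orb i₀ with hOdef
  have hres : ∀ c : D.C, (χ : G → ℂ) c = ∑ j ∈ O, (D.mu j : D.C → ℂ) c := by
    intro c
    rw [D.restrict_eq χ c, ← Finset.sum_subset (Finset.subset_univ O) fun j _ hj => ?_]
    · refine Finset.sum_congr rfl fun j hj => ?_
      rw [D.mult_rel χ (D.mem_orb.1 hj), hmχ i₀ hi₀, if_pos (D.rel_refl _), Nat.cast_one, one_mul]
    · rcases eq_or_ne j.1 D.oneP with h1 | h1
      · rw [show D.mult χ j = D.m0 χ j.2 from by rw [m0, ← h1], hm0χ, Nat.cast_zero, zero_mul]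
      · rw [hmχ j h1, if_neg fun h => hj (D.mem_orb.2 h), Nat.cast_zero, zero_mul]
  set ρ : G → ℂ := (χ : G → ℂ) * fun g => conj ((χ : G → ℂ) g) with hρ
  have hρc : IsCharacter G ρ := Chars.isCharacter_mul (Chars.irr_isCharacter χ)
    (Chars.isCharacter_star (Chars.irr_isCharacter χ))
  obtain ⟨a, ha⟩ := exists_multiplicities hρc
  have hρres : ∀ i : D.Pair, classInner (fun c : D.C => ρ c) (D.mu i : D.C → ℂ) =
      ((∑ ψ, a ψ * D.mult ψ i : ℕ) : ℂ) := by
    intro i
    have e' : (fun c : D.C => ρ c) =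
        ∑ ψ : IrrCharacter G, (a ψ : ℂ) • fun c : D.C => (ψ : G → ℂ) c := by
      funext c
      rw [Finset.sum_apply, apply_eq_sum (Chars.isClassFunction_of_isCharacter hρc) (c : G)]
      simp only [ha, Pi.smul_apply, smul_eq_mul]
    rw [e', Chars.classInner_sum_left]
    simp only [Chars.classInner_smul_left, D.mult_spec]
    push_cast
    rfl
  have hprod : ∀ i : D.Pair, classInner (fun c : D.C => ρ c) (D.mu i : D.C → ℂ) =
      ∑ j ∈ O, ∑ l ∈ O, (if D.prodP j l = i.1 then 1 else 0) *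
        classInner ((j.2 : D.K → ℂ) * fun v => conj ((l.2 : D.K → ℂ) v)) (i.2 : D.K → ℂ) := by
    intro i
    have e' : (fun c : D.C => ρ c) = ∑ j ∈ O, ∑ l ∈ O, fun c : D.C =>
        OddChar.outer (D.prodP j l : D.P → ℂ)
          ((j.2 : D.K → ℂ) * fun v => conj ((l.2 : D.K → ℂ) v)) (D.e.symm c) := by
      funext c
      simp only [Finset.sum_apply]
      obtain ⟨x, rfl⟩ := D.e.surjective c
      simp only [hρ, Pi.mul_apply, hres, map_sum, Finset.sum_mul_sum, D.mu_e,
        D.e.symm_apply_apply]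
      refine Finset.sum_congr rfl fun j _ => Finset.sum_congr rfl fun l _ => ?_
      simp only [OddChar.outer, prodP, Pi.mul_apply, map_mul]
      ring
    rw [e', Chars.classInner_sum_left]
    refine Finset.sum_congr rfl fun j _ => ?_
    rw [Chars.classInner_sum_left]
    refine Finset.sum_congr rfl fun l _ => ?_
    refine (Chars.classInner_comp_equiv D.e.symm _
      (OddChar.outer (i.1 : D.P → ℂ) (i.2 : D.K → ℂ))).trans ?_
    rw [OddChar.classInner_outer, Chars.classInner_irrCharacter]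
  have hsupp : ∀ ψ : IrrCharacter G, a ψ ≠ 0 →
      D.supp ψ ⊆ O.offDiag.image fun v => D.prodP v.1 v.2 := by
    intro ψ hψ α hα
    obtain ⟨hα1, φ, hφ⟩ := D.mem_supp.1 hα
    by_contra hnot
    have h0 := hprod (α, φ)
    rw [hρres, Finset.sum_eq_zero (s := O) fun j hj => Finset.sum_eq_zero fun l hl => ?_] at h0
    · rw [Nat.cast_eq_zero, Finset.sum_eq_zero_iff] at h0
      exact mul_ne_zero hψ hφ (h0 ψ (Finset.mem_univ _))
    · rw [if_neg, zero_mul]
      intro he
      rcases eq_or_ne j l with rfl | hjl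
      · exact hα1 (he.symm.trans (D.prodP_eq_one.2 rfl))
      · exact hnot (Finset.mem_image.2 ⟨(j, l), Finset.mem_offDiag.2 ⟨hj, hl, hjl⟩, he⟩)
  have hOc : O.card = e := D.card_orb hi₀
  have hsuppc : ∀ ψ : IrrCharacter G, a ψ ≠ 0 → (D.supp ψ).card + e ≤ e * e := by
    intro ψ hψ
    have h1 := (Finset.card_le_card (hsupp ψ hψ)).trans Finset.card_image_le
    rw [Finset.offDiag_card, hOc] at h1
    have : e ≤ e * e := Nat.le_mul_self e
    omega
  rcases Nat.lt_or_ge e 2 with he2 | he2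
  · have he1 : e = 1 := by omega
    have hz : ∀ ψ : IrrCharacter G, ψ ≠ oneG → a ψ = 0 := by
      intro ψ hψ
      by_contra hne
      have h1 := hsuppc ψ hne
      rw [he1] at h1
      exact (hno ψ hψ).ne_empty (Finset.card_eq_zero.1 (by omega))
    have h1 := apply_eq_sum (Chars.isClassFunction_of_isCharacter hρc) 1
    rw [Finset.sum_eq_single oneG (fun ψ _ hψ => by rw [ha, hz ψ hψ, Nat.cast_zero, zero_mul])
      (fun h => absurd (Finset.mem_univ _) h)] at h1
    have h2 : classInner ρ ((oneG : IrrCharacter G) : G → ℂ) = 1 := by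
      rw [← Chars.classInner_self_irr χ.2]
      simp [Chars.classInner_def, hρ, oneG]
    rw [h2, hρ, Pi.mul_apply, deg_spec χ, map_natCast] at h1
    simp only [oneG, mul_one] at h1
    have : deg χ * deg χ = 1 := by exact_mod_cast h1
    nlinarith
  · obtain ⟨ψ, hψne, haψ, hmψ⟩ : ∃ ψ : IrrCharacter G, ψ ≠ oneG ∧ a ψ ≠ 0 ∧
        D.mult ψ (D.oneP, D.oneK) ≠ 0 := by
      by_contra hall
      push Not at hall
      have h1 := hρres (D.oneP, D.oneK)
      rw [hprod, Finset.sum_congr rfl (g := fun _ => (1 : ℂ)) fun j hj => ?_,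
        Finset.sum_const, hOc, nsmul_eq_mul, mul_one, Nat.cast_inj] at h1
      · rw [Finset.sum_eq_single oneG (fun ψ _ hψ => by
            rcases eq_or_ne (a ψ) 0 with h0 | h0
            · rw [h0, zero_mul]
            · rw [hall ψ hψ h0, mul_zero]) (fun h => absurd (Finset.mem_univ _) h)] at h1
        have h2 : a oneG = 1 := by
          have h3 := ha oneG
          rw [show classInner ρ ((oneG : IrrCharacter G) : G → ℂ) = 1 from by
            rw [← Chars.classInner_self_irr χ.2]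
            simp [Chars.classInner_def, hρ, oneG]] at h3
          exact_mod_cast h3.symm
        rw [h2, D.mult_oneG, if_pos rfl] at h1
        omega
      · rw [Finset.sum_eq_single j]
        · rw [if_pos (D.prodP_eq_one.2 rfl), one_mul, ← Chars.classInner_self_irr j.2.2]
          simp [Chars.classInner_def, oneK]
        · intro l hl hlj
          rw [if_neg, zero_mul]
          intro he
          exact hlj (D.fst_injOn_orb hi₀ (D.mem_orb.1 hl) (D.mem_orb.1 hj)
            (D.prodP_eq_one.1 he).symm)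
        · exact fun h => absurd hj h
    obtain ⟨i, hi, hm, hd⟩ := D.shape ψ (hno ψ hψne) (by
      have := hsuppc ψ haψ
      rw [← hedef, ← hhdef]; nlinarith)
    have hb := hbig ψ hi hm ⟨D.oneK, hmψ⟩
    have hf1 : f = 1 := by
      rw [hdχ'] at hx
      by_contra hf'
      have : 2 ≤ f := by omega
      nlinarith [Nat.mul_le_mul_left (e * e) (Nat.pow_le_pow_left this 2)]
    -- the orbits divide `h - 1`
    have hdvd : e ∣ h - 1 := by
      set Y := (Finset.univ : Finset D.Pair).filter fun j => j.1 ≠ D.oneP ∧ j.2 = D.oneK with hY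
      have hYc : Y.card = h - 1 := by
        rw [hhdef, ← D.card_irrP, ← Finset.card_univ,
          ← Finset.card_erase_of_mem (Finset.mem_univ D.oneP)]
        refine Finset.card_bij (fun j _ => j.1)
          (fun j hj => Finset.mem_erase.2 ⟨(Finset.mem_filter.1 hj).2.1, Finset.mem_univ _⟩)
          (fun j hj l hl e => Prod.ext e
            ((Finset.mem_filter.1 hj).2.2.trans (Finset.mem_filter.1 hl).2.2.symm))
          fun α hα => ⟨(α, D.oneK),
            Finset.mem_filter.2 ⟨Finset.mem_univ _, (Finset.mem_erase.1 hα).1, rfl⟩, rfl⟩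
      rw [← hYc, Finset.card_eq_sum_card_image D.orb Y]
      refine Finset.dvd_sum fun P hP => ?_
      obtain ⟨j, hj, rfl⟩ := Finset.mem_image.1 hP
      obtain ⟨hj1, hj2⟩ := (Finset.mem_filter.1 hj).2
      rw [hedef, ← D.card_orb hj1, show (Y.filter fun l => D.orb l = D.orb j) = D.orb j from ?_]
      ext l
      rw [Finset.mem_filter]
      refine ⟨fun h => h.2 ▸ D.mem_orb.2 (D.rel_refl l), fun hl => ⟨?_,
        (D.orb_eq_of_rel (D.mem_orb.1 hl)).symm⟩⟩
      obtain ⟨b, rfl⟩ := D.mem_orb.1 hl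
      exact Finset.mem_filter.2 ⟨Finset.mem_univ _, D.act_fst_ne b hj1,
        Subtype.ext (D.act_snd_one b (by rw [hj2]; rfl))⟩
    have hheq : h = e * (e + 1) + 1 := by
      obtain ⟨k, hk⟩ := hdvd
      rw [hdχ', hf1, mul_one] at hx
      have h1 : h = e * k + 1 := by omega
      rw [h1] at hb hx
      have hk1 : e < k := by nlinarith
      have hk2 : k ≤ e + 1 := by nlinarith
      rw [h1, show k = e + 1 by omega]
    obtain ⟨hval, j, hj, hj2⟩ := D.unique_m0 he2 hheq ψ hi hm hmψ
    have hsum : ∑ φ, D.m0 ψ φ * deg φ = 1 := by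
      simp [hval, D.deg_oneK]
    have hj1 : j.1 ≠ D.oneP := by
      obtain ⟨b, rfl⟩ := hj; exact D.act_fst_ne b hi
    have hdeg : deg i.2 = 1 := by
      obtain ⟨b, rfl⟩ := hj
      have h1 := D.act_degree b i
      rw [hj2, deg_spec, deg_spec, D.deg_oneK] at h1
      exact_mod_cast h1.symm
    refine D.no_tight he2 hheq ψ (by rw [hd, hsum, hdeg, mul_one, add_comm]) hj1 hj2
      fun l hl => ?_
    rw [hm l hl]
    exact if_congr ⟨fun h => D.rel_trans (D.rel_symm hj) h, fun h => D.rel_trans hj h⟩ rfl rfl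

end TIData

end Cfsg.Agent.Chars2
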