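import Cfsg.Agent.Chars2.TISetup

/-!
The multiplicities of an irreducible character of small degree on the centralizer of a
trivial intersection Sylow group.
-/

set_option autoImplicit false
set_option linter.style.haveILetI false
set_option linter.unusedSectionVars false
set_option linter.unusedVariables false

namespace Cfsg.Agent.Chars2

open Cfsg Cfsg.Agent
open scoped ComplexConjugate

universe u

namespace TIData

variable {G : Type u} [Group G] [Fintype G] (D : TIData G)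

theorem exists_mult (ψ : IrrCharacter G) :
    ∃ m : D.Pair → ℕ, ∀ i, classInner (fun c : D.C => (ψ : G → ℂ) c) (D.mu i : D.C → ℂ) = m i := by
  choose m hm using fun i : D.Pair => Chars.exists_classInner_eq_nat
    (Chars.isCharacter_restrict (Chars.irr_isCharacter ψ) D.C) (Chars.irr_isCharacter (D.mu i))
  exact ⟨m, hm⟩

/-- The multiplicity of a label. -/
noncomputable def mult (ψ : IrrCharacter G) : D.Pair → ℕ := (D.exists_mult ψ).choose

theorem mult_spec (ψ : IrrCharacter G) (i : D.Pair) :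
    classInner (fun c : D.C => (ψ : G → ℂ) c) (D.mu i : D.C → ℂ) = D.mult ψ i :=
  (D.exists_mult ψ).choose_spec i

theorem mult_act (ψ : IrrCharacter G) (a : D.N) (i : D.Pair) :
    D.mult ψ (D.act a i) = D.mult ψ i := by
  apply Nat.cast_injective (R := ℂ)
  rw [← D.mult_spec, ← D.mult_spec, Chars.classInner_def, Chars.classInner_def]
  congr 1
  refine Fintype.sum_equiv (D.conjC a).toEquiv _ _ fun c => ?_
  rw [D.mu_act, MulEquiv.toEquiv_eq_coe, EquivLike.coe_coe, conjC_coe]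
  congr 1
  have h := Chars.isClassFunction_irr ψ (c : G) (a : G)⁻¹
  rw [inv_inv] at h
  exact h.symm

theorem mult_rel (ψ : IrrCharacter G) {i j : D.Pair} (h : D.Rel i j) :
    D.mult ψ j = D.mult ψ i := by
  obtain ⟨a, rfl⟩ := h
  exact D.mult_act ψ a i

theorem restrict_eq (ψ : IrrCharacter G) (c : D.C) :
    (ψ : G → ℂ) c = ∑ i : D.Pair, (D.mult ψ i : ℂ) * (D.mu i : D.C → ℂ) c := by
  refine (apply_eq_sum (Chars.isClassFunction_of_isCharacter
    (Chars.isCharacter_restrict (Chars.irr_isCharacter ψ) D.C)) c).trans ?_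
  rw [← D.label.sum_comp]
  exact Finset.sum_congr rfl fun i _ => by
    show classInner _ (D.mu i : D.C → ℂ) * (D.mu i : D.C → ℂ) c = _
    rw [D.mult_spec]

open Classical in
/-- The nontrivial linear characters of `P` occurring in a character. -/
noncomputable def supp (ψ : IrrCharacter G) : Finset (IrrCharacter D.P) :=
  ((Finset.univ : Finset D.Pair).filter fun i => i.1 ≠ D.oneP ∧ D.mult ψ i ≠ 0).image Prod.fst

theorem mem_supp {ψ : IrrCharacter G} {α : IrrCharacter D.P} :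
    α ∈ D.supp ψ ↔ α ≠ D.oneP ∧ ∃ φ, D.mult ψ (α, φ) ≠ 0 := by
  classical
  simp only [supp, Finset.mem_image, Finset.mem_filter, Finset.mem_univ, true_and]
  constructor
  · rintro ⟨⟨β, φ⟩, ⟨h1, h2⟩, rfl⟩; exact ⟨h1, φ, h2⟩
  · rintro ⟨h1, φ, h2⟩; exact ⟨(α, φ), ⟨h1, h2⟩, rfl⟩

theorem van_diff {i j : D.Pair} (h : i.2 = j.2) :
    D.Van ((D.mu i : D.C → ℂ) - (D.mu j : D.C → ℂ)) := by
  refine ⟨Chars.isClassFunction_sub (Chars.isClassFunction_irr _) (Chars.isClassFunction_irr _),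
    fun c hc => ?_⟩
  obtain ⟨x, rfl⟩ := D.e.surjective c
  rw [Pi.sub_apply, D.mu_e, D.mu_e, (D.mem_K_iff x).1 hc, D.irrP_one, D.irrP_one, h, sub_self]

theorem card_irrP : Fintype.card (IrrCharacter D.P) = Nat.card D.P := by
  have h := OddChar.sum_normSq_irr D.P
  simp only [D.irrP_one, map_one, Finset.sum_const, nsmul_eq_mul, mul_one, Finset.card_univ] at h
  exact_mod_cast h

theorem ind_diff_apply_one (i j : D.Pair) (h : i.2 = j.2) :
    indFun D.C ((D.mu i : D.C → ℂ) - (D.mu j : D.C → ℂ)) 1 = 0 := by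
  rw [Chars.indFun_apply_one, Pi.sub_apply, D.mu_one, D.mu_one, h, sub_self, mul_zero]

theorem inner_ind_diff (ψ : IrrCharacter G) (i j : D.Pair) :
    classInner (indFun D.C ((D.mu i : D.C → ℂ) - (D.mu j : D.C → ℂ))) (ψ : G → ℂ) =
      (D.mult ψ i : ℂ) - D.mult ψ j := by
  rw [Chars.classInner_indFun D.C _ (Chars.isClassFunction_irr ψ),
    Chars.classInner_sub_left, ← Chars.classInner_conj_symm _ (D.mu i : D.C → ℂ),
    ← Chars.classInner_conj_symm _ (D.mu j : D.C → ℂ), D.mult_spec, D.mult_spec, map_natCast,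
    map_natCast]

open Classical in
theorem norm_ind_diff {i j : D.Pair} (h : i.2 = j.2) (hi : i.1 ≠ D.oneP) (hj : j.1 ≠ D.oneP)
    (hij : ¬ D.Rel i j) :
    classInner (indFun D.C ((D.mu i : D.C → ℂ) - (D.mu j : D.C → ℂ)))
      (indFun D.C ((D.mu i : D.C → ℂ) - (D.mu j : D.C → ℂ))) = 2 := by
  rw [D.inner_diff i j i j (D.van_diff h) (D.van_diff h), D.card_act_eq hi, D.card_act_eq hj,
    D.card_act_eq hi, D.card_act_eq hj, if_pos (D.rel_refl i), if_pos (D.rel_refl j),
    if_neg (fun hr => hij (D.rel_symm hr)), if_neg hij]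
  have : (Nat.card D.C : ℂ) ≠ 0 := Chars.card_ne_zero
  push_cast
  field_simp
  ring

theorem ind_diff_isGen (i j : D.Pair) :
    IsGeneralizedCharacter G (indFun D.C ((D.mu i : D.C → ℂ) - (D.mu j : D.C → ℂ))) :=
  Chars.isGen_indFun _ (Chars.isGen_sub (Chars.isGen_of_isCharacter (Chars.irr_isCharacter _))
    (Chars.isGen_of_isCharacter (Chars.irr_isCharacter _)))

/-- A positive multiplicity against a zero one: the multiplicity is one. -/
theorem diff_shape (ψ : IrrCharacter G) {i j : D.Pair} (h : i.2 = j.2) (hi : i.1 ≠ D.oneP)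
    (hj : j.1 ≠ D.oneP) (hmj : D.mult ψ j < D.mult ψ i) :
    D.mult ψ i = D.mult ψ j + 1 ∧ ∃ X : IrrCharacter G, X ≠ ψ ∧
      indFun D.C ((D.mu i : D.C → ℂ) - (D.mu j : D.C → ℂ)) = (ψ : G → ℂ) - (X : G → ℂ) ∧
      (X : G → ℂ) 1 = (ψ : G → ℂ) 1 := by
  classical
  have hij : ¬ D.Rel i j := fun hr => by rw [D.mult_rel ψ hr] at hmj; omega
  have h0 := D.ind_diff_apply_one i j h
  obtain ⟨μ, ν, hμ, hν, hne, he⟩ := OddChar.virt_norm_two (D.ind_diff_isGen i j)
    (D.norm_ind_diff h hi hj hij) h0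
  have hi1 := D.inner_ind_diff ψ i j
  rw [he, Chars.classInner_sub_left, Chars.classInner_irr hμ ψ.2,
    Chars.classInner_irr hν ψ.2] at hi1
  have hμψ : μ = (ψ : G → ℂ) := by
    by_contra hμψ
    rw [if_neg hμψ] at hi1
    split_ifs at hi1 <;>
    · have hp : ((D.mult ψ j : ℤ) - D.mult ψ i) < 0 := by omega
      first
      | (have h2 : ((D.mult ψ i : ℤ) : ℂ) - ((D.mult ψ j : ℤ) : ℂ) = ((-1 : ℤ) : ℂ) := by
          push_cast; linear_combination -hi1
         have : (D.mult ψ i : ℤ) - D.mult ψ j = -1 := by exact_mod_cast h2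
         omega)
      | (have h2 : ((D.mult ψ i : ℤ) : ℂ) - ((D.mult ψ j : ℤ) : ℂ) = ((0 : ℤ) : ℂ) := by
          push_cast; linear_combination -hi1
         have : (D.mult ψ i : ℤ) - D.mult ψ j = 0 := by exact_mod_cast h2
         omega)
  rw [if_pos hμψ, if_neg (fun h' => hne (hμψ.trans h'.symm)), sub_zero] at hi1
  refine ⟨?_, ⟨ν, hν⟩, fun h' => hne (hμψ.trans (congrArg Subtype.val h').symm),
    by rw [he, hμψ], ?_⟩
  · have h2 : ((D.mult ψ i : ℕ) : ℂ) = ((D.mult ψ j + 1 : ℕ) : ℂ) := by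
      push_cast; linear_combination -hi1
    exact_mod_cast h2
  · rw [he, hμψ, Pi.sub_apply, sub_eq_zero] at h0
    exact h0.symm

open Classical in
/-- The multiplicities at the nontrivial labels are those of one orbit. -/
theorem mult_single_orbit (ψ : IrrCharacter G)
    (hsmall : (D.supp ψ).card + D.ee + 1 < Nat.card D.P) {i : D.Pair} (hi : i.1 ≠ D.oneP)
    (hmi : D.mult ψ i ≠ 0) :
    ∀ j : D.Pair, j.1 ≠ D.oneP → D.mult ψ j = if D.Rel i j then 1 else 0 := by
  have hfree : ∀ T : Finset (IrrCharacter D.P), T.card ≤ D.ee →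
      ∃ β, β ≠ D.oneP ∧ β ∉ D.supp ψ ∧ β ∉ T := by
    intro T hT
    obtain ⟨β, hβ⟩ : ∃ β, β ∉ insert D.oneP (D.supp ψ ∪ T) := by
      by_contra hall
      push Not at hall
      have h1 : Fintype.card (IrrCharacter D.P) ≤ (insert D.oneP (D.supp ψ ∪ T)).card := by
        rw [← Finset.card_univ]; exact Finset.card_le_card fun x _ => hall x
      rw [D.card_irrP] at h1
      have h2 := (Finset.card_insert_le D.oneP (D.supp ψ ∪ T)).trans
        (Nat.add_le_add_right (Finset.card_union_le _ _) 1)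
      omega
    simp only [Finset.mem_insert, Finset.mem_union, not_or] at hβ
    exact ⟨β, hβ.1, hβ.2.1, hβ.2.2⟩
  have hz : ∀ (β : IrrCharacter D.P) (φ : IrrCharacter D.K), β ≠ D.oneP → β ∉ D.supp ψ →
      D.mult ψ (β, φ) = 0 := fun β φ h1 h2 =>
    by_contra fun h3 => h2 (D.mem_supp.2 ⟨h1, φ, h3⟩)
  have hone : ∀ j : D.Pair, j.1 ≠ D.oneP → D.mult ψ j ≠ 0 → D.mult ψ j = 1 := by
    intro j hj hmj
    obtain ⟨β, h1, h2, -⟩ := hfree ∅ (by simp)
    have h0 := hz β j.2 h1 h2
    have := (D.diff_shape ψ (i := j) (j := (β, j.2)) rfl hj h1 (by omega)).1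
    omega
  have hconj : ∀ j : D.Pair, j.1 ≠ D.oneP → D.mult ψ j ≠ 0 → D.Rel i j := by
    intro j hj hmj
    by_contra hij
    obtain ⟨β, h1, h2, -⟩ := hfree ∅ (by simp)
    have hβi : (β, i.2).1 ≠ D.oneP := h1
    obtain ⟨γ, g1, g2, g3⟩ := hfree ((D.orb (β, i.2)).image Prod.fst)
      (Finset.card_image_le.trans (D.card_orb (i := (β, i.2)) hβi).le)
    have hb0 := hz β i.2 h1 h2
    have hg0 := hz γ j.2 g1 g2
    obtain ⟨-, X, hX', hX, -⟩ :=
      D.diff_shape ψ (i := i) (j := (β, i.2)) rfl hi h1 (by omega)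
    obtain ⟨-, Y, hY', hY, -⟩ :=
      D.diff_shape ψ (i := j) (j := (γ, j.2)) rfl hj g1 (by omega)
    have n1 : ¬ D.Rel j i := fun h => hij (D.rel_symm h)
    have n2 : ¬ D.Rel (γ, j.2) i := fun h => by
      have := D.mult_rel ψ h; omega
    have n3 : ¬ D.Rel j (β, i.2) := fun h => by
      have := D.mult_rel ψ h; omega
    have n4 : ¬ D.Rel (γ, j.2) (β, i.2) := fun h =>
      g3 (Finset.mem_image.2 ⟨(γ, j.2), D.mem_orb.2 (D.rel_symm h), rfl⟩)
    have hinner := D.inner_diff i (β, i.2) j (γ, j.2) (D.van_diff rfl) (D.van_diff rfl)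
    rw [hX, hY, D.card_act_eq hj, D.card_act_eq (i := (γ, j.2)) g1, D.card_act_eq hj,
      D.card_act_eq (i := (γ, j.2)) g1, if_neg n1, if_neg n2, if_neg n3, if_neg n4] at hinner
    simp only [Nat.cast_zero, sub_zero, add_zero, mul_zero, Chars.classInner_sub_left,
      Chars.classInner_sub_right, Chars.classInner_self_irr ψ.2,
      Chars.classInner_irrCharacter] at hinner
    rw [if_neg (Ne.symm hY'), if_neg hX'] at hinner
    split_ifs at hinner <;> norm_num at hinner
  intro j hj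
  split_ifs with h
  · rw [D.mult_rel ψ h]; exact hone i hi hmi
  · by_contra h0; exact h (hconj j hj h0)

/-- The multiplicity of a character of `K` from the trivial character of `P`. -/
noncomputable def m0 (ψ : IrrCharacter G) (φ : IrrCharacter D.K) : ℕ := D.mult ψ (D.oneP, φ)

open Classical in
/-- The number of nontrivial labels of an orbit above a character of `K`. -/
noncomputable def rr (i : D.Pair) (φ : IrrCharacter D.K) : ℕ :=
  ((D.orb i).filter fun j => j.2 = φ).card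

theorem sum_rr {i : D.Pair} (hi : i.1 ≠ D.oneP) : ∑ φ, D.rr i φ = D.ee := by
  classical
  rw [← D.card_orb hi]
  exact (Finset.card_eq_sum_card_fiberwise (t := Finset.univ) (f := Prod.snd)
    (fun j _ => Finset.mem_univ _)).symm

open Classical in
theorem marginal (ψ : IrrCharacter G) {i : D.Pair} (hi : i.1 ≠ D.oneP)
    (hm : ∀ j : D.Pair, j.1 ≠ D.oneP → D.mult ψ j = if D.Rel i j then 1 else 0)
    (φ : IrrCharacter D.K) :
    ∑ α, D.mult ψ (α, φ) = D.m0 ψ φ + D.rr i φ := by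
  rw [← Finset.add_sum_erase _ _ (Finset.mem_univ D.oneP)]
  congr 1
  rw [Finset.sum_congr rfl fun α hα => hm (α, φ) (Finset.ne_of_mem_erase hα), ← Finset.sum_filter,
    Finset.sum_const, smul_eq_mul, mul_one, rr]
  refine Finset.card_bij (fun α _ => (α, φ)) (fun α hα => ?_)
    (fun α _ β _ h => (Prod.ext_iff.1 h).1) fun j hj => ?_
  · exact Finset.mem_filter.2 ⟨D.mem_orb.2 (Finset.mem_filter.1 hα).2, rfl⟩
  · obtain ⟨hj1, hj2⟩ := Finset.mem_filter.1 hj
    subst hj2
    refine ⟨j.1, Finset.mem_filter.2 ⟨Finset.mem_erase.2 ⟨?_, Finset.mem_univ _⟩,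
      D.mem_orb.1 hj1⟩, rfl⟩
    obtain ⟨a, rfl⟩ := D.mem_orb.1 hj1
    exact D.act_fst_ne a hi

theorem apply_one_eq (ψ : IrrCharacter G) {i : D.Pair} (hi : i.1 ≠ D.oneP)
    (hm : ∀ j : D.Pair, [Decidable (D.Rel i j)] →
      j.1 ≠ D.oneP → D.mult ψ j = if D.Rel i j then 1 else 0) :
    (ψ : G → ℂ) 1 = (∑ φ, (D.m0 ψ φ : ℂ) * (φ : D.K → ℂ) 1) +
      (D.ee : ℂ) * (i.2 : D.K → ℂ) 1 := by
  classical
  have h := D.restrict_eq ψ 1
  rw [OneMemClass.coe_one] at h
  rw [h, Fintype.sum_prod_type, Finset.sum_comm]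
  simp only [D.mu_one, ← Finset.sum_mul, ← Nat.cast_sum, D.marginal ψ hi (fun j hj => hm j hj),
    Nat.cast_add, add_mul, Finset.sum_add_distrib]
  congr 1
  rw [← D.sum_rr hi, Nat.cast_sum, Finset.sum_mul]
  refine Finset.sum_congr rfl fun φ _ => ?_
  rcases Nat.eq_zero_or_pos (D.rr i φ) with h0 | h0
  · rw [h0, Nat.cast_zero, zero_mul, zero_mul]
  · obtain ⟨j, hj⟩ := Finset.card_pos.1 h0
    obtain ⟨hj1, rfl⟩ := Finset.mem_filter.1 hj
    obtain ⟨a, rfl⟩ := D.mem_orb.1 hj1
    rw [D.act_degree]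

open Classical in
/-- The basic inequality. -/
theorem norm_bound (ψ : IrrCharacter G) {i : D.Pair} (hi : i.1 ≠ D.oneP)
    (hm : ∀ j : D.Pair, j.1 ≠ D.oneP → D.mult ψ j = if D.Rel i j then 1 else 0) :
    Nat.card D.P * ∑ φ, D.m0 ψ φ ^ 2 < ∑ φ, (D.m0 ψ φ + D.rr i φ) ^ 2 := by
  have hCs : ∑ c : D.C, Complex.normSq ((ψ : G → ℂ) c) =
      (Nat.card D.C : ℝ) * ((∑ φ, D.m0 ψ φ ^ 2 + D.ee : ℕ) : ℝ) := by
    refine sum_normSq_of_classInner (f := fun c : D.C => (ψ : G → ℂ) c) ?_
    rw [Chars.classInner_eq_sum (Chars.isClassFunction_of_isCharacter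
      (Chars.isCharacter_restrict (Chars.irr_isCharacter ψ) D.C)), ← D.label.sum_comp]
    have e : ∀ j : D.Pair, classInner (fun c : D.C => (ψ : G → ℂ) c) (D.label j : D.C → ℂ) *
        classInner (D.label j : D.C → ℂ) (fun c : D.C => (ψ : G → ℂ) c) =
        ((D.mult ψ j * D.mult ψ j : ℕ) : ℂ) := fun j => by
      rw [← Chars.classInner_conj_symm (fun c : D.C => (ψ : G → ℂ) c) (D.label j : D.C → ℂ),
        show (D.label j : D.C → ℂ) = (D.mu j : D.C → ℂ) from rfl, D.mult_spec, map_natCast,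
        Nat.cast_mul]
    rw [Finset.sum_congr rfl fun j _ => e j, ← Nat.cast_sum, Complex.ofReal_natCast]
    congr 1
    rw [Fintype.sum_prod_type, ← Finset.add_sum_erase _ _ (Finset.mem_univ D.oneP)]
    congr 1
    · exact Finset.sum_congr rfl fun φ _ => (sq _).symm
    · rw [← D.sum_rr hi]
      rw [Finset.sum_comm]
      refine Finset.sum_congr rfl fun φ _ => ?_
      have h2 := D.marginal ψ hi hm φ
      rw [← Finset.add_sum_erase _ _ (Finset.mem_univ D.oneP), show D.mult ψ (D.oneP, φ) =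
        D.m0 ψ φ from rfl, Nat.add_left_cancel_iff] at h2
      rw [← h2]
      refine Finset.sum_congr rfl fun α hα => ?_
      rw [hm (α, φ) (Finset.ne_of_mem_erase hα)]
      split_ifs <;> rfl
  have hKs : ∑ c ∈ Finset.univ.filter (fun c : D.C => c ^ D.k = 1),
      Complex.normSq ((ψ : G → ℂ) c) =
      (Nat.card D.K : ℝ) * ((∑ φ, (D.m0 ψ φ + D.rr i φ) ^ 2 : ℕ) : ℝ) := by
    have e : ∑ c ∈ Finset.univ.filter (fun c : D.C => c ^ D.k = 1),
        Complex.normSq ((ψ : G → ℂ) c) =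
        ∑ v : D.K, Complex.normSq ((ψ : G → ℂ) (D.e (1, v))) := by
      refine Finset.sum_bij' (fun c _ => (D.e.symm c).2) (fun v _ => D.e (1, v))
        (fun _ _ => Finset.mem_univ _) (fun v _ => Finset.mem_filter.2
          ⟨Finset.mem_univ _, (D.mem_K_iff _).2 rfl⟩) (fun c hc => ?_) (fun v _ => by simp)
        (fun c hc => ?_)
      all_goals
        have h1 : (D.e.symm c).1 = 1 := (D.mem_K_iff _).1 (by
          rw [D.e.apply_symm_apply]; exact (Finset.mem_filter.1 hc).2)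
        have h2 : D.e (1, (D.e.symm c).2) = c := by
          conv_rhs => rw [← D.e.apply_symm_apply c]
          rw [← h1]
      · exact h2
      · rw [h2]
    rw [e]
    refine sum_normSq_of_classInner (f := fun v : D.K => (ψ : G → ℂ) (D.e (1, v))) ?_
    have hf : (fun v : D.K => (ψ : G → ℂ) (D.e (1, v))) =
        ∑ φ : IrrCharacter D.K, ((D.m0 ψ φ + D.rr i φ : ℕ) : ℂ) • (φ : D.K → ℂ) := by
      funext v
      rw [D.restrict_eq, Fintype.sum_prod_type, Finset.sum_comm, Finset.sum_apply]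
      refine Finset.sum_congr rfl fun φ _ => ?_
      simp only [D.mu_e, D.irrP_one, one_mul, Pi.smul_apply, smul_eq_mul]
      rw [← Finset.sum_mul, ← Nat.cast_sum, D.marginal ψ hi hm]
    rw [hf, Chars.classInner_sum_left]
    simp only [Chars.classInner_sum_right, Chars.classInner_smul_left, Chars.classInner_smul_right,
      Chars.classInner_irrCharacter, map_natCast, mul_ite, mul_one, mul_zero,
      Finset.sum_ite_eq, Finset.mem_univ, if_true]
    push_cast
    exact Finset.sum_congr rfl fun φ _ => (sq _).symm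
  set T := Finset.univ.filter fun c : D.C => c ^ D.k ≠ 1 with hT
  have hTb : (Nat.card G : ℝ) * ∑ c ∈ T, Complex.normSq ((ψ : G → ℂ) c) <
      (Nat.card D.N : ℝ) * Nat.card G := by
    have hconj : ∀ a : G, ∑ c ∈ T, Complex.normSq ((ψ : G → ℂ) c) =
        ∑ y : G, if ∃ c ∈ T, a * (c : G) * a⁻¹ = y then Complex.normSq ((ψ : G → ℂ) y) else 0 := by
      intro a
      rw [← Finset.sum_filter]
      refine Finset.sum_bij (fun c _ => a * (c : G) * a⁻¹)
        (fun c hc => Finset.mem_filter.2 ⟨Finset.mem_univ _, c, hc, rfl⟩)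
        (fun c _ c' _ e => Subtype.ext (by simpa using e))
        (fun y hy => by
          obtain ⟨c, hc, e⟩ := (Finset.mem_filter.1 hy).2
          exact ⟨c, hc, e⟩)
        fun c _ => ?_
      rw [Chars.isClassFunction_irr ψ]
    have hle : (Nat.card G : ℝ) * ∑ c ∈ T, Complex.normSq ((ψ : G → ℂ) c) ≤
        ∑ y ∈ Finset.univ.erase (1 : G),
          (Nat.card D.N : ℝ) * Complex.normSq ((ψ : G → ℂ) y) := by
      calc (Nat.card G : ℝ) * ∑ c ∈ T, Complex.normSq ((ψ : G → ℂ) c)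
          = ∑ a : G, ∑ y : G,
              if ∃ c ∈ T, a * (c : G) * a⁻¹ = y then Complex.normSq ((ψ : G → ℂ) y) else 0 := by
            rw [Finset.sum_congr rfl fun a _ => (hconj a).symm, Finset.sum_const, Finset.card_univ,
              nsmul_eq_mul, ← Nat.card_eq_fintype_card]
        _ = ∑ y : G, ((Finset.univ.filter fun a : G => ∃ c ∈ T, a * (c : G) * a⁻¹ = y).card : ℝ) *
              Complex.normSq ((ψ : G → ℂ) y) := by
            rw [Finset.sum_comm]
            refine Finset.sum_congr rfl fun y _ => ?_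
            rw [← Finset.sum_filter, Finset.sum_const, nsmul_eq_mul]
        _ ≤ _ := by
            rw [← Finset.add_sum_erase _ _ (Finset.mem_univ (1 : G))]
            have h1 : (Finset.univ.filter fun a : G => ∃ c ∈ T, a * (c : G) * a⁻¹ = 1) = ∅ := by
              refine Finset.filter_eq_empty_iff.2 fun a _ ⟨c, hc, e⟩ => ?_
              refine (Finset.mem_filter.1 hc).2 ?_
              rw [mul_inv_eq_one, mul_eq_left] at e
              rw [show c = 1 from Subtype.ext e, one_pow]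
            rw [h1, Finset.card_empty, Nat.cast_zero, zero_mul, zero_add]
            refine Finset.sum_le_sum fun y _ => mul_le_mul_of_nonneg_right (Nat.cast_le.2 ?_)
              (Complex.normSq_nonneg _)
            set A := Finset.univ.filter fun a : G => ∃ c ∈ T, a * (c : G) * a⁻¹ = y with hA
            rcases A.eq_empty_or_nonempty with h0 | ⟨b, hb⟩
            · rw [h0, Finset.card_empty]; exact Nat.zero_le _
            have hmem : ∀ a ∈ A, b⁻¹ * a ∈ D.N := by
              intro a ha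
              obtain ⟨c, hc, e1⟩ := (Finset.mem_filter.1 ha).2
              obtain ⟨d, hd, e2⟩ := (Finset.mem_filter.1 hb).2
              refine D.hTI (b⁻¹ * a) c ?_ (Finset.mem_filter.1 hc).2
              have : b⁻¹ * a * (c : G) * (b⁻¹ * a)⁻¹ = (d : G) := by
                rw [mul_inv_rev, inv_inv]
                calc b⁻¹ * a * (c : G) * (a⁻¹ * b) = b⁻¹ * (a * (c : G) * a⁻¹) * b := by group
                  _ = b⁻¹ * (b * (d : G) * b⁻¹) * b := by rw [e1, e2]
                  _ = _ := by group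
              rw [this]
              exact d.2
            rw [Nat.card_eq_fintype_card, ← Finset.card_univ]
            refine Finset.card_le_card_of_injOn
              (fun a => if ha : b⁻¹ * a ∈ D.N then (⟨b⁻¹ * a, ha⟩ : D.N) else 1)
              (fun a _ => Finset.mem_coe.2 (Finset.mem_univ _)) fun a ha a' ha' e => ?_
            rw [Finset.mem_coe] at ha ha'
            simp only [dif_pos (hmem a ha), dif_pos (hmem a' ha')] at e
            exact mul_left_cancel (congrArg (Subtype.val : D.N → G) e)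
    refine lt_of_le_of_lt hle ?_
    rw [← Finset.mul_sum]
    refine mul_lt_mul_of_pos_left ?_ (by exact_mod_cast Nat.card_pos)
    have hG := sum_normSq_of_classInner (f := (ψ : G → ℂ)) (r := 1)
      (by rw [Chars.classInner_self_irr ψ.2, Complex.ofReal_one])
    rw [mul_one, ← Finset.add_sum_erase _ _ (Finset.mem_univ (1 : G))] at hG
    have h1 : 0 < Complex.normSq ((ψ : G → ℂ) 1) :=
      Complex.normSq_pos.2 (Chars.irr_apply_one_ne_zero ψ.2)
    linarith
  have hGpos : (0 : ℝ) < Nat.card G := by exact_mod_cast Nat.card_pos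
  rw [mul_comm (Nat.card D.N : ℝ)] at hTb
  have hTlt := lt_of_mul_lt_mul_left hTb hGpos.le
  have hsplit := Finset.sum_filter_not_add_sum_filter (s := Finset.univ)
    (p := fun c : D.C => c ^ D.k = 1) (f := fun c : D.C => Complex.normSq ((ψ : G → ℂ) c))
  rw [← hT, hKs, hCs] at hsplit
  rw [D.card_N] at hTlt
  have hC : Nat.card D.C = Nat.card D.P * Nat.card D.K := by
    rw [← Nat.card_congr D.e.toEquiv, Nat.card_prod]
  rw [hC] at hTlt hsplit
  have hKpos : (0 : ℝ) < Nat.card D.K := by exact_mod_cast Nat.card_pos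
  have hfin : (Nat.card D.P : ℝ) * ((∑ φ, D.m0 ψ φ ^ 2 : ℕ) : ℝ) <
      ((∑ φ, (D.m0 ψ φ + D.rr i φ) ^ 2 : ℕ) : ℝ) := by
    push_cast at hTlt hsplit ⊢
    nlinarith
  exact_mod_cast hfin

theorem bound_m0 (ψ : IrrCharacter G) {i : D.Pair} (hi : i.1 ≠ D.oneP)
    (hm : ∀ j : D.Pair, [Decidable (D.Rel i j)] →
      j.1 ≠ D.oneP → D.mult ψ j = if D.Rel i j then 1 else 0) :
    (Nat.card D.P : ℤ) * ∑ φ, (D.m0 ψ φ : ℤ) ^ 2 <
      (1 + D.ee) * ∑ φ, (D.m0 ψ φ : ℤ) ^ 2 + (1 + D.ee) * D.ee := by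
  classical
  have h := D.norm_bound ψ hi (fun j hj => hm j hj)
  have h' : (Nat.card D.P : ℤ) * ∑ φ, (D.m0 ψ φ : ℤ) ^ 2 <
      ∑ φ, ((D.m0 ψ φ : ℤ) + (D.rr i φ : ℤ)) ^ 2 := by exact_mod_cast h
  have hr2 : ∑ φ, (D.rr i φ : ℤ) ^ 2 ≤ (D.ee : ℤ) ^ 2 := by
    have := Finset.sum_sq_le_sq_sum_of_nonneg (s := Finset.univ)
      (f := fun φ => (D.rr i φ : ℤ)) (fun φ _ => Int.natCast_nonneg _)
    rwa [← Nat.cast_sum, D.sum_rr hi] at this
  have hamgm : (D.ee : ℤ) * ∑ φ, ((D.m0 ψ φ : ℤ) + (D.rr i φ : ℤ)) ^ 2 ≤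
      (D.ee : ℤ) * (1 + D.ee) * ∑ φ, (D.m0 ψ φ : ℤ) ^ 2 +
        (1 + D.ee) * ∑ φ, (D.rr i φ : ℤ) ^ 2 := by
    simp only [Finset.mul_sum, ← Finset.sum_add_distrib]
    exact Finset.sum_le_sum fun φ _ => by
      nlinarith [sq_nonneg ((D.ee : ℤ) * D.m0 ψ φ - D.rr i φ)]
  have he : (0 : ℤ) < D.ee := by exact_mod_cast D.ee_pos
  have h2 := mul_lt_mul_of_pos_left h' he
  have h3 := mul_le_mul_of_nonneg_left hr2 (by positivity : (0 : ℤ) ≤ 1 + D.ee)
  nlinarith

end TIData

end Cfsg.Agent.Chars2
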