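import Cfsg.Agent.Chars2.TISylow

/-!
A faithful character of small degree makes such a Sylow group normal.
-/

set_option autoImplicit false
set_option linter.style.haveILetI false
set_option linter.unusedVariables false

namespace Cfsg.Agent.Chars2

open Cfsg Cfsg.Agent

universe u

theorem ti_normal_aux {p : ℕ} [Fact p.Prime] (m : ℕ) :
    ∀ (G : Type u) [Group G] [Fintype G] (P : Sylow p G), UniformCentralizers P → Nat.card G ≤ m →
      ∀ χ : G → ℂ, IsCharacter G χ → (∀ g, χ g = χ 1 → g = 1) →
        charDegree χ ^ 2 + 1 < Nat.card P → (P : Subgroup G).Normal := by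
  induction m with
  | zero => intro G _ _ P _ hc; exact absurd hc (by have := Nat.card_pos (α := G); omega)
  | succ m ih =>
  intro G _ _ P hstar hcard χ hχ hfaith hdeg
  classical
  by_cases hK : ∃ K : Subgroup G, K.Normal ∧ K ≠ ⊤ ∧ (P : Subgroup G) ≤ K
  · obtain ⟨K, hKn, hKt, hPK⟩ := hK
    have : Fintype K := Fintype.ofFinite K
    have hlt : Nat.card K < Nat.card G :=
      lt_of_le_of_ne (Subgroup.card_le_card_group K) fun h => hKt (Subgroup.eq_top_of_card_eq K h)
    have hmem : ∀ x : K, x ∈ ((P.subtype hPK : Sylow p K) : Subgroup K) ↔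
        (x : G) ∈ (P : Subgroup G) := fun x => by
      rw [Sylow.coe_subtype, Subgroup.mem_subgroupOf]
    have hstar' : UniformCentralizers (P.subtype hPK : Sylow p K) := by
      intro x hx hx1
      have h := hstar x ((hmem x).1 hx) (fun h => hx1 (Subtype.ext h))
      ext y
      rw [Subgroup.mem_centralizer_singleton_iff, Subgroup.mem_centralizer_iff]
      have h' : (y : G) * x = x * y ↔ ∀ v ∈ ((P : Subgroup G) : Set G), v * (y : G) = y * v := by
        rw [← Subgroup.mem_centralizer_singleton_iff, h, Subgroup.mem_centralizer_iff]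
      constructor
      · intro hy v hv
        exact Subtype.ext (h'.1 (congrArg Subtype.val hy) v ((hmem v).1 hv))
      · intro hy
        exact Subtype.ext (h'.2 fun v hv =>
          congrArg Subtype.val (hy ⟨v, hPK hv⟩ ((hmem ⟨v, hPK hv⟩).2 hv)))
    have hcardP : Nat.card (P.subtype hPK : Sylow p K) = Nat.card P :=
      Nat.card_congr (Subgroup.subgroupOfEquivOfLe hPK).toEquiv
    have hχK := Chars.isCharacter_restrict hχ K
    have hdK : charDegree (fun x : K => χ x) = charDegree χ := Nat.cast_injective (R := ℂ) (by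
      rw [BlockChar.charDegree_cast hχK, BlockChar.charDegree_cast hχ, OneMemClass.coe_one])
    have hn := ih K (P.subtype hPK) hstar' (by omega) (fun x : K => χ x) hχK
      (fun x hx => Subtype.ext (hfaith _ (by simpa using hx)))
      (by rw [hdK, hcardP]; exact hdeg)
    have := Sylow.characteristic_of_normal (P.subtype hPK : Sylow p K) hn
    have h2 : (((P.subtype hPK : Sylow p K) : Subgroup K).map K.subtype).Normal := inferInstance
    rwa [Sylow.coe_subtype, Subgroup.subgroupOf_map_subtype, inf_eq_left.2 hPK] at h2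
  · obtain ⟨c, hc⟩ := exists_multiplicities hχ
    have hcl := Chars.isClassFunction_of_isCharacter hχ
    have hval : ∀ g, χ g = ∑ ψ : IrrCharacter G, (c ψ : ℂ) * (ψ : G → ℂ) g := fun g => by
      rw [apply_eq_sum hcl g]; simp only [hc]
    have hdle : ∀ ψ : IrrCharacter G, c ψ ≠ 0 → charDegree (ψ : G → ℂ) ≤ charDegree χ := by
      intro ψ hψ
      have h1 : (charDegree χ : ℂ) = ((∑ φ : IrrCharacter G, c φ * charDegree (φ : G → ℂ) : ℕ) : ℂ) := by
        rw [BlockChar.charDegree_cast hχ, hval]
        push_cast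
        simp only [BlockChar.charDegree_cast (Chars.irr_isCharacter _)]
      rw [Nat.cast_inj] at h1
      rw [h1]
      refine le_trans ?_ (Finset.single_le_sum (f := fun φ : IrrCharacter G =>
        c φ * charDegree (φ : G → ℂ)) (fun _ _ => Nat.zero_le _) (Finset.mem_univ ψ))
      exact Nat.le_mul_of_pos_left _ (Nat.pos_of_ne_zero hψ)
    have hlin : ∀ ψ : IrrCharacter G, c ψ ≠ 0 → (ψ : G → ℂ) 1 = 1 := by
      intro ψ hψ
      rcases eq_or_ne ψ TIData.oneG with rfl | hne
      · rfl
      rw [← BlockChar.charDegree_cast (Chars.irr_isCharacter ψ), ((small_alternative hstar ψ hne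
        (lt_of_le_of_lt (Nat.add_le_add_right (Nat.pow_le_pow_left (hdle ψ hψ) 2) 1)
          hdeg)).resolve_left hK).2, Nat.cast_one]
    have hab : ∀ a b : G, a * b = b * a := by
      intro a b
      have h1 : a * b * a⁻¹ * b⁻¹ = 1 := hfaith _ (by
        rw [hval, hval]
        refine Finset.sum_congr rfl fun ψ _ => ?_
        rcases eq_or_ne (c ψ) 0 with h0 | h0
        · rw [h0, Nat.cast_zero, zero_mul, zero_mul]
        obtain ⟨φ, hφ⟩ := Chars.exists_hom_of_degree_one (Chars.irr_isCharacter ψ) (hlin ψ h0)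
        simp only [hφ]
        simp [mul_comm, mul_left_comm])
      calc a * b = a * b * a⁻¹ * b⁻¹ * (b * a) := by group
        _ = _ := by rw [h1, one_mul]
    exact ⟨fun u hu g => by rwa [hab g u, mul_inv_cancel_right]⟩

theorem ti_normal {G : Type u} [Group G] [Fintype G] {p : ℕ} [Fact p.Prime] (P : Sylow p G)
    (hstar : UniformCentralizers P) {χ : G → ℂ} (hχ : IsCharacter G χ)
    (hfaith : ∀ g, χ g = χ 1 → g = 1) (hdeg : charDegree χ ^ 2 + 1 < Nat.card P) :
    (P : Subgroup G).Normal :=
  ti_normal_aux (Nat.card G) G P hstar le_rfl χ hχ hfaith hdeg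

end Cfsg.Agent.Chars2
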