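import Cfsg.Agent.Chars2.SmallDegree
import Cfsg.Agent.OddChar.ProdChar
import Cfsg.Agent.OddChar.Virtual
import Cfsg.Agent.Chars.Transport
import Cfsg.Agent.Chars.Gen

/-!
An abelian Sylow group whose nontrivial elements all have its centralizer: the pairs labelling the
characters of the centralizer, and the induced isometry.
-/

set_option autoImplicit false
set_option linter.style.haveILetI false
set_option linter.unusedSectionVars false

namespace Cfsg.Agent.Chars2

open Cfsg Cfsg.Agent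
open scoped ComplexConjugate

universe u

/-- A subgroup `P` with centralizer `P × K` and the trivial intersection property. -/
structure TIData (G : Type u) [Group G] where
  P : Subgroup G
  C : Subgroup G
  N : Subgroup G
  K : Subgroup C
  k : ℕ
  e : P × K ≃* C
  he : ∀ x : P × K, (e x : G) = (x.1 : G) * ((x.2 : C) : G)
  hk : ∀ x : P × K, (e x) ^ k = e (x.1, 1)
  hconj : ∀ a ∈ N, ∀ c ∈ C, a⁻¹ * c * a ∈ C
  hPN : ∀ a ∈ N, ∀ u ∈ P, a⁻¹ * u * a ∈ P
  hCN : C ≤ N
  hab : ∀ u ∈ P, ∀ v ∈ P, u * v = v * u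
  hfix : ∀ a ∈ N, ∀ u ∈ P, u ≠ 1 → a * u = u * a → a ∈ C
  hTI : ∀ (b : G) (c : C), b * (c : G) * b⁻¹ ∈ C → c ^ k ≠ 1 → b ∈ N

namespace TIData

variable {G : Type u} [Group G] [Fintype G] (D : TIData G)

noncomputable instance instFintypeP : Fintype D.P := Fintype.ofFinite _
noncomputable instance instFintypeC : Fintype D.C := Fintype.ofFinite _
noncomputable instance instFintypeN : Fintype D.N := Fintype.ofFinite _
noncomputable instance instFintypeK : Fintype D.K := Fintype.ofFinite _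

/-- The labels of the irreducible characters of the centralizer. -/
abbrev Pair : Type u := IrrCharacter D.P × IrrCharacter D.K

/-- The character with a given label. -/
noncomputable def mu (i : D.Pair) : IrrCharacter D.C :=
  ⟨fun c => OddChar.outer (i.1 : D.P → ℂ) (i.2 : D.K → ℂ) (D.e.symm c),
    Chars.isIrrCharacter_comp_equiv (OddChar.isIrr_outer i.1.2 i.2.2) D.e.symm⟩

theorem mu_e (i : D.Pair) (x : D.P × D.K) :
    (D.mu i : D.C → ℂ) (D.e x) = (i.1 : D.P → ℂ) x.1 * (i.2 : D.K → ℂ) x.2 := by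
  show OddChar.outer _ _ (D.e.symm (D.e x)) = _
  rw [D.e.symm_apply_apply]
  rfl

theorem irrP_one (α : IrrCharacter D.P) : (α : D.P → ℂ) 1 = 1 :=
  Chars.irr_apply_one_of_comm (fun a b => Subtype.ext (D.hab _ a.2 _ b.2)) α.2

theorem classInner_mu_eq (i j : D.Pair) [Decidable (i = j)] :
    classInner (D.mu i : D.C → ℂ) (D.mu j : D.C → ℂ) = if i = j then 1 else 0 := by
  classical
  have h := Chars.classInner_comp_equiv D.e.symm (OddChar.outer (i.1 : D.P → ℂ) (i.2 : D.K → ℂ))
    (OddChar.outer (j.1 : D.P → ℂ) (j.2 : D.K → ℂ))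
  refine h.trans ?_
  rw [OddChar.classInner_outer, Chars.classInner_irrCharacter, Chars.classInner_irrCharacter]
  split_ifs with h1 h2 h3 h4 h5 <;> simp_all [Prod.ext_iff]

theorem mu_bijective : Function.Bijective D.mu := by
  classical
  constructor
  · intro i j h
    by_contra hne
    have h1 := D.classInner_mu_eq i j
    rw [if_neg hne, h, Chars.classInner_self_irr (D.mu j).2] at h1
    exact one_ne_zero h1
  · intro ψ
    obtain ⟨α, β, h⟩ := OddChar.exists_outer (Chars.isIrrCharacter_comp_equiv ψ.2 D.e)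
    refine ⟨(α, β), Subtype.ext (funext fun c => ?_)⟩
    have := congrFun h (D.e.symm c)
    simp only [Function.comp_apply, D.e.apply_symm_apply] at this
    exact this.symm

/-- The label of a character. -/
noncomputable def label : D.Pair ≃ IrrCharacter D.C := Equiv.ofBijective D.mu D.mu_bijective

/-- Conjugation by an element of the normalizer, on the centralizer. -/
def conjC (a : D.N) : D.C ≃* D.C where
  toFun c := ⟨(a : G)⁻¹ * c * a, D.hconj _ a.2 _ c.2⟩
  invFun c := ⟨(a : G) * c * (a : G)⁻¹, by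
    simpa using D.hconj _ (D.N.inv_mem a.2) _ c.2⟩
  left_inv c := Subtype.ext (by simp [mul_assoc])
  right_inv c := Subtype.ext (by simp [mul_assoc])
  map_mul' c d := Subtype.ext (by simp [mul_assoc])

theorem conjC_coe (a : D.N) (c : D.C) : ((D.conjC a c : D.C) : G) = (a : G)⁻¹ * c * a := rfl

theorem conjC_conjC (a b : D.N) (c : D.C) : D.conjC a (D.conjC b c) = D.conjC (b * a) c :=
  Subtype.ext (by simp [conjC_coe, mul_assoc])

theorem conjC_one (c : D.C) : D.conjC 1 c = c := Subtype.ext (by simp [conjC_coe])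

/-- The action on labels. -/
noncomputable def act (a : D.N) (i : D.Pair) : D.Pair :=
  D.label.symm ⟨fun c => (D.mu i : D.C → ℂ) (D.conjC a c),
    Chars.isIrrCharacter_comp_equiv (D.mu i).2 (D.conjC a)⟩

theorem mu_act (a : D.N) (i : D.Pair) (c : D.C) :
    (D.mu (D.act a i) : D.C → ℂ) c = (D.mu i : D.C → ℂ) (D.conjC a c) := by
  have h : D.mu (D.act a i) = _ := D.label.apply_symm_apply _
  rw [h]

theorem act_eq_of (a : D.N) (i j : D.Pair)
    (h : ∀ c, (D.mu i : D.C → ℂ) (D.conjC a c) = (D.mu j : D.C → ℂ) c) : D.act a i = j :=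
  D.mu_bijective.1 (Subtype.ext (funext fun c => (D.mu_act a i c).trans (h c)))

theorem act_one (i : D.Pair) : D.act 1 i = i :=
  D.act_eq_of 1 i i fun c => by rw [D.conjC_one]

theorem act_act (a b : D.N) (i : D.Pair) : D.act a (D.act b i) = D.act (a * b) i := by
  refine D.act_eq_of a _ _ fun c => ?_
  rw [D.mu_act, D.mu_act, D.conjC_conjC]

/-- The element of `P` inside the centralizer. -/
def inP (u : D.P) : D.C := D.e (u, 1)

theorem inP_coe (u : D.P) : ((D.inP u : D.C) : G) = u := by simp [inP, D.he]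

theorem mu_inP (i : D.Pair) (u : D.P) :
    (D.mu i : D.C → ℂ) (D.inP u) = (i.1 : D.P → ℂ) u * (i.2 : D.K → ℂ) 1 := D.mu_e i (u, 1)

theorem mu_one (i : D.Pair) : (D.mu i : D.C → ℂ) 1 = (i.2 : D.K → ℂ) 1 := by
  rw [← map_one D.e, D.mu_e, Prod.fst_one, Prod.snd_one, D.irrP_one, one_mul]

theorem act_degree (a : D.N) (i : D.Pair) :
    ((D.act a i).2 : D.K → ℂ) 1 = (i.2 : D.K → ℂ) 1 := by
  rw [← D.mu_one, D.mu_act, map_one, D.mu_one]

/-- Conjugation on `P`. -/
def conjP (a : D.N) (u : D.P) : D.P := ⟨(a : G)⁻¹ * u * a, D.hPN _ a.2 _ u.2⟩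

theorem act_fst (a : D.N) (i : D.Pair) (u : D.P) :
    ((D.act a i).1 : D.P → ℂ) u = (i.1 : D.P → ℂ) (D.conjP a u) := by
  have h := D.mu_act a i (D.inP u)
  have e : D.conjC a (D.inP u) = D.inP (D.conjP a u) :=
    Subtype.ext (by simp [conjC_coe, inP_coe, conjP])
  rw [e, D.mu_inP, D.mu_inP, D.act_degree] at h
  exact mul_right_cancel₀ (Chars.irr_apply_one_ne_zero i.2.2) h

theorem mem_K_iff (x : D.P × D.K) : (D.e x) ^ D.k = 1 ↔ x.1 = 1 := by
  rw [D.hk, MulEquiv.map_eq_one_iff, Prod.mk_eq_one]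
  exact and_iff_left rfl

theorem act_snd_one (a : D.N) {i : D.Pair}
    (h : (i.2 : D.K → ℂ) = fun _ => 1) : ((D.act a i).2 : D.K → ℂ) = fun _ => 1 := by
  funext v
  have h1 := D.mu_act a i (D.e (1, v))
  rw [D.mu_e, D.irrP_one, one_mul] at h1
  obtain ⟨x, hx⟩ := D.e.surjective (D.conjC a (D.e (1, v)))
  have hx1 : x.1 = 1 := by
    refine (D.mem_K_iff x).1 ?_
    rw [hx, ← map_pow, D.hk, ← Prod.one_eq_mk, map_one, map_one]
  rw [h1, ← hx, D.mu_e, hx1, D.irrP_one, one_mul, h]

/-- Labels in one orbit of the normalizer. -/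
def Rel (i j : D.Pair) : Prop := ∃ a : D.N, D.act a i = j

theorem rel_refl (i : D.Pair) : D.Rel i i := ⟨1, D.act_one i⟩

theorem rel_symm {i j : D.Pair} (h : D.Rel i j) : D.Rel j i := by
  obtain ⟨a, rfl⟩ := h
  exact ⟨a⁻¹, by rw [D.act_act, inv_mul_cancel, D.act_one]⟩

theorem rel_trans {i j l : D.Pair} (h : D.Rel i j) (h' : D.Rel j l) : D.Rel i l := by
  obtain ⟨a, rfl⟩ := h
  obtain ⟨b, rfl⟩ := h'
  exact ⟨b * a, (D.act_act b a i).symm⟩

open Classical in
/-- The orbit. -/
noncomputable def orb (i : D.Pair) : Finset D.Pair := Finset.univ.image fun a : D.N => D.act a i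

theorem mem_orb {i j : D.Pair} : j ∈ D.orb i ↔ D.Rel i j := by simp [orb, Rel]

theorem orb_eq_of_rel {i j : D.Pair} (h : D.Rel i j) : D.orb i = D.orb j := by
  ext l
  rw [D.mem_orb, D.mem_orb]
  exact ⟨fun hl => D.rel_trans (D.rel_symm h) hl, fun hl => D.rel_trans h hl⟩

/-- The trivial character of `P`. -/
noncomputable def oneP : IrrCharacter D.P := ⟨fun _ => 1, Chars.isIrrCharacter_one⟩

/-- The trivial character of `K`. -/
noncomputable def oneK : IrrCharacter D.K := ⟨fun _ => 1, Chars.isIrrCharacter_one⟩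

theorem mu_oneP (c : D.C) : (D.mu (D.oneP, D.oneK) : D.C → ℂ) c = 1 := by
  obtain ⟨x, rfl⟩ := D.e.surjective c
  rw [D.mu_e]
  exact one_mul _

theorem act_one_pair (a : D.N) : D.act a (D.oneP, D.oneK) = (D.oneP, D.oneK) :=
  D.act_eq_of a _ _ fun c => by rw [D.mu_oneP, D.mu_oneP]

theorem act_fst_ne (a : D.N) {i : D.Pair} (h : i.1 ≠ D.oneP) : (D.act a i).1 ≠ D.oneP := by
  intro he
  refine h (Subtype.ext (funext fun u => ?_))
  have h1 := D.act_fst a i (D.conjP a⁻¹ u)
  rw [he, show D.conjP a (D.conjP a⁻¹ u) = u from Subtype.ext (by simp [conjP, mul_assoc])] at h1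
  exact h1.symm

/-- Only the centralizer fixes a nontrivial linear character of `P`. -/
theorem act_fst_fixed {a : D.N} {i : D.Pair} (h : i.1 ≠ D.oneP) (ha : (D.act a i).1 = i.1) :
    (a : G) ∈ D.C := by
  by_contra hna
  obtain ⟨φ, hφ⟩ := Chars.exists_hom_of_degree_one (Chars.irr_isCharacter i.1) (D.irrP_one i.1)
  let f : D.P → D.P := fun u => (D.conjP a u) * u⁻¹
  have hinv : ∀ u, φ (f u) = 1 := fun u => by
    have h1 := D.act_fst a i u
    rw [ha, hφ] at h1
    have h2 : φ u = φ (D.conjP a u) := Units.ext h1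
    simp [f, map_mul, map_inv, h2]
  have hf : Function.Injective f := by
    intro u w huw
    have h1 : (a : G)⁻¹ * u * a * (u : G)⁻¹ = (a : G)⁻¹ * w * a * (w : G)⁻¹ :=
      congrArg Subtype.val huw
    by_contra hne
    set z := (w : G)⁻¹ * (u : G) with hz
    refine hna (D.hfix _ a.2 z (D.P.mul_mem (D.P.inv_mem w.2) u.2) (fun h1 => hne ?_) ?_)
    · exact Subtype.ext (inv_mul_eq_one.1 h1).symm
    have h2 : (a : G)⁻¹ * z * a = z := by
      have hcu : (a : G)⁻¹ * u * a ∈ D.P := D.hPN _ a.2 _ u.2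
      have hcw : (a : G)⁻¹ * w * a ∈ D.P := D.hPN _ a.2 _ w.2
      calc (a : G)⁻¹ * z * a = ((a : G)⁻¹ * w * a)⁻¹ * ((a : G)⁻¹ * u * a) := by rw [hz]; group
        _ = ((a : G)⁻¹ * w * a)⁻¹ * ((a : G)⁻¹ * u * a * (u : G)⁻¹ * u) := by group
        _ = ((a : G)⁻¹ * w * a)⁻¹ * ((a : G)⁻¹ * w * a * (w : G)⁻¹ * u) := by rw [h1]
        _ = _ := by rw [hz]; group
    calc (a : G) * z = (a : G) * ((a : G)⁻¹ * z * a) := by rw [h2]
      _ = z * a := by group
  refine h (Subtype.ext (funext fun u => ?_))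
  obtain ⟨w, rfl⟩ := (Finite.injective_iff_surjective.1 hf) u
  rw [hφ]
  show ((φ (f w) : ℂˣ) : ℂ) = 1
  rw [hinv, Units.val_one]

theorem act_of_mem {a : D.N} (ha : (a : G) ∈ D.C) (i : D.Pair) : D.act a i = i := by
  refine D.act_eq_of a i i fun c => ?_
  have h := Chars.isClassFunction_irr (D.mu i) c ⟨(a : G)⁻¹, D.C.inv_mem ha⟩
  rw [← h]
  refine congrArg (D.mu i : D.C → ℂ) ?_
  apply Subtype.ext
  show (a : G)⁻¹ * (c : G) * (a : G) = (a : G)⁻¹ * (c : G) * ((a : G)⁻¹)⁻¹
  rw [inv_inv]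

theorem fst_injOn_orb {i j l : D.Pair} (hi : i.1 ≠ D.oneP) (hj : D.Rel i j) (hl : D.Rel i l)
    (h : j.1 = l.1) : j = l := by
  obtain ⟨b, rfl⟩ := D.rel_trans (D.rel_symm hj) hl
  have hj1 : j.1 ≠ D.oneP := by
    obtain ⟨a, rfl⟩ := hj; exact D.act_fst_ne a hi
  exact (D.act_of_mem (D.act_fst_fixed hj1 h.symm) j).symm

open Classical in
theorem card_act_eq {i : D.Pair} (hi : i.1 ≠ D.oneP) (j : D.Pair) :
    (Finset.univ.filter fun a : D.N => D.act a i = j).card =
      if D.Rel i j then Nat.card D.C else 0 := by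
  split_ifs with h
  · obtain ⟨b, rfl⟩ := h
    rw [Nat.card_eq_fintype_card, ← Finset.card_univ]
    refine Finset.card_bij (fun a ha => (⟨((b⁻¹ * a : D.N) : G), ?_⟩ : D.C))
      (fun _ _ => Finset.mem_univ _) (fun a _ a' _ e => ?_) (fun c _ => ?_)
    · refine D.act_fst_fixed (a := b⁻¹ * a) hi ?_
      rw [← D.act_act, (Finset.mem_filter.1 ha).2, D.act_act, inv_mul_cancel, D.act_one]
    · exact mul_left_cancel (Subtype.ext (congrArg (Subtype.val : D.C → G) e) :
        b⁻¹ * a = b⁻¹ * a')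
    · refine ⟨b * ⟨(c : G), D.hCN c.2⟩, Finset.mem_filter.2 ⟨Finset.mem_univ _, ?_⟩,
        Subtype.ext (by simp)⟩
      rw [← D.act_act, D.act_of_mem (a := ⟨(c : G), D.hCN c.2⟩) c.2]
  · exact Finset.card_eq_zero.2 (Finset.filter_eq_empty_iff.2 fun a _ ha => h ⟨a, ha⟩)

/-- The size of a regular orbit. -/
noncomputable def ee : ℕ := Nat.card D.N / Nat.card D.C

theorem card_N : Nat.card D.N = D.ee * Nat.card D.C :=
  (Nat.div_mul_cancel (Subgroup.card_dvd_of_le D.hCN)).symm

theorem ee_pos : 0 < D.ee := by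
  have h := D.card_N
  rcases Nat.eq_zero_or_pos D.ee with h0 | h0
  · rw [h0, zero_mul] at h; exact absurd h Nat.card_pos.ne'
  · exact h0

theorem card_orb {i : D.Pair} (hi : i.1 ≠ D.oneP) : (D.orb i).card = D.ee := by
  classical
  have h := Finset.card_eq_sum_card_image (fun a : D.N => D.act a i) Finset.univ
  rw [Finset.sum_congr rfl (g := fun _ => Nat.card D.C) fun j hj => by
    rw [D.card_act_eq hi j, if_pos (D.mem_orb.1 (by
      simpa [orb] using hj))], Finset.sum_const, smul_eq_mul, Finset.card_univ,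
    ← Nat.card_eq_fintype_card, D.card_N] at h
  exact (Nat.eq_of_mul_eq_mul_right Nat.card_pos h).symm

/-- A class function on the centralizer vanishing where the `P`-part is trivial. -/
def Van (F : D.C → ℂ) : Prop := IsClassFunction D.C F ∧ ∀ c, c ^ D.k = 1 → F c = 0

theorem indFun_val {F : D.C → ℂ} (hF : D.Van F) (g : D.C) :
    indFun D.C F (g : G) = (Nat.card D.C : ℂ)⁻¹ * ∑ a : D.N, F (D.conjC a g) := by
  classical
  rw [Chars.indFun_apply]
  congr 1
  have h1 : ∑ x : G, extendByZero D.C F (x⁻¹ * (g : G) * x) =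
      ∑ x ∈ Finset.univ.filter (· ∈ D.N), extendByZero D.C F (x⁻¹ * (g : G) * x) := by
    refine (Finset.sum_subset (Finset.subset_univ _) fun x _ hx => ?_).symm
    by_cases hm : x⁻¹ * (g : G) * x ∈ D.C
    · rw [Chars.extendByZero_of_mem D.C F hm]
      refine hF.2 _ (by_contra fun hk => hx (Finset.mem_filter.2 ⟨Finset.mem_univ _, ?_⟩))
      refine D.hTI x ⟨_, hm⟩ ?_ hk
      simp [mul_assoc]
    · exact Chars.extendByZero_of_not_mem D.C F hm
  rw [h1, Finset.sum_subtype (p := fun x => x ∈ D.N) _ (fun x => by simp)]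
  refine Finset.sum_congr rfl fun a _ => ?_
  rw [Chars.extendByZero_of_mem D.C F (D.hconj _ a.2 _ g.2)]
  rfl

open Classical in
/-- The inner products of induced differences of labelled characters. -/
theorem inner_diff (i j l m : D.Pair) (h : D.Van ((D.mu i : D.C → ℂ) - (D.mu j : D.C → ℂ)))
    (h' : D.Van ((D.mu l : D.C → ℂ) - (D.mu m : D.C → ℂ))) :
    classInner (indFun D.C ((D.mu i : D.C → ℂ) - (D.mu j : D.C → ℂ)))
      (indFun D.C ((D.mu l : D.C → ℂ) - (D.mu m : D.C → ℂ))) =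
      (Nat.card D.C : ℂ)⁻¹ *
        (((Finset.univ.filter fun a : D.N => D.act a l = i).card : ℂ) -
          (Finset.univ.filter fun a : D.N => D.act a m = i).card -
          (Finset.univ.filter fun a : D.N => D.act a l = j).card +
          (Finset.univ.filter fun a : D.N => D.act a m = j).card) := by
  rw [Chars.classInner_indFun D.C _ (Chars.isClassFunction_indFun _ _)]
  have e : (fun c : D.C => indFun D.C ((D.mu l : D.C → ℂ) - (D.mu m : D.C → ℂ)) c) =
      (Nat.card D.C : ℂ)⁻¹ • ∑ a : D.N,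
        ((D.mu (D.act a l) : D.C → ℂ) - (D.mu (D.act a m) : D.C → ℂ)) := by
    funext c
    rw [D.indFun_val h' c, Pi.smul_apply, smul_eq_mul, Finset.sum_apply]
    simp only [Pi.sub_apply, D.mu_act]
  rw [e, Chars.classInner_smul_right, map_inv₀, map_natCast, Chars.classInner_sum_right]
  congr 1
  simp only [Chars.classInner_sub_left, Chars.classInner_sub_right, D.classInner_mu_eq,
    Finset.sum_sub_distrib, Finset.sum_boole]
  simp only [eq_comm (a := i), eq_comm (a := j)]
  ring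

end TIData

end Cfsg.Agent.Chars2
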