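import Cfsg.Agent.Chars2.TIMain

/-!
Small characters when all nontrivial elements of a Sylow group have the same centralizer.
-/

set_option autoImplicit false
set_option linter.style.haveILetI false
set_option linter.unusedSectionVars false
set_option linter.unusedVariables false

namespace Cfsg.Agent.Chars2

open Cfsg Cfsg.Agent

universe u

section

variable {G : Type u} [Group G] [Fintype G] {p : ℕ} [hp : Fact p.Prime] (P : Sylow p G)

/-- Every nontrivial element of `P` has the centralizer of `P`. -/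
def UniformCentralizers : Prop :=
  ∀ x ∈ (P : Subgroup G), x ≠ 1 →
    Subgroup.centralizer ({x} : Set G) = Subgroup.centralizer ((P : Subgroup G) : Set G)

variable {P} (hstar : UniformCentralizers P)
include hstar

theorem uniform_le_centralizer :
    (P : Subgroup G) ≤ Subgroup.centralizer ((P : Subgroup G) : Set G) := by
  intro u hu
  rcases eq_or_ne u 1 with rfl | hu1
  · exact Subgroup.one_mem _
  · rw [← hstar u hu hu1]
    exact Subgroup.mem_centralizer_singleton_iff.2 rfl

/-- The data of a trivial intersection Sylow group. -/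
theorem exists_tiData :
    ∃ D : TIData G, D.P = (P : Subgroup G) ∧
      D.N = Subgroup.normalizer ((P : Subgroup G) : Set G) ∧
      D.C = Subgroup.centralizer ((P : Subgroup G) : Set G) := by
  classical
  set Q : Subgroup G := (P : Subgroup G) with hQ
  set C : Subgroup G := Subgroup.centralizer (Q : Set G) with hCdef
  set N : Subgroup G := Subgroup.normalizer (Q : Set G) with hNdef
  have hPC : Q ≤ C := uniform_le_centralizer hstar
  have hcomm : ∀ c ∈ C, ∀ u ∈ Q, u * c = c * u := fun c hc u hu =>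
    Subgroup.mem_centralizer_iff.1 hc u hu
  let P' : Sylow p C := P.subtype hPC
  have hP' : ∀ x : C, x ∈ (P' : Subgroup C) ↔ (x : G) ∈ Q := fun x => by
    show x ∈ ((P.subtype hPC : Sylow p C) : Subgroup C) ↔ _
    rw [Sylow.coe_subtype, Subgroup.mem_subgroupOf]
  have hPc : Subgroup.normalizer ((P' : Subgroup C) : Set C) ≤
      Subgroup.centralizer ((P' : Subgroup C) : Set C) := fun x _ =>
    Subgroup.mem_centralizer_iff.2 fun v hv => Subtype.ext (hcomm _ x.2 _ ((hP' v).1 hv))
  set K : Subgroup C := (MonoidHom.transferSylow P' hPc).ker with hK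
  have hKP : Subgroup.IsComplement' K (P' : Subgroup C) :=
    MonoidHom.ker_transferSylow_isComplement' P' hPc
  have hndvd : ¬ p ∣ Nat.card K := MonoidHom.not_dvd_card_ker_transferSylow P' hPc
  have hcop : (Nat.card Q).Coprime (Nat.card K) := by
    obtain ⟨m, hm⟩ := IsPGroup.iff_card.1 P.2
    rw [hQ, hm]
    exact Nat.Coprime.pow_left _ (hp.out.coprime_iff_not_dvd.2 hndvd)
  let f : Q × K →* C :=
    { toFun := fun x => ⟨(x.1 : G) * ((x.2 : C) : G), C.mul_mem (hPC x.1.2) (x.2 : C).2⟩
      map_one' := Subtype.ext (by simp)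
      map_mul' := fun x y => Subtype.ext (by
        show (x.1 : G) * y.1 * (((x.2 : C) : G) * ((y.2 : C) : G)) = _
        rw [mul_assoc, ← mul_assoc (y.1 : G), hcomm _ (x.2 : C).2 _ y.1.2]
        simp [mul_assoc]) }
  have hinj : Function.Injective f := by
    rw [injective_iff_map_eq_one]
    rintro ⟨u, v⟩ h
    have h1 : (u : G) * ((v : C) : G) = 1 := congrArg Subtype.val h
    have h2 : (v : C) ∈ (P' : Subgroup C) := (hP' _).2 (by
      rw [eq_inv_of_mul_eq_one_right h1]; exact Q.inv_mem u.2)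
    have h3 : (v : C) = 1 := Subgroup.disjoint_def.1 hKP.disjoint v.2 h2
    have h4 : v = 1 := Subtype.ext h3
    subst h4
    exact Prod.ext (Subtype.ext (by simpa using h1)) rfl
  have hcardP : Nat.card (P' : Subgroup C) = Nat.card Q :=
    Nat.card_congr (Subgroup.subgroupOfEquivOfLe hPC).toEquiv
  have hbij : Function.Bijective f := by
    have hc : Nat.card C = Nat.card (Q × K) := by
      rw [Nat.card_prod, ← hKP.card_mul, hcardP, mul_comm]
    exact (Nat.bijective_iff_injective_and_card f).2 ⟨hinj, hc.symm⟩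
  let e : Q × K ≃* C := MulEquiv.ofBijective f hbij
  have he : ∀ x : Q × K, (e x : G) = (x.1 : G) * ((x.2 : C) : G) := fun x => rfl
  obtain ⟨k, hk1, hk2⟩ := Nat.chineseRemainder hcop 1 0
  have hk : ∀ x : Q × K, (e x) ^ k = e (x.1, 1) := fun x => by
    rw [← map_pow]
    congr 1
    refine Prod.ext ?_ ?_
    · show x.1 ^ k = x.1
      rw [← pow_mod_natCard x.1, hk1, pow_mod_natCard, pow_one]
    · show x.2 ^ k = 1
      rw [← pow_mod_natCard x.2, hk2, Nat.zero_mod, pow_zero]
  have hpfst : ∀ c : C, (c : G) ^ Nat.card Q = 1 → (c : G) ∈ Q := by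
    intro c hc
    obtain ⟨x, rfl⟩ := e.surjective c
    have h1 : x ^ Nat.card Q = 1 := e.injective (Subtype.ext (by
      rw [map_pow, map_one, SubgroupClass.coe_pow, hc, OneMemClass.coe_one]))
    have h2 : x.2 = 1 := by
      have h3 : x.2 ^ Nat.card Q = 1 := congrArg Prod.snd h1
      rw [← orderOf_eq_one_iff]
      exact Nat.eq_one_of_dvd_coprimes hcop (orderOf_dvd_of_pow_eq_one h3) (orderOf_dvd_natCard _)
    rw [he, h2, OneMemClass.coe_one, OneMemClass.coe_one, mul_one]
    exact x.1.2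
  have hnorm : ∀ a ∈ N, ∀ u ∈ Q, a * u * a⁻¹ ∈ Q := fun a ha u hu => by
    rw [hNdef] at ha
    exact (Subgroup.mem_normalizer_iff.1 ha u).1 hu
  refine ⟨{ P := Q, C := C, N := N, K := K, k := k, e := e, he := he, hk := hk,
            hconj := ?_, hPN := ?_, hCN := ?_, hab := ?_, hfix := ?_, hTI := ?_ }, rfl, rfl, rfl⟩
  · intro a ha c hc
    refine Subgroup.mem_centralizer_iff.2 fun u hu => ?_
    have h := hcomm c hc _ (hnorm a ha u hu)
    calc u * (a⁻¹ * c * a) = a⁻¹ * (a * u * a⁻¹ * c) * a := by group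
      _ = a⁻¹ * (c * (a * u * a⁻¹)) * a := by rw [h]
      _ = a⁻¹ * c * a * u := by group
  · intro a ha u hu
    simpa using hnorm a⁻¹ (N.inv_mem ha) u hu
  · intro c hc
    rw [hNdef, Subgroup.mem_normalizer_iff]
    intro u
    constructor
    · intro hu
      rwa [← hcomm c hc u hu, mul_inv_cancel_right]
    · intro hu
      have h := hcomm c hc _ hu
      have : c * u * c⁻¹ = u := by
        have h2 : c * u * c⁻¹ * c = c * (c * u * c⁻¹) := h
        calc c * u * c⁻¹ = c⁻¹ * (c * (c * u * c⁻¹)) := by group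
          _ = c⁻¹ * (c * u * c⁻¹ * c) := by rw [h2]
          _ = u := by group
      rwa [this] at hu
  · intro u hu v hv
    exact hcomm v (hPC hv) u hu
  · intro a ha u hu hu1 h
    rw [hCdef, ← hstar u hu hu1]
    exact Subgroup.mem_centralizer_singleton_iff.2 h
  · intro b c hbc hck
    obtain ⟨x, rfl⟩ := e.surjective c
    obtain ⟨y, hy⟩ := e.surjective ⟨_, hbc⟩
    have hx1 : (x.1 : G) ≠ 1 := fun h => hck (by
      rw [hk, show x.1 = 1 from Subtype.ext h, ← Prod.one_eq_mk, map_one])
    have hck' : ((e x : C) : G) ^ k = x.1 := by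
      rw [← SubgroupClass.coe_pow, hk, he]; simp
    have hyk : (y.1 : G) = b * x.1 * b⁻¹ := by
      have h1 : ((e y : C) : G) ^ k = y.1 := by rw [← SubgroupClass.coe_pow, hk, he]; simp
      rw [← h1, hy]
      show (b * _ * b⁻¹) ^ k = _
      rw [conj_pow, hck']
    have hy1 : (y.1 : G) ≠ 1 := by
      rw [hyk]
      exact fun h => hx1 (conj_eq_one_iff.1 h)
    have hbC : ∀ g ∈ C, b * g * b⁻¹ ∈ C := by
      intro g hg
      rw [hCdef, ← hstar _ x.1.2 hx1] at hg
      rw [hCdef, ← hstar _ y.1.2 hy1, Subgroup.mem_centralizer_singleton_iff, hyk]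
      rw [Subgroup.mem_centralizer_singleton_iff] at hg
      calc b * g * b⁻¹ * (b * (x.1 : G) * b⁻¹) = b * (g * x.1) * b⁻¹ := by group
        _ = b * ((x.1 : G) * g) * b⁻¹ := by rw [hg]
        _ = _ := by group
    have hle : ∀ u ∈ Q, b * u * b⁻¹ ∈ Q := fun u hu =>
      hpfst ⟨_, hbC u (hPC hu)⟩ (by
        show (b * u * b⁻¹) ^ Nat.card Q = 1
        rw [conj_pow, show u ^ Nat.card Q = 1 from congrArg Subtype.val
          (pow_card_eq_one' (x := (⟨u, hu⟩ : Q))), mul_one, mul_inv_cancel])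
    rw [hNdef, Subgroup.mem_normalizer_iff_map_conj_eq]
    refine Subgroup.eq_of_le_of_card_ge ?_ ?_
    · rintro g ⟨u, hu, rfl⟩
      exact hle u hu
    · exact (Subgroup.card_map_of_injective (MulEquiv.injective _)).ge

/-- A nonprincipal character of small degree: the two alternatives. -/
theorem small_alternative (χ : IrrCharacter G) (hne : χ ≠ TIData.oneG)
    (hdeg : charDegree (χ : G → ℂ) ^ 2 + 1 < Nat.card P) :
    (∃ K : Subgroup G, K.Normal ∧ K ≠ ⊤ ∧ (P : Subgroup G) ≤ K) ∨
      ((∃ N : Subgroup G, N.Normal ∧ N.index = Nat.card P) ∧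
        charDegree (χ : G → ℂ) = 1) := by
  classical
  refine or_iff_not_imp_left.2 fun hnot => ?_
  push Not at hnot
  obtain ⟨D, hDP, hDN, hDC⟩ := exists_tiData hstar
  -- a nonprincipal character is nontrivial on `P`
  have htriv : ∀ ψ : IrrCharacter G, (∀ u ∈ (P : Subgroup G), (ψ : G → ℂ) u = (ψ : G → ℂ) 1) →
      ψ = TIData.oneG := by
    intro ψ h
    have hc := Chars.irr_isCharacter ψ
    have htop : Chars.charKer hc = ⊤ := by
      by_contra ht
      exact hnot _ (Chars.charKer_normal hc) ht fun u hu => (Chars.mem_charKer hc).2 (h u hu)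
    have hconst : ∀ g, (ψ : G → ℂ) g = (ψ : G → ℂ) 1 := fun g =>
      (Chars.mem_charKer hc).1 (htop ▸ Subgroup.mem_top g)
    by_contra hne1
    have h0 := Chars.classInner_irrCharacter ψ (TIData.oneG : IrrCharacter G)
    rw [if_neg hne1, Chars.classInner_def] at h0
    simp only [TIData.oneG, map_one, mul_one, hconst, Finset.sum_const, Finset.card_univ,
      nsmul_eq_mul, ← Nat.card_eq_fintype_card] at h0
    rw [inv_mul_cancel_left₀ Chars.card_ne_zero] at h0
    exact Chars.irr_apply_one_ne_zero ψ.2 h0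
  have hno : ∀ ψ : IrrCharacter G, ψ ≠ TIData.oneG → (D.supp ψ).Nonempty := by
    intro ψ hψ
    by_contra hemp
    refine hψ (htriv ψ fun u hu => ?_)
    rw [← hDP] at hu
    have hu' := D.restrict_eq ψ (D.inP ⟨u, hu⟩)
    have h1 := D.restrict_eq ψ 1
    rw [D.inP_coe] at hu'
    rw [OneMemClass.coe_one] at h1
    rw [show (ψ : G → ℂ) u = _ from hu', h1]
    refine Finset.sum_congr rfl fun i _ => ?_
    rcases eq_or_ne (D.mult ψ i) 0 with h0 | h0
    · rw [h0, Nat.cast_zero, zero_mul, zero_mul]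
    · have hi : i.1 = D.oneP := by
        by_contra hi
        exact hemp ⟨i.1, D.mem_supp.2 ⟨hi, i.2, h0⟩⟩
      rw [D.mu_inP, D.mu_one, hi]
      simp [TIData.oneP]
  have hd : TIData.deg χ = charDegree (χ : G → ℂ) := Nat.cast_injective (R := ℂ) (by
    rw [← TIData.deg_spec, BlockChar.charDegree_cast (Chars.irr_isCharacter χ)])
  have hd1 : charDegree (χ : G → ℂ) = 1 := by
    rcases Nat.lt_or_ge 1 (TIData.deg χ) with h | h
    · exact (D.no_small_degree hno χ h (by rw [hd, hDP]; exact hdeg)).elim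
    · have := BlockChar.charDegree_pos χ.2
      omega
  refine ⟨?_, hd1⟩
  obtain ⟨φ, hφ⟩ := Chars.exists_hom_of_degree_one (Chars.irr_isCharacter χ)
    (by rw [← BlockChar.charDegree_cast (Chars.irr_isCharacter χ), hd1, Nat.cast_one])
  have hNC : D.N ≤ D.C := by
    intro a ha
    by_contra hna
    refine hne (htriv χ fun u hu => ?_)
    rw [← hDP] at hu
    let f : D.P → D.P := fun v => ⟨a⁻¹ * v * a, D.hPN a ha v v.2⟩ * v⁻¹
    have hf : Function.Injective f := by
      intro v w hvw
      have h1 : a⁻¹ * v * a * (v : G)⁻¹ = a⁻¹ * w * a * (w : G)⁻¹ := congrArg Subtype.val hvw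
      by_contra hne'
      refine hna (D.hfix _ ha ((w : G)⁻¹ * v) (D.P.mul_mem (D.P.inv_mem w.2) v.2)
        (fun h2 => hne' (Subtype.ext (inv_mul_eq_one.1 h2).symm)) ?_)
      have hc : (v : G) * (w : G)⁻¹ = (w : G)⁻¹ * v := D.hab _ v.2 _ (D.P.inv_mem w.2)
      have h2 : a⁻¹ * ((w : G)⁻¹ * v) * a = (w : G)⁻¹ * v := by
        calc a⁻¹ * ((w : G)⁻¹ * v) * a = (a⁻¹ * w * a)⁻¹ * (a⁻¹ * v * a * (v : G)⁻¹) * v := by
              group
          _ = (a⁻¹ * w * a)⁻¹ * (a⁻¹ * w * a * (w : G)⁻¹) * v := by rw [h1]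
          _ = _ := by group
      calc a * ((w : G)⁻¹ * v) = a * (a⁻¹ * ((w : G)⁻¹ * v) * a) := by rw [h2]
        _ = _ := by group
    obtain ⟨w, hw⟩ := (Finite.injective_iff_surjective.1 hf) ⟨u, hu⟩
    have hu2 : u = a⁻¹ * w * a * (w : G)⁻¹ := (congrArg Subtype.val hw).symm
    simp only [hφ, hu2]
    simp [mul_comm, mul_left_comm]
  have hP : Subgroup.normalizer ((P : Subgroup G) : Set G) ≤
      Subgroup.centralizer ((P : Subgroup G) : Set G) := by
    rw [← hDN, ← hDC]; exact hNC
  exact ⟨(MonoidHom.transferSylow P hP).ker, inferInstance,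
    (MonoidHom.ker_transferSylow_isComplement' P hP).symm.index_eq_card⟩

end

end Cfsg.Agent.Chars2
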