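import Cfsg.Agent.Chars.Blichfeldt
import Cfsg.Agent.Chars.Orth

/-!
In a split extension of a `p'`-group by an abelian `p`-group, `p > n + 1` makes the `p`-elements
scalar in the irreducible representations of degree `n`.
-/

set_option autoImplicit false
set_option linter.style.haveILetI false
set_option linter.unusedSectionVars false
set_option linter.unusedVariables false

namespace Cfsg.Agent.Chars2

open Cfsg Cfsg.Agent
open scoped ComplexConjugate

universe u

variable {G : Type u} [Group G] [Fintype G]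

/-- A `p`-element whose power sums are stable under a twist is a scalar. -/
theorem scalar_of_twist {n : ℕ} (ρ : Representation ℂ G (Fin n → ℂ)) {p a k : ℕ}
    [hp : Fact p.Prime] (hk : orderOf (k : ZMod p) = p - 1) (hpn : n + 1 < p) (hn : n ≠ 0)
    {x : G} (hx : x ^ p ^ a = 1) {w : ℂ} (hw : w ^ p ^ a = 1)
    (h : ∀ j : ℕ, ρ.character (x ^ j) = w ^ j * ρ.character (x ^ (j * k))) :
    ∃ c : ℂ, ρ x = c • (1 : Module.End ℂ (Fin n → ℂ)) := by
  classical
  obtain ⟨z, hz, hzc, hzs, -⟩ := Chars.exists_eigenvalues ρ x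
  have hzp : ∀ i, z i ^ p ^ a = 1 := fun i => by
    obtain ⟨c, hc⟩ := orderOf_dvd_of_pow_eq_one hx
    rw [hc, pow_mul, hz, one_pow]
  have hsum : ∀ j : ℕ, ∑ i, z i ^ j = ∑ i, (w * z i ^ k) ^ j := by
    intro j
    rw [← hzc, h, hzc, Finset.mul_sum]
    refine Finset.sum_congr rfl fun i _ => ?_
    rw [mul_pow, ← pow_mul, mul_comm j k]
  have hk1 : ¬ ((k : ZMod p) = 1) := fun h1 => by
    rw [h1, orderOf_one] at hk
    omega
  have hw0 : w ≠ 0 := fun h0 => by
    rw [h0, zero_pow (pow_pos hp.out.pos a).ne'] at hw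
    exact zero_ne_one hw
  obtain ⟨f, hf'⟩ : ∃ f : ℕ, 1 + f * k ≡ f [MOD p ^ a] := by
    have hu : IsUnit (1 - (k : ZMod (p ^ a))) := by
      rcases Nat.eq_zero_or_pos a with h0 | h0
      · haveI : Subsingleton (ZMod (p ^ a)) := by
          rw [h0, pow_zero]; infer_instance
        exact isUnit_of_subsingleton _
      · haveI : NeZero (p ^ a) := ⟨(pow_pos hp.out.pos a).ne'⟩
        have hz1 : (1 - (k : ZMod (p ^ a))) = (((1 - (k : ZMod (p ^ a))).val : ℕ) : ZMod (p ^ a)) :=
          (ZMod.natCast_zmod_val _).symm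
        rw [hz1, ZMod.isUnit_iff_coprime]
        refine ((hp.out.coprime_iff_not_dvd).2 fun h => hk1 ?_).symm.pow_right a
        have h2 := congrArg (ZMod.castHom (dvd_pow_self p h0.ne') (ZMod p)) hz1
        rw [map_sub, map_one, map_natCast, map_natCast,
          (ZMod.natCast_eq_zero_iff _ _).2 h] at h2
        exact (sub_eq_zero.1 h2).symm
    haveI : NeZero (p ^ a) := ⟨(pow_pos hp.out.pos a).ne'⟩
    obtain ⟨u, hu⟩ := hu
    refine ⟨((u⁻¹ : (ZMod (p ^ a))ˣ) : ZMod (p ^ a)).val, ?_⟩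
    rw [← ZMod.natCast_eq_natCast_iff]
    push_cast
    rw [ZMod.natCast_zmod_val]
    have h1 := Units.inv_mul u
    rw [hu] at h1
    linear_combination -h1
  set c := w ^ f with hc
  have hcp : c ^ p ^ a = 1 := by rw [hc, ← pow_mul, mul_comm, pow_mul, hw, one_pow]
  have hc0 : c ≠ 0 := pow_ne_zero _ hw0
  have hck : w * c ^ k = c := by
    rw [hc, ← pow_mul, ← pow_succ', show f * k + 1 = 1 + f * k by ring]
    exact Chars.pow_eq_pow_of_modEq hw hf'
  let s : Finset ℂ := Finset.univ.image fun i => z i / c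
  have hall : ∀ t ∈ s, t = 1 := by
    refine Chars.eq_one_of_stable (a := a) hk ?_ ?_ ?_
    · have h1 : s.card ≤ n := Finset.card_image_le.trans (by simp)
      omega
    · intro t ht
      obtain ⟨i, -, rfl⟩ := Finset.mem_image.1 ht
      rw [div_pow, hzp, hcp, div_one]
    · intro t ht
      obtain ⟨i, -, rfl⟩ := Finset.mem_image.1 ht
      have hroot : ∀ i, (w * z i ^ k) ^ p ^ a = 1 := fun i => by
        rw [mul_pow, hw, ← pow_mul, mul_comm k, pow_mul, hzp, one_pow, one_mul]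
      have hcount := Chars.count_eq_of_power_sums (pow_pos hp.out.pos a).ne' z
        (fun i => w * z i ^ k) hzp hroot hsum _ (hroot i)
      have hpos : 0 < (Finset.univ.filter fun j => w * z j ^ k = w * z i ^ k).card :=
        Finset.card_pos.2 ⟨i, by simp⟩
      rw [← hcount] at hpos
      obtain ⟨i', hi'⟩ := Finset.card_pos.1 hpos
      refine Finset.mem_image.2 ⟨i', Finset.mem_univ _, ?_⟩
      rw [(Finset.mem_filter.1 hi').2]
      conv_lhs => rw [← hck]
      rw [div_pow, mul_div_mul_left _ _ hw0]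
  refine hzs fun i j => ?_
  have h1 := hall _ (Finset.mem_image.2 ⟨i, Finset.mem_univ _, rfl⟩)
  have h2 := hall _ (Finset.mem_image.2 ⟨j, Finset.mem_univ _, rfl⟩)
  rw [div_eq_one_iff_eq hc0] at h1 h2
  rw [h1, h2]

/-- Two irreducible characters agreeing on a normal subgroup with abelian quotient differ by a
linear character of the quotient. -/
theorem exists_linear_factor (O : Subgroup G) [O.Normal]
    (hab : ∀ a b : G ⧸ O, a * b = b * a) {χ χ' : G → ℂ} (hχ : IsIrrCharacter G χ)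
    (hχ' : IsIrrCharacter G χ') (h : ∀ o ∈ O, χ' o = χ o) :
    ∃ ν : G →* ℂˣ, (∀ o ∈ O, ν o = 1) ∧ ∀ g, χ' g = (ν g : ℂ) * χ g := by
  classical
  haveI : Fintype (G ⧸ O) := Fintype.ofFinite _
  choose l hl using fun φ : IrrCharacter (G ⧸ O) =>
    Chars.exists_hom_of_degree_one (Chars.irr_isCharacter φ)
      (Chars.irr_apply_one_of_comm hab φ.2)
  let ν : IrrCharacter (G ⧸ O) → (G →* ℂˣ) := fun φ => (l φ).comp (QuotientGroup.mk' O)
  have hν : ∀ g : G, ∑ φ, conj ((ν φ g : ℂˣ) : ℂ) = if g ∈ O then (Nat.card (G ⧸ O) : ℂ) else 0 := by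
    intro g
    have h1 := Chars.sum_apply_one_mul (G := G ⧸ O) (g : G ⧸ O)
    have h2 : ∑ φ : IrrCharacter (G ⧸ O), ((ν φ g : ℂˣ) : ℂ) =
        if g ∈ O then (Nat.card (G ⧸ O) : ℂ) else 0 := by
      simp only [QuotientGroup.eq_one_iff] at h1
      rw [← h1]
      refine Finset.sum_congr rfl fun φ _ => ?_
      rw [Chars.irr_apply_one_of_comm hab φ.2, one_mul, hl φ]
      rfl
    rw [← map_sum, h2]
    split_ifs <;> simp
  have hsum : ∑ φ, classInner χ' (fun g => (ν φ g : ℂ) * χ g) ≠ 0 := by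
    have e : ∑ φ, classInner χ' (fun g => (ν φ g : ℂ) * χ g) =
        (Nat.card G : ℂ)⁻¹ * ∑ g : G, (if g ∈ O then (Nat.card (G ⧸ O) : ℂ) * (χ g * conj (χ g))
          else 0) := by
      simp only [Chars.classInner_def, ← Finset.mul_sum]
      congr 1
      rw [Finset.sum_comm]
      refine Finset.sum_congr rfl fun g _ => ?_
      simp only [map_mul]
      rw [← Finset.mul_sum, ← Finset.sum_mul, hν]
      split_ifs with hg
      · rw [h g hg]; ring
      · ring
    rw [e]
    refine mul_ne_zero (inv_ne_zero Chars.card_ne_zero) ?_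
    have e2 : ∀ g : G, (if g ∈ O then (Nat.card (G ⧸ O) : ℂ) * (χ g * conj (χ g)) else 0) =
        ((if g ∈ O then (Nat.card (G ⧸ O) : ℝ) * Complex.normSq (χ g) else 0 : ℝ) : ℂ) := by
      intro g
      split_ifs
      · rw [Complex.mul_conj]; push_cast; rfl
      · simp
    simp only [e2, ← Complex.ofReal_sum]
    rw [Complex.ofReal_ne_zero]
    refine ne_of_gt (Finset.sum_pos' (fun g _ => ?_) ⟨1, Finset.mem_univ _, ?_⟩)
    · split_ifs
      · exact mul_nonneg (Nat.cast_nonneg _) (Complex.normSq_nonneg _)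
      · exact le_rfl
    · rw [if_pos O.one_mem]
      exact mul_pos (Nat.cast_pos.2 Nat.card_pos)
        (Complex.normSq_pos.2 (Chars.irr_apply_one_ne_zero hχ))
  obtain ⟨φ, -, hφ⟩ := Finset.exists_ne_zero_of_sum_ne_zero hsum
  refine ⟨ν φ, fun o ho => ?_, ?_⟩
  · show l φ (QuotientGroup.mk' O o) = 1
    rw [QuotientGroup.mk'_apply, (QuotientGroup.eq_one_iff o).2 ho, map_one]
  · rw [Chars.classInner_irr hχ' (Chars.isIrrCharacter_mul_hom hχ (ν φ))] at hφ
    intro g
    split_ifs at hφ with he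
    · exact congrFun he g
    · exact absurd rfl hφ

/-- The `p`-elements are scalars. -/
theorem scalar_of_split {p : ℕ} [hp : Fact p.Prime] {n : ℕ}
    (ρ : Representation ℂ G (Fin n → ℂ)) (hirr : IsIrrCharacter G ρ.character) (hpn : n + 1 < p)
    (O : Subgroup G) [O.Normal] (hO : ¬ p ∣ Nat.card O) (hab : ∀ a b : G ⧸ O, a * b = b * a)
    {x : G} (hx : ∃ j, x ^ p ^ j = 1) :
    ∃ c : ℂ, ρ x = c • (1 : Module.End ℂ (Fin n → ℂ)) := by
  classical
  have hn : n ≠ 0 := fun h => Chars.irr_apply_one_ne_zero hirr (by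
    rw [Representation.char_one, Module.finrank_fin_fun, h, Nat.cast_zero])
  obtain ⟨a, ha⟩ : ∃ a, a = (Nat.card G).factorization p := ⟨_, rfl⟩
  obtain ⟨m, hmdef⟩ : ∃ m, m = Nat.card G / p ^ a := ⟨_, rfl⟩
  have hN : p ^ a * m = Nat.card G := by
    rw [hmdef, ha, Nat.ordProj_mul_ordCompl_eq_self]
  have hm : m.Coprime p := by
    rw [hmdef, ha]; exact (Nat.coprime_ordCompl hp.out Nat.card_pos.ne').symm
  obtain ⟨k, hkN, hkm, hko⟩ := Chars.exists_twist_exponent a hm
  rw [hN] at hkN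
  obtain ⟨σ, hσ⟩ := OddChar.exists_aut_pow (Nat.card_pos (α := G)).ne' hkN
  have hsig : ∀ g : G, σ (ρ.character g) = ρ.character (g ^ k) := by
    intro g
    obtain ⟨z, hz, hc, -, -⟩ := Chars.exists_eigenvalues ρ g
    rw [hc k, show ρ.character g = ∑ i, z i by simpa using hc 1, map_sum]
    exact Finset.sum_congr rfl fun i _ => hσ _ (by
      obtain ⟨c, hc'⟩ := orderOf_dvd_natCard g
      rw [hc', pow_mul, hz, one_pow])
  have hfix : ∀ o ∈ O, o ^ k = o := by
    intro o ho
    have h1 : orderOf o ∣ Nat.card O := by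
      rw [← Subgroup.orderOf_mk o ho]; exact orderOf_dvd_natCard _
    have h2 : (orderOf o).Coprime (p ^ a) :=
      ((hp.out.coprime_iff_not_dvd.2 fun h => hO (h.trans h1)).symm).pow_right a
    have h3 : orderOf o ∣ m := h2.dvd_of_dvd_mul_left (hN ▸ orderOf_dvd_natCard o)
    exact (pow_eq_pow_iff_modEq.2 (hkm.of_dvd h3)).trans (pow_one o)
  obtain ⟨ν, -, hν⟩ := exists_linear_factor O hab hirr (OddChar.isIrrCharacter_map σ hirr)
    (fun o ho => by rw [hsig, hfix o ho])
  obtain ⟨j, hj⟩ := hx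
  refine scalar_of_twist ρ (a := j) hko hpn hn hj (w := (((ν x)⁻¹ : ℂˣ) : ℂ)) ?_ fun i => ?_
  · rw [← Units.val_pow_eq_pow_val, inv_pow, ← map_pow, hj, map_one, inv_one, Units.val_one]
  · rw [pow_mul, ← hsig, hν, ← mul_assoc, map_pow, ← Units.val_pow_eq_pow_val, ← Units.val_mul,
      inv_pow, inv_mul_cancel, Units.val_one, one_mul]

end Cfsg.Agent.Chars2
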